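/-
Abelian TI `2`-subgroups that are neither cyclic nor elementary abelian: the types of pairs of points.
-/
import Cfsg.Agent.Timm.A0
import Cfsg.Agent.S1781
import Cfsg.Agent.Loc.TIFam
import Cfsg.Agent.Inv.BaerSuzuki

set_option autoImplicit false
set_option linter.unusedSectionVars false

open Cfsg Subgroup
open scoped commutatorElement

namespace CL.AT

open CL.Even CL.Timm CL.Grp CL.ATI
open CL.WTI (Pt ax op mem_op op_le_cent op_le_norm op_cel_mul)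

variable {G : Type*} [Group G]

/-- `C` is a point other than `B` -/
structure Nb (B C : Subgroup G) : Prop extends TB B where
  pt : Pt B C
  ne : C ≠ B

/-- commuting points -/
structure Cm (B C : Subgroup G) : Prop extends Nb B C where
  cm : C ≤ 𝒞(B)

/-- points that do not commute, with `B ∩ N(C) ≠ 1` -/
structure Pre (B C : Subgroup G) : Prop extends Nb B C where
  nc : ¬ C ≤ 𝒞(B)
  ax1 : ax B C ≠ ⊥

/-- an edge -/
structure Ed (B C : Subgroup G) : Prop extends Nb B C where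
  nc : ¬ C ≤ 𝒞(B)
  vv : om C ≤ 𝒞(om B)

/-- `(B ∩ N(C)) (C ∩ N(B))` -/
abbrev pl (B C : Subgroup G) : Subgroup G := ax B C ⊔ ax C B

variable {B C D E N P X : Subgroup G} {a b c d f g k n s t v w x y z : G}

theorem cm_of (hg : g ∈ 𝒞(X)) (hx : x ∈ X) : Commute g x := (comm_of_mem hg hx).symm

theorem mem_cent_of (h : ∀ x ∈ X, Commute g x) : g ∈ 𝒞(X) := mem_cent_iff.2 fun x hx => (h x hx).symm

theorem cel_one : ⁅x, y⁆ = 1 ↔ Commute x y := cel_eq_one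

theorem cm_right (h1 : Commute b a) (h : Commute b (a * c)) : Commute b c := by
  simpa using h1.inv_right.mul_right h

theorem cm_right' (h1 : Commute b c) (h : Commute b (a * c)) : Commute b a := by
  simpa using h.mul_right h1.inv_right

theorem conj_mem_iff : g * x * g⁻¹ ∈ cj g X ↔ x ∈ X := by rw [mem_cj]; simp [mul_assoc]

theorem om_inv (hv : v ∈ om B) : v⁻¹ = v := inv_eq_of_mul_eq_one_right (om_sq hv)

theorem om_ab (B : Subgroup G) : om B ≤ 𝒞(om B) := elem_le_cent (ozc_elem B)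

theorem cj_ax' (g : G) (B C : Subgroup G) : cj g (ax B C) = ax (cj g B) (cj g C) := by rw [cj_inf, cj_norm]

theorem cj_pl (g : G) (B C : Subgroup G) : cj g (pl B C) = pl (cj g B) (cj g C) := by rw [cj_sup, cj_ax', cj_ax']

theorem pl_comm (B C : Subgroup G) : pl B C = pl C B := sup_comm _ _

/-- two involutions with a product of odd order -/
theorem odd_conj {m : ℕ} (hx : x * x = 1) (hy : y * y = 1) (hm : (x * y) ^ (2 * m + 1) = 1) :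
    (x * y) ^ m * x * ((x * y) ^ m)⁻¹ = y := by
  have := CL.Inv.zpow_conj_of_inverts (CL.Inv.left_inverts_mul hx hy) m
  rw [zpow_natCast] at this
  rw [this, show (-(2 * (m : ℤ))) = 1 - ((2 * m + 1 : ℕ) : ℤ) by push_cast; ring, zpow_sub, zpow_natCast, hm,
    zpow_one, inv_one, mul_one, ← mul_assoc, hx, one_mul]

/-- the action on `N` -/
def act (N : Subgroup G) : 𝒩(N) →* MulAut N := N.normalizerMonoidHom

theorem act_eq_one {x : 𝒩(N)} : act N x = 1 ↔ (x : G) ∈ 𝒞(N) := by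
  rw [← MonoidHom.mem_ker, act, normalizerMonoidHom_ker]; rfl

theorem act_eq {x y : 𝒩(N)} : act N x = act N y ↔ (x : G)⁻¹ * y ∈ 𝒞(N) := by
  rw [← inv_mul_eq_one, ← map_inv, ← map_mul, act_eq_one]; rfl

/-- dihedral groups modulo `C(N)` -/
theorem dih_mod [Finite G] (hx : x ∈ 𝒩(N)) (hy : y ∈ 𝒩(N)) (xx : x * x ∈ 𝒞(N)) (yy : y * y ∈ 𝒞(N)) :
    (∃ m, (x * y) ^ (2 * m + 1) ∈ 𝒞(N)) ∨ ∃ z ∈ zpowers (x * y), z ∉ 𝒞(N) ∧ ⁅z, x⁆ ∈ 𝒞(N) ∧ ⁅z, y⁆ ∈ 𝒞(N) ∧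
      ∃ g ∈ zpowers (x * y), (g * x * g⁻¹)⁻¹ * (x * z) ∈ 𝒞(N) ∨ (g * y * g⁻¹)⁻¹ * (x * z) ∈ 𝒞(N) := by
  let x' : 𝒩(N) := ⟨x, hx⟩
  let y' : 𝒩(N) := ⟨y, hy⟩
  rcases Nat.even_or_odd (orderOf (act N x' * act N y')) with he | ⟨m, hm⟩
  · obtain ⟨_, ⟨i, rfl⟩, z1, -, h1, h2, _, ⟨j, rfl⟩, h3⟩ := CL.WTI.dihedral
      (by rw [← map_mul, act_eq_one]; exact xx) (by rw [← map_mul, act_eq_one]; exact yy) he
    simp only [← map_mul, ← map_zpow, ← map_inv] at z1 h1 h2 h3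
    refine Or.inr ⟨_, ⟨i, rfl⟩, fun e => z1 (act_eq_one.2 e), ?_, ?_, _, ⟨j, rfl⟩, h3.imp act_eq.1 act_eq.1⟩
    · exact (act_eq_one (x := ⁅(x' * y') ^ i, x'⁆)).1 (by
        rw [map_commutatorElement, cel_eq_one, ← map_mul, ← map_mul, h1])
    · exact (act_eq_one (x := ⁅(x' * y') ^ i, y'⁆)).1 (by
        rw [map_commutatorElement, cel_eq_one, ← map_mul, ← map_mul, h2])
  · exact Or.inl ⟨m, (act_eq_one (x := (x' * y') ^ (2 * m + 1))).1 (by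
      rw [map_pow, map_mul, ← hm, pow_orderOf_eq_one])⟩

theorem odd_conj_mod {m : ℕ} (hx : x ∈ 𝒩(N)) (hy : y ∈ 𝒩(N)) (xx : x * x ∈ 𝒞(N)) (yy : y * y ∈ 𝒞(N))
    (hm : (x * y) ^ (2 * m + 1) ∈ 𝒞(N)) : ((x * y) ^ m * x * ((x * y) ^ m)⁻¹)⁻¹ * y ∈ 𝒞(N) := by
  have := odd_conj (x := act N ⟨x, hx⟩) (y := act N ⟨y, hy⟩) (m := m) (by rw [← map_mul, act_eq_one]; exact xx)
    (by rw [← map_mul, act_eq_one]; exact yy) (by rw [← map_mul, ← map_pow, act_eq_one]; exact hm)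
  simp only [← map_mul, ← map_pow, ← map_inv] at this
  exact act_eq.1 this

section

variable (h : TB B)
include h

theorem tcomm (ha : a ∈ B) (hb : b ∈ B) : Commute a b := h.comm ha hb

theorem eq_one_of_comm (hg : g ∉ 𝒩(B)) (hd : d ∈ B) (e : Commute g d) : d = 1 :=
  by_contra fun h1 => hg (h.norm_of_comm (Pt.refl B) hd h1 e)

theorem two_om [Finite G] : ∃ v ∈ om B, ∃ w ∈ om B, v ≠ 1 ∧ w ≠ 1 ∧ v ≠ w := by
  obtain ⟨v, hv, v1⟩ := h.exists_om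
  by_contra hc
  push Not at hc
  have h1 : om B ≤ zpowers v := fun w hw => by
    by_cases w1 : w = 1
    · exact w1 ▸ one_mem _
    · exact hc v hv w hw v1 w1 ▸ mem_zpowers v
  have h2 := card_le_of_le h1
  have h3 := h.four
  rw [Nat.card_zpowers, orderOf_eq_prime (p := 2) (by rw [sq, om_sq hv]) v1] at h2
  omega

/-- the four-group lemma -/
theorem q4 [Finite G] (hx : ∀ v ∈ om B, Commute (v * x * v⁻¹) x) (nx : x ∉ 𝒩(B)) :
    x * x ∈ 𝒞(om B) ∧ ∀ v ∈ om B, ⁅x, v⁆ ∈ 𝒞(om B) := by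
  obtain ⟨t, ht, s, hs, t1, s1, ts⟩ := two_om h
  have p : ∀ v ∈ om B, v ≠ 1 → x * (v * x * v⁻¹) ∈ 𝒞(om B) := fun v hv v1 => mem_cent_of fun w hw => by
    have h1 : Commute (x * (v * x * v⁻¹)) v := by
      have e := (hx v hv).eq
      rw [om_inv hv] at e ⊢
      calc x * (v * x * v) * v = x * v * x * (v * v) := by group
        _ = v * v * (x * v * x) := by rw [om_sq hv]; group
        _ = v * (x * (v * x * v)) := by rw [← e]; group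
    refine cel_one.1 (eq_one_of_comm h nx (cel_mem_right (h.norm_of_comm (Pt.refl B) (ozc_le B hv) v1 h1)
      (ozc_le B hw)) ?_)
    rw [cel_def, show x * (v * x * v⁻¹) * w * (x * (v * x * v⁻¹))⁻¹ * w⁻¹ =
      x * (v * x * v⁻¹) * ((w * x * w⁻¹) * (w * v * x * (w * v)⁻¹))⁻¹ by group]
    exact ((Commute.refl x).mul_right (hx v hv).symm).mul_right
      ((hx w hw).symm.mul_right (hx _ (mul_mem hw hv)).symm).inv_right
  have ts1 : t * s ≠ 1 := fun e => ts (by rw [← om_inv hs, eq_inv_of_mul_eq_one_left e])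
  have xx : x * x ∈ 𝒞(om B) := by
    have e1 : t * (x * (s * x * s⁻¹)) * t⁻¹ = x * (s * x * s⁻¹) := by
      rw [← (cm_of (p s hs s1) ht).eq, mul_inv_cancel_right]
    have e2 : x * x = x * (t * s * x * (t * s)⁻¹) * (x * (s * x * s⁻¹))⁻¹ * (x * (t * x * t⁻¹)) := by
      rw [← e1, (hx t ht).symm.eq]
      group
    rw [e2]
    exact mul_mem (mul_mem (p _ (mul_mem ht hs) ts1) (inv_mem (p s hs s1))) (p t ht t1)
  refine ⟨xx, fun v hv => ?_⟩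
  by_cases v1 : v = 1
  · simp [v1]
  have : ⁅x, v⁆ = x * x * (x * (v * x * v⁻¹))⁻¹ := by rw [← (hx v hv).eq, cel_def]; group
  exact this ▸ mul_mem xx (inv_mem (p v hv v1))

theorem q4_sq [Finite G] (hx : ∀ v ∈ om B, Commute (v * x * v⁻¹) x) : x * x ∈ 𝒩(B) :=
  (em (x ∈ 𝒩(B))).elim (fun e => mul_mem e e) fun e => h.cent_om_le (q4 h hx e).1

theorem q4_cel [Finite G] (hx : ∀ v ∈ om B, Commute (v * x * v⁻¹) x) (hv : v ∈ om B) : ⁅x, v⁆ ∈ 𝒞(om B) :=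
  (em (x ∈ 𝒩(B))).elim (fun e => om_ab B (cel_mem_right (norm_le_norm_ozc B e) hv)) fun e => (q4 h hx e).2 v hv

theorem exists_sq : ∃ b ∈ B, b * b ≠ 1 := let ⟨b, hb, e⟩ := h.exists_not_om; ⟨b, hb, fun k => e (h.mem_om.2 ⟨hb, k⟩)⟩

variable [Finite G]

/-- points in a common `2`-group commute -/
theorem cm_of_pgroup (hP : IsPGroup 2 P) (hC : Pt B C) (hD : Pt B D) (h1 : C ≤ P) (h2 : D ≤ P) : D ≤ 𝒞(C) := by
  by_cases e : C = D
  · exact e ▸ (h.of_pt hC).ab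
  refine commutator_eq_bot_iff'.1 (CL.Loc.commute_of_ti_family {C | Pt B C} (fun s R hR => Pt.cj_right hR s)
    (fun R hR => ?_) (fun R hR T hT => (Pt.card hR).trans (Pt.card hT).symm) (fun R hR T hT => ?_) P hP C hC D hD h1 h2 e)
  · simpa only [pow_two] using exists_sq (h.of_pt hR)
  · exact or_iff_not_imp_left.2 fun e => eq_bot_iff.2 fun d hd => by_contra fun k => e (h.eq_of_mem_pt hR hT hd.1 hd.2 k)

/-- an element of order four -/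
theorem exists_four : ∃ b ∈ B, b * b ≠ 1 ∧ b * b ∈ om B := by
  obtain ⟨b, hb, e⟩ := exists_sq h
  obtain ⟨k, hk⟩ := isPGroup_iff_forall.1 h.isP b hb
  induction k generalizing b with
  | zero => exact absurd (by rw [show b = 1 by simpa using hk, one_mul]) e
  | succ k ih =>
    by_cases e' : b * b * (b * b) = 1
    · exact ⟨b, hb, e, h.mem_om.2 ⟨mul_mem hb hb, e'⟩⟩
    · exact ih _ (mul_mem hb hb) e' (by rwa [← pow_two, ← pow_mul, ← pow_succ'])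

end

namespace Nb

variable (e : Nb B C)
include e

theorem t' : TB C := e.of_pt e.pt

theorem symm : Nb C B := ⟨e.t', e.pt.symm, e.ne.symm⟩

theorem conj' (g : G) : Nb (cj g B) (cj g C) := ⟨e.toTB.conj g, e.pt.conj g, fun h => e.ne (cj_inj.1 h)⟩

theorem one (h1 : d ∈ B) (h2 : d ∈ C) : d = 1 := e.eq_one e.pt e.ne h1 h2

theorem nm (hc : c ∈ C) (c1 : c ≠ 1) (h : Commute g c) : g ∈ 𝒩(C) := e.norm_of_comm e.pt hc c1 h

theorem sq_ax [Finite G] (nc : ¬ C ≤ 𝒞(B)) (hb : b ∈ B) (h : b ∈ 𝒩(C)) : b * b = 1 := by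
  obtain ⟨g, rfl⟩ := e.pt
  rcases Cfsg.Agent.S1781.result B e.isP (le_centralizer_iff_isMulCommutative.1 e.ab) e.ti g e.ne with h1 | h1
  · rw [← pow_two]; exact h1.2 b ⟨hb, h⟩
  · exact (nc (commutator_eq_bot_iff'.1 h1)).elim

end Nb

theorem Cm.symm (e : Cm B C) : Cm C B := ⟨e.toNb.symm, le_centralizer_iff.1 e.cm⟩

theorem Cm.conj' (e : Cm B C) (g : G) : Cm (cj g B) (cj g C) :=
  ⟨e.toNb.conj' g, by rw [← cj_cent]; exact cj_mono g e.cm⟩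

namespace Pre

variable [Finite G] (e : Pre B C)
include e

theorem exists_ax : ∃ a ∈ ax B C, a ≠ 1 := (bot_or_exists_ne_one _).resolve_left e.ax1

theorem symm : Pre C B := ⟨e.toNb.symm, fun h => e.nc (le_centralizer_iff.1 h), fun hb => by
  obtain ⟨a, ha, a1⟩ := e.exists_ax
  obtain ⟨c, hc, -⟩ := e.t'.exists_not_om
  refine inf_cent_ne_bot e.t'.isP (e.isP.to_le (zpowers_le.2 ha.1)) (zpowers_le.2 ha.2)
    (fun h => e.t'.nel (h ▸ bot_le)) (eq_bot_iff.2 fun x hx => hb ▸ ⟨hx.1, ?_⟩)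
  exact e.toNb.symm.nm ha.1 a1 (cm_of hx.2 (mem_zpowers a))⟩

theorem conj' (g : G) : Pre (cj g B) (cj g C) :=
  ⟨e.toNb.conj' g, by rw [← cj_cent, cj_le_cj]; exact e.nc, by rw [← cj_ax', Ne, cj_eq_bot]; exact e.ax1⟩

theorem sq' (ha : a ∈ ax B C) : a * a = 1 := e.sq_ax e.nc ha.1 ha.2

theorem comm_ax (ha : a ∈ ax B C) (hc : c ∈ ax C B) : Commute a c :=
  cel_one.1 (e.one (cel_mem_left ha.1 hc.2) (cel_mem_right ha.2 hc.1))

theorem inv_mod (hb : b ∈ B) (ht : t ∈ ax C B) (t1 : t ≠ 1) : b * (t * b * t⁻¹) ∈ ax B C := by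
  have hb' := conj_mem ht.2 hb
  refine ⟨mul_mem hb hb', e.nm ht.1 t1 ?_⟩
  have e1 := e.comm hb hb'
  have e2 := e.symm.sq' ht
  rw [inv_eq_of_mul_eq_one_right e2] at e1 ⊢
  calc b * (t * b * t) * t = b * t * b * (t * t) := by group
    _ = t * t * (b * t * b) := by rw [e2]; group
    _ = t * (b * (t * b * t)) := by rw [e1]; group

theorem big (h : ∃ t ∈ ax C B, ∃ s ∈ ax C B, t ≠ 1 ∧ s ≠ 1 ∧ t ≠ s) : (∀ b ∈ B, b * b ∈ ax B C) ∧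
    (∀ b ∈ B, ∀ t ∈ ax C B, ⁅b, t⁆ ∈ ax B C) ∧ ∃ t ∈ ax B C, ∃ s ∈ ax B C, t ≠ 1 ∧ s ≠ 1 ∧ t ≠ s := by
  obtain ⟨t, ht, s, hs, t1, s1, ts⟩ := h
  have ts1 : t * s ≠ 1 := fun h => ts (by
    rw [← inv_eq_of_mul_eq_one_right (e.symm.sq' hs), eq_inv_of_mul_eq_one_left h])
  have h1 : ∀ b ∈ B, b * b ∈ ax B C := fun b hb => by
    have p1 := e.inv_mod hb ht t1
    have p2 := e.inv_mod hb hs s1
    have p3 := e.inv_mod hb (mul_mem ht hs) ts1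
    have e1 : t * (b * (s * b * s⁻¹)) * t⁻¹ = b * (s * b * s⁻¹) := by
      rw [← (e.comm_ax p2 ht).eq, mul_inv_cancel_right]
    have e2 : b * b = b * (t * s * b * (t * s)⁻¹) * (b * (s * b * s⁻¹))⁻¹ * (b * (t * b * t⁻¹)) := by
      rw [← e1, e.comm hb (conj_mem ht.2 hb)]
      group
    rw [e2]
    exact mul_mem (mul_mem p3 (inv_mem p2)) p1
  have h2 : ∀ b ∈ B, ∀ t ∈ ax C B, ⁅b, t⁆ ∈ ax B C := fun b hb t ht => by
    by_cases t1 : t = 1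
    · simp [t1]
    have : ⁅b, t⁆ = b * b * (b * (t * b * t⁻¹))⁻¹ := by rw [e.comm hb (conj_mem ht.2 hb), cel_def]; group
    exact this ▸ mul_mem (h1 b hb) (inv_mem (e.inv_mod hb ht t1))
  obtain ⟨b, hb, b2⟩ := exists_sq e.toTB
  have h3 : ∀ t ∈ ax C B, ⁅b, t⁆ = 1 → t = 1 := fun t ht h => by_contra fun t1 =>
    b2 (e.sq' ⟨hb, e.nm ht.1 t1 (cel_one.1 h)⟩)
  refine ⟨h1, h2, _, h2 b hb t ht, _, h2 b hb s hs, mt (h3 t ht) t1, mt (h3 s hs) s1, fun h => ts1 (h3 _ (mul_mem ht hs) ?_)⟩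
  rw [cel_mul_right, ← (e.comm_ax (h2 b hb s hs) ht).eq, mul_inv_cancel_right, h, e.sq' (h2 b hb s hs)]

theorem four' : ∃ t ∈ ax C B, ∃ s ∈ ax C B, t ≠ 1 ∧ s ≠ 1 ∧ t ≠ s := by
  by_contra hc
  have h1 := mt (fun h => (e.symm.big h).2.2) hc
  push Not at h1
  obtain ⟨t, ht, t1⟩ := e.symm.exists_ax
  have fix : ∀ b ∈ B, b * (t * b * t⁻¹) = b * b → b * b = 1 := fun b hb h =>
    e.sq' ⟨hb, e.nm ht.1 t1 (mul_inv_eq_iff_eq_mul.1 (mul_left_cancel h)).symm⟩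
  obtain ⟨w, hw, hw'⟩ : ∃ w ∈ om B, w ∉ ax B C := by
    by_contra h
    push Not at h
    obtain ⟨v, hv, w, hw, a, b, c⟩ := two_om e.toTB
    exact c (h1 v (h v hv) w (h w hw) a b)
  have w1 : w * (t * w * t⁻¹) ≠ 1 := fun h => hw' ⟨ozc_le B hw, e.nm ht.1 t1 (mul_inv_eq_iff_eq_mul.1
    (mul_left_cancel (h.trans (om_sq hw).symm))).symm⟩
  obtain ⟨i, hi, i1, i2⟩ := exists_four e.toTB
  have hi' := conj_mem ht.2 hi
  have i3 : i * i ∈ ax B C := ⟨mul_mem hi hi, e.nm ht.1 t1 (by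
    have := e.sq' (e.inv_mod hi ht t1)
    rw [(tcomm e.toTB hi' hi).mul_mul_mul_comm, conj_mul, ← om_sq i2] at this
    exact (mul_inv_eq_iff_eq_mul.1 (mul_left_cancel this)).symm)⟩
  by_cases i4 : i * (t * i * t⁻¹) = 1
  · have c1 : i * w * (i * w) = i * i := by
      rw [(tcomm e.toTB (ozc_le B hw) hi).mul_mul_mul_comm, om_sq hw, mul_one]
    refine i1 (c1 ▸ fix _ (mul_mem hi (ozc_le B hw)) ?_)
    rw [c1, ← conj_mul, (tcomm e.toTB (ozc_le B hw) hi').mul_mul_mul_comm, i4, one_mul]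
    exact h1 _ (e.inv_mod (ozc_le B hw) ht t1) _ i3 w1 i1
  · exact i1 (fix i hi (h1 _ (e.inv_mod hi ht t1) _ i3 i4 i1))

theorem sq_mem (hb : b ∈ B) : b * b ∈ ax B C := (e.big e.four').1 b hb

theorem mem_pl : x ∈ pl B C ↔ ∃ a ∈ ax B C, ∃ c ∈ ax C B, a * c = x :=
  mem_sup_nr fun _ ha => cent_le_norm _ (mem_cent_of fun _ hc => e.comm_ax ha hc)

theorem ax_cent : ax B C ≤ 𝒞(pl B C) := fun _ ha => by
  rw [cent_sup]; exact ⟨mem_cent_of fun _ hb => tcomm e.toTB ha.1 hb.1, mem_cent_of fun _ hc => e.comm_ax ha hc⟩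

theorem cel_pl (hb : b ∈ B) (hx : x ∈ pl B C) : ⁅b, x⁆ ∈ ax B C := by
  obtain ⟨a, ha, c, hc, rfl⟩ := e.mem_pl.1 hx
  have := (e.big e.four').2.1 b hb c hc
  rwa [cel_mul_right, cel_one.2 (tcomm e.toTB hb ha.1), one_mul, e.comm ha.1 this.1, mul_inv_cancel_right]

theorem le_norm : B ≤ 𝒩(pl B C) := le_norm_of_commutator_le (commutator_le.2 fun _ hy _ hx => by
  rw [← commutatorElement_inv]; exact mem_sup_left (inv_mem (e.cel_pl hx hy)))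

theorem le_norm' : C ≤ 𝒩(pl B C) := pl_comm B C ▸ e.symm.le_norm

theorem cent_pl (hb : b ∈ B) (hb' : b ∉ ax B C) (hx : x ∈ pl B C) (h : Commute b x) : x ∈ ax B C := by
  obtain ⟨a, ha, c, hc, rfl⟩ := e.mem_pl.1 hx
  by_cases c1 : c = 1
  · rwa [c1, mul_one]
  · exact (hb' ⟨hb, e.nm hc.1 c1 (cm_right (tcomm e.toTB hb ha.1) h)⟩).elim

theorem cent_le : 𝒞(pl B C) ≤ 𝒩(B) := fun _ hg =>
  let ⟨_, ha, a1⟩ := e.exists_ax; e.toNb.symm.nm ha.1 a1 (cm_of hg (mem_sup_left ha))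

theorem cent_le' : 𝒞(pl B C) ≤ 𝒩(C) := pl_comm B C ▸ e.symm.cent_le

theorem eq_of_cel (hD : Pt B D) (hx : x ∈ D) (x1 : x ≠ 1) (hx' : x ∈ pl B C) (hb : b ∈ B) (hb' : b ∉ ax B C)
    (hk : k ∈ 𝒞(pl B C)) (h : Commute (b * k) x) : D = B :=
  e.eq_of_mem_pt hD (Pt.refl B) hx (e.cent_pl hb hb' hx' (cm_right' (cm_of hk hx').symm h.symm).symm).1 x1

theorem norm_of_cel (hz : z ∈ 𝒩(pl B C)) (hb : b ∈ B) (hb' : b ∉ ax B C) (h : ⁅z, b⁆ ∈ 𝒞(pl B C)) : z ∈ 𝒩(B) := by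
  obtain ⟨a, ha, a1⟩ := e.exists_ax
  refine cj_eq_iff_mem.1 (e.eq_of_cel (Pt.of_cj z B) (conj_mem_cj z ha.1) (mt conj_eq_one_iff.1 a1)
    (conj_mem hz (mem_sup_left ha)) hb hb' (conj_mem' (norm_le_norm_cent _ (e.le_norm hb)) h) ?_)
  rw [show b * (b⁻¹ * ⁅z, b⁆ * b) = z * b * z⁻¹ by simp only [cel_def]; group]
  exact (tcomm e.toTB hb ha.1).conj z

theorem odd (hb : b ∈ B) (hb' : b ∉ ax B C) (hc : c ∈ C) (hc' : c ∉ ax C B) :
    ∃ m, (b * c) ^ (2 * m + 1) ∈ 𝒞(pl B C) := by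
  have hcN := e.le_norm' hc
  refine (dih_mod (e.le_norm hb) hcN (e.ax_cent (e.sq_mem hb))
    (pl_comm B C ▸ e.symm.ax_cent (e.symm.sq_mem hc))).resolve_right ?_
  rintro ⟨z, hz, z1, h1, h2, g, hg, h3⟩
  have hN : zpowers (b * c) ≤ 𝒩(pl B C) := zpowers_le.2 (mul_mem (e.le_norm hb) hcN)
  have zB := e.norm_of_cel (hN hz) hb hb' h1
  have zC := e.symm.norm_of_cel (pl_comm B C ▸ hN hz) hc hc' (pl_comm B C ▸ h2)
  obtain ⟨D, D', p, hD, hp, s, hs, hs', h4⟩ : ∃ D D', Pre D D' ∧ Pt B D ∧ pl D D' = pl B C ∧ ∃ s ∈ D, s ∉ ax D D' ∧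
      s⁻¹ * (b * z) ∈ 𝒞(pl B C) := by
    rcases h3 with h3 | h3
    · exact ⟨_, _, e.conj' g, Pt.of_cj g B, by rw [← cj_pl, cj_eq (hN hg)], _, conj_mem_cj g hb,
        by rwa [← cj_ax', conj_mem_iff], h3⟩
    · exact ⟨_, _, e.symm.conj' g, e.pt.cj_right g, by rw [← cj_pl, pl_comm, cj_eq (hN hg)], _, conj_mem_cj g hc,
        by rwa [← cj_ax', conj_mem_iff], h3⟩
  have sB : s ∈ 𝒩(B) := by
    simpa [mul_assoc] using mul_mem (mul_mem (le_normalizer hb) zB) (inv_mem (e.cent_le h4))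
  obtain ⟨a, ha, a1⟩ := e.exists_ax
  have haN : a ∈ pl D D' := hp ▸ mem_sup_left ha
  obtain rfl : D = B := by_contra fun hne => hne (e.eq_of_mem_pt hD (Pt.refl B) (p.cent_pl hs hs' haN
    (cel_one.1 (e.eq_one hD hne (cel_mem_right sB ha.1) (p.cel_pl hs haN).1))).1 ha.1 a1)
  have h5 : b⁻¹ * s ∈ 𝒩(C) := by simpa [mul_assoc] using mul_mem zC (inv_mem (e.cent_le' h4))
  exact z1 (by simpa [mul_assoc] using mul_mem (e.ax_cent ⟨D.mul_mem (D.inv_mem hb) hs, h5⟩) h4)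

theorem exists_conj (hb : b ∈ B) (hb' : b ∉ ax B C) (hc : c ∈ C) (hc' : c ∉ ax C B) :
    ∃ g ∈ B ⊔ C, cj g B = C ∧ (g * b * g⁻¹)⁻¹ * c ∈ ax C B := by
  obtain ⟨m, hm⟩ := e.odd hb hb' hc hc'
  have h := odd_conj_mod (e.le_norm hb) (e.le_norm' hc) (e.ax_cent (e.sq_mem hb))
    (pl_comm B C ▸ e.symm.ax_cent (e.symm.sq_mem hc)) hm
  have hg : (b * c) ^ m ∈ B ⊔ C := pow_mem (mul_mem (mem_sup_left hb) (mem_sup_right hc)) m
  generalize (b * c) ^ m = g at h hg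
  obtain ⟨a, ha, a1⟩ := e.exists_ax
  have h1 : cj g B = C := e.symm.eq_of_cel (e.pt.symm.cj_right g) (conj_mem_cj g ha.1) (mt conj_eq_one_iff.1 a1)
    (pl_comm B C ▸ conj_mem (sup_le e.le_norm e.le_norm' hg) (mem_sup_left ha)) hc hc' (pl_comm B C ▸ inv_mem h) (by
      have h2 := (tcomm e.toTB hb ha.1).conj g
      have h3 := cm_of h (conj_mem (sup_le e.le_norm e.le_norm' hg) (mem_sup_left ha))
      exact ((by simpa only [mul_inv_cancel_left] using h2.mul_left h3 : Commute c _).mul_left h3.inv_left))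
  exact ⟨g, hg, h1, C.mul_mem (C.inv_mem (h1 ▸ conj_mem_cj g hb)) hc, e.cent_le h⟩

theorem ax_eq : ax B C = om B := le_antisymm (fun _ ha => e.mem_om.2 ⟨ha.1, e.sq' ha⟩) fun v hv => by
  by_contra hv'
  obtain ⟨c, hc, hc'⟩ := e.t'.exists_not_om
  have h0 : ax C B ≤ om C := fun _ ha => e.t'.mem_om.2 ⟨ha.1, e.symm.sq' ha⟩
  obtain ⟨g, -, h1, h2⟩ := e.exists_conj (ozc_le B hv) hv' hc fun h => hc' (h0 h)
  have h3 : g * v * g⁻¹ ∈ om C := by rw [← h1, ← cj_om]; exact conj_mem_cj g hv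
  exact hc' (by simpa only [mul_inv_cancel_left] using mul_mem h3 (h0 h2))

theorem pl_eq : pl B C = ln B C := by rw [pl, e.ax_eq, e.symm.ax_eq]

theorem ed : Ed B C := ⟨e.toNb, e.nc, by
  rw [← e.ax_eq, ← e.symm.ax_eq]; exact fun _ hc => mem_cent_of fun _ ha => (e.comm_ax ha hc).symm⟩

end Pre

/-- the types of pairs of points -/
theorem Nb.cm_or_ed [Finite G] (e : Nb B C) (hb : b ∈ B) (b1 : b ≠ 1) (h : b ∈ 𝒩(C)) : Cm B C ∨ Ed B C :=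
  (em (C ≤ 𝒞(B))).imp (fun k => ⟨e, k⟩) fun k => Pre.ed ⟨e, k, fun k' => b1 (mem_bot.1 (k' ▸ ⟨hb, h⟩))⟩

theorem Cm.vv (e : Cm B C) : om C ≤ 𝒞(om B) := (ozc_le C).trans (e.cm.trans (cent_mono (ozc_le B)))

theorem vv_of_norm [Finite G] (t : TB B) (hC : Pt B C) (hb : b ∈ B) (b1 : b ≠ 1) (h : b ∈ 𝒩(C)) : om C ≤ 𝒞(om B) := by
  by_cases e : C = B
  · exact e ▸ om_ab C
  · exact (Nb.cm_or_ed ⟨t, hC, e⟩ hb b1 h).elim Cm.vv Ed.vv

theorem vv_of_comm [Finite G] (t : TB B) (hC : Pt B C) (hb : b ∈ B) (b1 : b ≠ 1) (hc : c ∈ C) (c1 : c ≠ 1)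
    (h : Commute b c) : om C ≤ 𝒞(om B) := vv_of_norm t hC hb b1 (t.norm_of_comm hC hc c1 h)

theorem Nb.cm_or_ed' (e : Nb B C) (h : om C ≤ 𝒞(om B)) : Cm B C ∨ Ed B C :=
  (em (C ≤ 𝒞(B))).imp (fun k => ⟨e, k⟩) fun k => ⟨e, k, h⟩

namespace Ed

variable (e : Ed B C)
include e

theorem symm : Ed C B := ⟨e.toNb.symm, fun h => e.nc (le_centralizer_iff.1 h), le_centralizer_iff.1 e.vv⟩

theorem conj' (g : G) : Ed (cj g B) (cj g C) := ⟨e.toNb.conj' g, by rw [← cj_cent, cj_le_cj]; exact e.nc, by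
  rw [← cj_om, ← cj_om, ← cj_cent]; exact cj_mono g e.vv⟩

theorem cj_right (hg : g ∈ 𝒩(B)) : Ed B (cj g C) := by simpa only [cj_eq hg] using e.conj' g

theorem om_le_norm : om B ≤ 𝒩(C) := e.symm.vv.trans e.t'.cent_om_le

theorem pre : Pre B C := ⟨e.toNb, e.nc, fun h =>
  let ⟨_, hv, v1⟩ := e.exists_om; v1 (mem_bot.1 (h ▸ ⟨ozc_le B hv, e.om_le_norm hv⟩))⟩

theorem comm_om (hv : v ∈ om B) (hs : s ∈ om C) : Commute v s := (cm_of (e.vv hs) hv).symm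

theorem elem_ln : IsElementaryAbelian 2 (ln B C) := elem_sup (ozc_elem _) (ozc_elem _) e.symm.vv

theorem ln_ab : ln B C ≤ 𝒞(ln B C) := elem_le_cent e.elem_ln

theorem ln_sq (h : x ∈ ln B C) : x * x = 1 := by rw [← pow_two]; exact e.elem_ln.2 x h

theorem mem_ln : x ∈ ln B C ↔ ∃ v ∈ om B, ∃ a ∈ om C, v * a = x := mem_sup_nr (e.symm.vv.trans (cent_le_norm _))

variable [Finite G]

theorem mem_of_norm (hb : b ∈ B) (h : b ∈ 𝒩(C)) : b ∈ om B := e.pre.ax_eq ▸ ⟨hb, h⟩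

theorem sq_mem (hb : b ∈ B) : b * b ∈ om B := e.pre.ax_eq ▸ e.pre.sq_mem hb

theorem cel_ln (hb : b ∈ B) (hx : x ∈ ln B C) : ⁅b, x⁆ ∈ om B := e.pre.ax_eq ▸ e.pre.cel_pl hb (e.pre.pl_eq ▸ hx)

theorem cel_mem (hb : b ∈ B) (hs : s ∈ om C) : ⁅b, s⁆ ∈ om B := e.cel_ln hb (mem_sup_right hs)

theorem cel_mem' (hs : s ∈ om C) (hb : b ∈ B) : ⁅s, b⁆ ∈ om B := by
  rw [← commutatorElement_inv]; exact inv_mem (e.cel_mem hb hs)

theorem le_ob : om C ≤ ob B := fun _ ha => mem_op.2 ⟨e.symm.om_le_norm ha, e.vv ha, fun _ hx => e.cel_mem hx ha⟩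

theorem ln_le_ob : ln B C ≤ ob B := sup_le ((ozc_le B).trans e.toTB.le_ob) e.le_ob

theorem le_norm_ln : B ≤ 𝒩(ln B C) := e.pre.pl_eq ▸ e.pre.le_norm

theorem le_norm_ln' : C ≤ 𝒩(ln B C) := e.pre.pl_eq ▸ e.pre.le_norm'

theorem sup_le_norm_ln : B ⊔ C ≤ 𝒩(ln B C) := sup_le e.le_norm_ln e.le_norm_ln'

theorem cent_ln (hb : b ∈ B) (hb' : b ∉ om B) (hx : x ∈ ln B C) (h : Commute b x) : x ∈ om B :=
  e.pre.ax_eq ▸ e.pre.cent_pl hb (e.pre.ax_eq ▸ hb') (e.pre.pl_eq ▸ hx) h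

theorem cent_le : 𝒞(ln B C) ≤ 𝒩(B) := e.pre.pl_eq ▸ e.pre.cent_le

theorem cent_le' : 𝒞(ln B C) ≤ 𝒩(C) := e.pre.pl_eq ▸ e.pre.cent_le'

theorem om_cent : om B ≤ 𝒞(ln B C) := le_sup_left.trans e.ln_ab

theorem norm_of_cel (hz : z ∈ 𝒩(ln B C)) (hb : b ∈ B) (hb' : b ∉ om B) (h : ⁅z, b⁆ ∈ 𝒞(ln B C)) : z ∈ 𝒩(B) :=
  e.pre.norm_of_cel (e.pre.pl_eq ▸ hz) hb (e.pre.ax_eq ▸ hb') (e.pre.pl_eq ▸ h)

theorem odd (hb : b ∈ B) (hb' : b ∉ om B) (hc : c ∈ C) (hc' : c ∉ om C) : ∃ m, (b * c) ^ (2 * m + 1) ∈ 𝒞(ln B C) :=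
  e.pre.pl_eq ▸ e.pre.odd hb (e.pre.ax_eq ▸ hb') hc (e.symm.pre.ax_eq ▸ hc')

theorem exists_conj (hb : b ∈ B) (hb' : b ∉ om B) (hc : c ∈ C) (hc' : c ∉ om C) :
    ∃ g ∈ B ⊔ C, cj g B = C ∧ (g * b * g⁻¹)⁻¹ * c ∈ om C :=
  e.symm.pre.ax_eq ▸ e.pre.exists_conj hb (e.pre.ax_eq ▸ hb') hc (e.symm.pre.ax_eq ▸ hc')

/-- `⟨B, C⟩ ∩ N(B)` is transitive on the nontrivial elements of `B / Ω₁(B)` -/
theorem trans' (ha : a ∈ B) (ha' : a ∉ om B) (hb : b ∈ B) (hb' : b ∉ om B) :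
    ∃ y ∈ B ⊔ C, y ∈ 𝒩(B) ∧ (y * a * y⁻¹)⁻¹ * b ∈ om B := by
  obtain ⟨c, hc, hc'⟩ := e.t'.exists_not_om
  obtain ⟨g, hg, h1, h2⟩ := e.exists_conj ha ha' hc hc'
  obtain ⟨g', hg', h1', h2'⟩ := e.exists_conj hb hb' hc hc'
  refine ⟨g'⁻¹ * g, mul_mem (inv_mem hg') hg, cj_eq_iff_mem.1 (by rw [cj_mul, h1, ← h1', cj_inv_cj]), ?_⟩
  have := mul_mem h2 (inv_mem h2')
  rw [← h1', ← cj_om, mem_cj] at this
  convert this using 1
  group

theorem eq_one_of_comm (hb : b ∈ B) (hb' : b ∉ om B) (hc : c ∈ C) (h : Commute b c) : c = 1 :=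
  by_contra fun c1 => hb' (e.mem_of_norm hb (e.nm hc c1 h))

theorem eq_one_of_cent (hc : c ∈ C) (h : c ∈ 𝒞(B)) : c = 1 :=
  let ⟨_, hb, hb'⟩ := e.exists_not_om; e.eq_one_of_comm hb hb' hc (cm_of h hb).symm

theorem mem_of_comm (hb : b ∈ B) (hc : c ∈ C) (c1 : c ≠ 1) (h : Commute b c) : b ∈ om B :=
  e.mem_of_norm hb (e.nm hc c1 h)

theorem cel_inj (hx : x ∈ B) (hx' : x ∉ om B) (ha : a ∈ om C) (hb : b ∈ om C) (h : ⁅x, a⁆ = ⁅x, b⁆) : a = b := by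
  have := e.eq_one_of_comm hx hx' (ozc_le C (mul_mem ha hb))
    (cel_one.1 (by rw [op_cel_mul (e.le_ob ha) (e.le_ob hb) hx, h, om_sq (e.cel_mem hx hb)]))
  rw [← mul_one a, ← om_sq hb, ← mul_assoc, this, one_mul]

theorem exists_cel (hx : x ∈ B) (hx' : x ∉ om B) (hv : v ∈ om B) : ∃ a ∈ om C, ⁅x, a⁆ = v :=
  surj_of_inj (card_om e.pt).ge (fun a => ⁅x, a⁆) (fun _ ha => e.cel_mem hx ha)
    (fun _ ha _ hb => e.cel_inj hx hx' ha hb) hv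

theorem mem_of_cel_eq (hx : x ∈ B) (hy : y ∈ B) (hs : s ∈ om C) (s1 : s ≠ 1) (h : ⁅x, s⁆ = ⁅y, s⁆) : x * y ∈ om B :=
  e.mem_of_comm (mul_mem hx hy) (ozc_le C hs) s1 (cel_one.1 (by
    rw [ob_cel_mul' (e.le_ob hs) hx hy, h, om_sq (e.cel_mem hy hs)]))

/-- `C(Ω₁(B) Ω₁(C))` acts trivially on `B / Ω₁(B)` -/
theorem cent_le_ob : 𝒞(ln B C) ≤ ob B := fun g hg => by
  have h1 : g ∈ 𝒞(om B) := cent_mono le_sup_left hg
  refine mem_op.2 ⟨e.cent_le hg, h1, fun x hx => e.mem_of_norm (cel_mem_left hx (e.cent_le hg)) (e.cent_le' ?_)⟩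
  exact cel_mem_right (norm_le_norm_cent _ (e.le_norm_ln hx)) hg

theorem cent_le_ob' : 𝒞(ln B C) ≤ ob C := ln_comm B C ▸ e.symm.cent_le_ob

/-- a point on the line -/
theorem of_le (hD : Pt B D) (h : om D ≤ ln B C) (hne : D ≠ B) : Ed B D :=
  ⟨⟨e.toTB, hD, hne⟩, fun k => hne (e.eq_of_om_le hD fun _ hd => let ⟨_, hb, hb'⟩ := e.exists_not_om
    ozc_le B (e.cent_ln hb hb' (h hd) (cm_of (k (ozc_le D hd)) hb).symm)),
    h.trans (e.ln_ab.trans (cent_mono le_sup_left))⟩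

end Ed

theorem odd_conj' {m : ℕ} (hx : x * x = 1) (hy : y * y = 1) (hm : (x * y * (x * y)) ^ (2 * m + 1) = 1) :
    ∃ i j : ℤ, Commute ((x * y) ^ i) y ∧ Commute x ((x * y) ^ j * y * ((x * y) ^ j)⁻¹) ∧
      (x * y) ^ j * y * ((x * y) ^ j)⁻¹ = x * (x * y) ^ i := by
  obtain ⟨z, hz⟩ : ∃ z, z = (x * y) ^ (2 * m + 1) := ⟨_, rfl⟩
  have zz : z * z = 1 := by rw [hz, ← (Commute.refl _).mul_pow, hm]
  have c0 : Commute z (x * y) := hz ▸ (Commute.refl _).pow_left _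
  have c1 : Commute x z := by
    have := CL.Inv.zpow_conj_of_inverts (CL.Inv.left_inverts_mul hx hy) (0 : ℤ)
    have h1 : x * (x * y) * x⁻¹ = (x * y)⁻¹ := by
      rw [mul_inv_rev, inv_eq_of_mul_eq_one_right hx, inv_eq_of_mul_eq_one_right hy, ← mul_assoc, hx, one_mul]
    have h2 : x * z * x⁻¹ = z := by rw [hz, ← conj_pow, h1, inv_pow, ← hz, inv_eq_of_mul_eq_one_right zz]
    exact mul_inv_eq_iff_eq_mul.1 h2
  have c2 : Commute z y := cm_right c1.symm c0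
  have e1 : y * (x * z) = (x * y)⁻¹ * z := by
    rw [mul_inv_rev, inv_eq_of_mul_eq_one_right hx, inv_eq_of_mul_eq_one_right hy, mul_assoc]
  have := odd_conj (x := y) (y := x * z) (m := m) hy (by rw [c1.symm.mul_mul_mul_comm, hx, zz, one_mul]) (by
    rw [e1, c0.symm.inv_left.mul_pow, inv_pow, ← hz, pow_succ, pow_mul, sq, zz, one_pow, one_mul, inv_mul_cancel])
  have e2 : (y * (x * z)) ^ m = (x * y) ^ (2 * m * m : ℤ) := by
    rw [e1, hz, pow_succ', inv_mul_cancel_left, ← pow_mul]; exact_mod_cast rfl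
  have e3 : z = (x * y) ^ ((2 * m + 1 : ℕ) : ℤ) := by rw [zpow_natCast, hz]
  rw [e2] at this
  exact ⟨_, _, e3 ▸ c2, this ▸ (Commute.refl x).mul_right c1, e3 ▸ this⟩

theorem swap_mod {m : ℕ} (fN : f ∈ 𝒩(N)) (bN : b ∈ 𝒩(N)) (ff : f * f ∈ 𝒞(N)) (bb : b * b ∈ 𝒞(N))
    (hm : (f * b * f⁻¹ * b) ^ (2 * m + 1) ∈ 𝒞(N)) : ∃ g ∈ 𝒩(N), ∃ z ∈ 𝒩(N), ⁅z, b⁆ ∈ 𝒞(N) ∧
      ⁅f, g * b * g⁻¹⁆ ∈ 𝒞(N) ∧ (g * b * g⁻¹)⁻¹ * (f * z) ∈ 𝒞(N) := by
  let f' : 𝒩(N) := ⟨f, fN⟩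
  let b' : 𝒩(N) := ⟨b, bN⟩
  have x2 : act N f' * act N f' = 1 := by rw [← map_mul, act_eq_one]; exact ff
  obtain ⟨i, j, h1, h2, h3⟩ := odd_conj' (m := m) x2
    (show act N b' * act N b' = 1 by rw [← map_mul, act_eq_one]; exact bb) (by
      rw [← mul_assoc]
      nth_rw 2 [← inv_eq_of_mul_eq_one_right x2]
      simp only [← map_mul, ← map_inv, ← map_pow]
      exact act_eq_one.2 hm)
  simp only [← map_mul, ← map_inv, ← map_zpow, ← cel_one, ← map_commutatorElement, act_eq_one, act_eq] at h1 h2 h3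
  exact ⟨_, ((f' * b') ^ j).2, _, ((f' * b') ^ i).2, h1, h2, h3⟩

/-- an element that interchanges the points of an edge -/
theorem Ed.swap [Finite G] (e : Ed C (cj f C)) (ff : f * f ∈ 𝒞(om C)) : ∃ E, Ed E C ∧
    (∃ s ∈ om C, s ≠ 1 ∧ ⁅s, f⁆ ∈ om E) ∧
    (f ∈ 𝒞(om E) → (∀ s ∈ om C, ⁅s, f⁆ ∈ om E) ∧ ∃ d ∈ E, d ∉ om E ∧ f * d ∈ 𝒞(ln E C)) := by
  have fC : f ∉ 𝒩(C) := fun h => e.ne (cj_eq h)
  have fN : f ∈ 𝒩(ln C (cj f C)) := cj_eq_iff_mem.1 (by rw [cj_ln, ← cj_mul, cj_eq (e.cent_om_le ff), ln_comm])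
  have ffN : f * f ∈ 𝒞(ln C (cj f C)) := by
    rw [cent_sup]
    exact mem_inf.2 ⟨ff, by rw [← cj_om, ← cj_cent, mem_cj]; simpa [mul_assoc] using ff⟩
  obtain ⟨b, hb, hb'⟩ := e.exists_not_om
  have bN := e.le_norm_ln hb
  obtain ⟨m, hm⟩ := e.symm.odd (conj_mem_cj f hb) (by rwa [← cj_om, conj_mem_iff]) hb hb'
  rw [ln_comm] at hm
  obtain ⟨g, hg, z, hz, h1, h2, h3⟩ := swap_mod fN bN ffN (e.om_cent (e.sq_mem hb)) hm
  have e' := e.conj' g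
  have hl : ln (cj g C) (cj g (cj f C)) = ln C (cj f C) := by rw [← cj_ln, cj_eq hg]
  have hd := conj_mem_cj g hb
  have hd' : g * b * g⁻¹ ∉ om (cj g C) := by rwa [← cj_om, conj_mem_iff]
  have fE : f ∈ 𝒩(cj g C) := e'.norm_of_cel (by rw [hl]; exact fN) hd hd' (by rw [hl]; exact h2)
  have hE : om (cj g C) ≤ ln C (cj f C) := le_sup_left.trans hl.le
  have zC : z ∈ 𝒩(C) := e.norm_of_cel hz hb hb' h1
  have fd : f * (g * b * g⁻¹) ∈ 𝒩(C) := by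
    have h4 : (g * b * g⁻¹)⁻¹ * (f * z) ∈ 𝒩(C) := e.cent_le h3
    simpa [mul_assoc] using mul_mem (e.cent_om_le ff) (mul_mem zC (inv_mem h4))
  have e2 : Ed (cj g C) C := (e.of_le (Pt.of_cj _ _) hE fun h => fC (h ▸ fE)).symm
  generalize cj g C = E at *
  generalize g * b * g⁻¹ = d at *
  have fix : ∀ s ∈ om C, Commute f s → s = 1 := fun s hs => AT.eq_one_of_comm e.toTB fC (ozc_le C hs)
  have fix' : ∀ s ∈ om C, Commute f ⁅s, f⁆ := fun s hs => by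
    have h1 := conj_eq_of_mem ff hs
    have h2 := (e.comm_om hs (cj_om f C ▸ conj_mem_cj f hs)).eq
    rw [cel_def, om_inv hs]
    calc f * (s * f * s * f⁻¹) = f * s * f⁻¹ * (f * f * s * (f * f)⁻¹) * f := by group
      _ = s * f * s * f⁻¹ * f := by rw [h1, ← h2]; group
  refine ⟨E, e2, ?_, fun hf => ?_⟩
  · obtain ⟨w, hw, w1, hc⟩ : ∃ w ∈ om E, w ≠ 1 ∧ Commute f w := by
      obtain ⟨v, hv, v1⟩ := e2.exists_om
      by_cases h : Commute f v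
      · exact ⟨v, hv, v1, h⟩
      have hv' := conj_mem (norm_le_norm_ozc E fE) hv
      refine ⟨_, mul_mem hv hv', fun k => h (mul_inv_eq_iff_eq_mul.1 (mul_left_cancel (k.trans (om_sq hv).symm))), ?_⟩
      have h1 := conj_eq_of_mem ffN (hE hv)
      calc f * (v * (f * v * f⁻¹)) = f * v * f⁻¹ * (f * f * v * (f * f)⁻¹) * f := by group
        _ = v * (f * v * f⁻¹) * f := by rw [h1, om_comm hv (ozc_le E hv')]
    obtain ⟨s, hs, a, ha, rfl⟩ := e.mem_ln.1 (hE hw)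
    rw [← cj_om, mem_cj] at ha
    obtain ⟨a, rfl⟩ : ∃ a', a = f * a' * f⁻¹ := ⟨f⁻¹ * a * f, by group⟩
    replace ha : a ∈ om C := by simpa [mul_assoc] using ha
    have e3 : s * (f * a * f⁻¹) = s * a * ⁅a, f⁆ := by
      rw [cel_def, om_inv ha, mul_assoc s a, mul_assoc a, mul_assoc a, ← mul_assoc a a, om_sq ha]; group
    rw [e3] at hc hw w1
    rw [fix _ (mul_mem hs ha) (cm_right' (fix' a ha) hc), one_mul] at hw w1
    exact ⟨a, ha, by rintro rfl; simp at w1, hw⟩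
  · have key : ∀ s ∈ om C, ⁅s, f⁆ * ⁅s, d⁆ = 1 ∧ ⁅s, f * d⁆ = 1 := fun s hs => by
      have h1 := e2.cel_mem' hs hd
      have h2 : ⁅s, f * d⁆ = ⁅s, f⁆ * ⁅s, d⁆ := by rw [cel_mul_right, conj_eq_of_mem hf h1]
      have h3 := fix _ (cel_mem_left hs (norm_le_norm_ozc C fd)) (h2 ▸ (fix' s hs).mul_right (cm_of hf h1))
      exact ⟨h2 ▸ h3, h3⟩
    refine ⟨fun s hs => eq_inv_of_mul_eq_one_left (key s hs).1 ▸ inv_mem (e2.cel_mem' hs hd), d, hd, hd', ?_⟩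
    rw [cent_sup]
    exact ⟨mul_mem hf (le_cent_ozc E hd), mem_cent_of fun s hs => (cel_one.1 (key s hs).2).symm⟩

/-- two lines through `B` that do not commute -/
structure T2 (B C D : Subgroup G) : Prop extends Ed B C where
  ed : Ed B D
  nc' : ¬ om D ≤ 𝒞(om C)
  cel : ∀ s ∈ om C, ∀ t ∈ om D, ⁅s, t⁆ ∈ om B

theorem T2.symm' (e : T2 B C D) : T2 B D C := ⟨e.ed, e.toEd, fun h => e.nc' (le_centralizer_iff.1 h),
  fun t ht s hs => by rw [← commutatorElement_inv]; exact inv_mem (e.cel s hs t ht)⟩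

end CL.AT
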