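/-
Abelian TI `2`-subgroups that are neither cyclic nor elementary abelian: two lines through a point.
-/
import Cfsg.Agent.Even.AT0

set_option autoImplicit false
set_option linter.unusedSectionVars false

open Cfsg Subgroup
open scoped commutatorElement

namespace CL.AT

open CL.Even CL.Timm CL.Grp CL.ATI
open CL.WTI (Pt ax op mem_op op_le_cent op_le_norm op_cel_mul)

variable {G : Type*} [Group G] [Finite G] {A B C D E N P X : Subgroup G} {a b c d f g k n s t u v w x y z : G}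

theorem cel_ne_one (e : Nb C D) (nc : ¬ om D ≤ 𝒞(om C)) (hs : s ∈ C) (s1 : s ≠ 1) (ht : t ∈ D) (t1 : t ≠ 1) :
    ⁅s, t⁆ ≠ 1 := fun h => nc (vv_of_comm e.toTB e.pt hs s1 ht t1 (cel_one.1 h))

theorem side (e : Nb C D) (nc : ¬ om D ≤ 𝒞(om C)) (h1 : ∀ s ∈ om C, ∀ t ∈ om D, ⁅s, t⁆ ∈ 𝒞(om C))
    (h2 : ∀ s ∈ om C, ∀ t ∈ om D, ⁅s, t⁆ ∈ 𝒞(om D)) (ht : t ∈ om D) (h : ¬ cj t C ≤ 𝒞(C)) :
    ∃ E, Ed E C ∧ ∀ s ∈ om C, ⁅s, t⁆ ∈ om E := by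
  have t1 : t ≠ 1 := by rintro rfl; exact h (by rw [cj_one]; exact e.ab)
  have e1 : Ed C (cj t C) := ⟨⟨e.toTB, Pt.of_cj t C, fun k => h (k.le.trans e.ab)⟩, h, fun x hx => by
    rw [← cj_om] at hx
    obtain ⟨s, hs, rfl⟩ := hx
    have := mul_mem (om_ab C hs) (h1 _ (inv_mem hs) t ht)
    simpa [cel_def, mul_assoc] using this⟩
  obtain ⟨E, e2, ⟨s, hs, s1, h3⟩, h4⟩ := e1.swap (by rw [om_sq ht]; exact one_mem _)
  exact ⟨E, e2, (h4 (vv_of_comm e2.toTB (e2.pt.trans e.pt) (ozc_le E h3)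
    (cel_ne_one e nc (ozc_le C hs) s1 (ozc_le D ht) t1) (ozc_le D ht) t1 (cm_of (h2 s hs t ht) ht) ht)).1⟩

theorem exists_nc (e : Nb C D) (nc : ¬ om D ≤ 𝒞(om C)) : ∃ t ∈ om D, ¬ cj t C ≤ 𝒞(C) := by
  by_contra h
  push Not at h
  obtain ⟨c, hc, c1⟩ := exists_sq e.toTB
  exact nc (vv_of_norm e.toTB e.pt (mul_mem hc hc) c1 (q4_sq e.t' fun t ht => cm_of (h t ht (conj_mem_cj t hc)) hc))

/-- two points that act quadratically on each other -/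
theorem exists_t2 (e : Nb C D) (nc : ¬ om D ≤ 𝒞(om C)) (h1 : ∀ s ∈ om C, ∀ t ∈ om D, ⁅s, t⁆ ∈ 𝒞(om C))
    (h2 : ∀ s ∈ om C, ∀ t ∈ om D, ⁅s, t⁆ ∈ 𝒞(om D)) : ∃ E, T2 E C D := by
  have nc' : ¬ om C ≤ 𝒞(om D) := fun h => nc (le_centralizer_iff.1 h)
  obtain ⟨t, ht, h3⟩ := exists_nc e nc
  obtain ⟨s, hs, h4⟩ := exists_nc e.symm nc'
  have s1 : s ≠ 1 := by rintro rfl; exact h4 (by rw [cj_one]; exact e.t'.ab)
  obtain ⟨E, e1, h5⟩ := side e.symm nc' (fun t ht s hs => by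
    rw [← commutatorElement_inv]; exact inv_mem (h2 s hs t ht)) (fun t ht s hs => by
    rw [← commutatorElement_inv]; exact inv_mem (h1 s hs t ht)) hs h4
  have key : ∀ t ∈ om D, ¬ cj t C ≤ 𝒞(C) → Ed E C ∧ ∀ s ∈ om C, ⁅s, t⁆ ∈ om E := fun t ht h => by
    have t1 : t ≠ 1 := by rintro rfl; exact h (by rw [cj_one]; exact e.ab)
    obtain ⟨E', e2, h6⟩ := side e nc h1 h2 ht h
    obtain rfl : E' = E := e.eq_of_mem_pt e2.pt.symm (e.pt.trans e1.pt.symm) (ozc_le _ (h6 s hs)) (by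
      rw [← commutatorElement_inv]; exact inv_mem (ozc_le _ (h5 t ht)))
      (cel_ne_one e nc (ozc_le C hs) s1 (ozc_le D ht) t1)
    exact ⟨e2, h6⟩
  refine ⟨E, (key t ht h3).1, e1, nc, fun s' hs' t' ht' => ?_⟩
  by_cases t1 : t' = 1
  · simp [t1]
  refine (key t' ht' fun h => cel_ne_one e.symm nc' (ozc_le D ht') t1 (ozc_le C hs) s1
    ((key t ht h3).1.symm.eq_one_of_cent (ozc_le E (h5 t' ht')) ?_)).2 s' hs'
  exact mul_mem (h (conj_mem_cj t' (ozc_le C hs))) (inv_mem (e.ab (ozc_le C hs)))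

/-- every element of `Ω₁(B)` is a square -/
def FS (B : Subgroup G) : Prop := ∀ v ∈ om B, ∃ b ∈ B, b * b = v

theorem FS.of_pt (h : FS B) (hC : Pt B C) : FS C := by
  obtain ⟨g, rfl⟩ := hC
  intro v hv
  rw [← cj_om] at hv
  obtain ⟨v, hv, rfl⟩ := hv
  obtain ⟨b, hb, rfl⟩ := h v hv
  exact ⟨_, conj_mem_cj g hb, conj_mul⟩

theorem surj_transfer (φ ψ : G → G) (hφ : ∀ v ∈ X, ∃ b ∈ B, φ b = v) (hψ : ∀ b ∈ B, ψ b ∈ X)
    (h : ∀ a ∈ B, ∀ b ∈ B, ψ a = ψ b → φ a = φ b) (hv : v ∈ X) : ∃ b ∈ B, ψ b = v := by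
  choose! σ h1 h2 using hφ
  obtain ⟨a, ha, e⟩ := surj_of_inj le_rfl (fun v => ψ (σ v)) (fun v hv => hψ _ (h1 v hv))
    (fun v hv w hw e => by rw [← h2 v hv, h _ (h1 v hv) _ (h1 w hw) e, h2 w hw]) hv
  exact ⟨_, h1 a ha, e⟩

theorem cel_eq_of_mem (hg : g ∈ ob B) (ha : a ∈ B) (hb : b ∈ B) (h : a * b ∈ om B) : ⁅a, g⁆ = ⁅b, g⁆ := by
  have := ob_cel_om hg h
  rw [ob_cel_mul' hg ha hb] at this
  rw [eq_inv_of_mul_eq_one_left this, om_inv (ob_cel hg hb)]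

namespace Ed

variable (e : Ed B C)
include e

theorem sq_eq_iff (ha : a ∈ B) (hb : b ∈ B) : a * a = b * b ↔ a * b ∈ om B := by
  rw [e.toTB.mem_om, (tcomm e.toTB hb ha).mul_mul_mul_comm, and_iff_right (mul_mem ha hb), mul_eq_one_iff_eq_inv,
    om_inv (e.sq_mem hb)]

theorem fs (hs : s ∈ om C) (h : ∀ v ∈ om B, ∃ b ∈ B, ⁅b, s⁆ = v) : FS B := fun _ hv =>
  surj_transfer (fun b => ⁅b, s⁆) (fun b => b * b) h (fun _ => e.sq_mem) (fun _ ha _ hb k =>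
    cel_eq_of_mem (e.le_ob hs) ha hb ((e.sq_eq_iff ha hb).1 k)) hv

theorem full (h : FS B) (hs : s ∈ om C) (s1 : s ≠ 1) (hv : v ∈ om B) : ∃ b ∈ B, ⁅b, s⁆ = v :=
  surj_transfer (fun b => b * b) (fun b => ⁅b, s⁆) h (fun _ hb => e.cel_mem hb hs) (fun _ ha _ hb k =>
    (e.sq_eq_iff ha hb).2 (e.mem_of_cel_eq ha hb hs s1 k)) hv

theorem cover (h : FS B) (hn : n ∈ ln B C) : n ∈ om B ∨ ∃ b ∈ B, n ∈ om (cj b C) := by
  obtain ⟨v, hv, s, hs, rfl⟩ := e.mem_ln.1 hn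
  by_cases s1 : s = 1
  · exact .inl (by rwa [s1, mul_one])
  obtain ⟨b, hb, rfl⟩ := e.full h hs s1 hv
  exact .inr ⟨b, hb, by rw [← cj_om, cel_def, inv_mul_cancel_right]; exact conj_mem_cj b hs⟩

theorem adj (h : FS B) (h1 : k ∈ 𝒞(B)) (h2 : k ∈ 𝒞(om C)) : ∃ v ∈ om B, k * v ∈ 𝒞(C) := by
  have hk : k ∈ ob C := e.cent_le_ob' (by rw [cent_sup]; exact ⟨cent_mono (ozc_le B) h1, h2⟩)
  obtain ⟨c, hc, hc'⟩ := e.t'.exists_not_om
  obtain ⟨v, hv, h3⟩ := e.symm.exists_cel hc hc' (ob_cel hk hc)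
  have h4 : Commute (k * v) c := (cel_one.1 (by
    rw [op_cel_mul hk (e.symm.le_ob hv) hc, h3, om_sq (ob_cel hk hc)])).symm
  have h5 : k * v ∈ 𝒞(B) := mul_mem h1 (ozc_le_cent B hv)
  obtain ⟨w, hw, w1⟩ := e.exists_om
  obtain h6 | ⟨b, hb, h6⟩ := e.cover h (conj_mem (e.le_norm_ln' hc) (mem_sup_left hw))
  · exact (hc' (e.symm.mem_of_norm hc (e.mem_norm (ozc_le B hw) w1 (ozc_le B h6)))).elim
  have h7 : cj c B = cj b C := e.eq_of_mem_pt (Pt.of_cj c B) (e.pt.cj_right b) (conj_mem_cj c (ozc_le B hw))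
    (ozc_le _ h6) (mt conj_eq_one_iff.1 w1)
  refine ⟨v, hv, ?_⟩
  rw [← conj_mem_iff (g := b), cj_cent, ← h7, ← cj_cent, mem_cj, ← (cm_of h5 hb).eq, mul_inv_cancel_right, mul_assoc,
    h4.eq, inv_mul_cancel_left]
  exact h5

end Ed

namespace T2

variable (e : T2 B C D)
include e

theorem nb : Nb C D := ⟨e.t', e.pt.symm.trans e.ed.pt, fun h => e.nc' (h ▸ om_ab D)⟩

theorem eq_one_of_cent' (ht : t ∈ om D) (h : t ∈ 𝒞(om C)) : t = 1 := by_contra fun t1 =>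
  let ⟨_, hs, s1⟩ := e.t'.exists_om
  cel_ne_one e.nb e.nc' (ozc_le C hs) s1 (ozc_le D ht) t1 (cel_one.2 (cm_of h hs).symm)

theorem beta (ht : t ∈ om D) : ∃ b ∈ B, t * b ∈ 𝒞(ln B C) := by
  by_cases t1 : t = 1
  · exact ⟨1, one_mem _, by simp [t1]⟩
  obtain ⟨E, e2, ⟨s, hs, s1, h3⟩, h4⟩ := (e.toEd.symm.of_le (Pt.of_cj t C) (fun x hx => by
      rw [← cj_om] at hx
      obtain ⟨s, hs, rfl⟩ := hx
      simpa [cel_def, mul_assoc] using mul_mem (mem_sup_left hs) (mem_sup_right (e.cel _ (inv_mem hs) t ht)))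
    fun h => e.nc' (le_centralizer_iff.1 (vv_of_norm e.ed.t' e.nb.pt.symm (ozc_le D ht) t1 (cj_eq_iff_mem.1 h)))).swap
    (by rw [om_sq ht]; exact one_mem _)
  obtain rfl : E = B := e.eq_of_mem_pt (e.pt.trans e2.pt.symm) (Pt.refl B) (ozc_le E h3) (ozc_le B (e.cel s hs t ht))
    (cel_ne_one e.nb e.nc' (ozc_le C hs) s1 (ozc_le D ht) t1)
  obtain ⟨-, d, hd, -, h5⟩ := h4 (e.ed.vv ht)
  exact ⟨d, hd, h5⟩

theorem cel_beta (ht : t ∈ om D) (hb : b ∈ B) (h : t * b ∈ 𝒞(ln B C)) (hs : s ∈ om C) : ⁅b, s⁆ = ⁅s, t⁆ := by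
  have := cel_one.2 (cm_of h (mem_sup_right hs)).symm
  rw [cel_mul_right, conj_eq_of_mem (e.ed.vv ht) (e.cel_mem' hs hb)] at this
  rw [eq_inv_of_mul_eq_one_left this, commutatorElement_inv]

theorem exists_cel' (hs : s ∈ om C) (s1 : s ≠ 1) (hv : v ∈ om B) : ∃ t ∈ om D, ⁅s, t⁆ = v :=
  surj_of_inj (card_om e.ed.pt).ge (fun t => ⁅s, t⁆) (fun t ht => e.cel s hs t ht) (fun t ht t' ht' h => by
    by_contra k
    refine cel_ne_one e.nb e.nc' (ozc_le C hs) s1 (ozc_le D (mul_mem ht ht')) (fun k' => k ?_) ?_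
    · rw [eq_inv_of_mul_eq_one_left k', om_inv ht']
    · rw [cel_mul_right, conj_eq_of_mem (e.ed.vv ht) (e.cel s hs t' ht'), h, om_sq (e.cel s hs t' ht')]) hv

theorem fs' : FS B :=
  let ⟨_, hs, s1⟩ := e.t'.exists_om
  e.fs hs fun _ hv => let ⟨_, ht, h⟩ := e.exists_cel' hs s1 hv; let ⟨b, hb, h'⟩ := e.beta ht
    ⟨b, hb, (e.cel_beta ht hb h' hs).trans h⟩

theorem beta' (hb : b ∈ B) : ∃ t ∈ om D, t * b ∈ 𝒞(ln B C) := by
  obtain ⟨s, hs, s1⟩ := e.t'.exists_om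
  obtain ⟨t, ht, h⟩ := e.exists_cel' hs s1 (e.cel_mem hb hs)
  obtain ⟨a, ha, h'⟩ := e.beta ht
  have := mul_mem h' (e.om_cent (mul_mem (inv_mem (e.sq_mem ha))
    (e.mem_of_cel_eq ha hb hs s1 ((e.cel_beta ht ha h' hs).trans h))))
  exact ⟨t, ht, by simpa [mul_assoc] using this⟩

variable (a1 : Cm A B) (a2 : Cm A C) (a3 : Ed A D)
include a1 a2 a3

theorem dec0 (hs : s ∈ om C) : ∃ t ∈ om D, s * t ∈ 𝒞(B) := by
  obtain ⟨b, hb, h1⟩ := e.symm'.beta hs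
  obtain ⟨v', hv', h2⟩ := a3.adj (e.fs'.of_pt a1.pt.symm) (mul_mem (a2.cm (ozc_le C hs)) (a1.cm hb))
    (cent_mono le_sup_right h1)
  obtain ⟨v, hv, h3⟩ := e.ed.adj e.fs' (a1.symm.cm (ozc_le A hv')) (a3.symm.vv hv')
  have h4 : s * b * v ∈ 𝒞(D) := by
    have := mul_mem h2 h3
    rwa [mul_assoc, ← mul_assoc v', om_sq hv', one_mul] at this
  obtain ⟨t, ht, h5⟩ := e.ed.symm.adj (e.fs'.of_pt e.ed.pt) h4 (mul_mem (cent_mono le_sup_left h1) (om_ab B hv))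
  have := mul_mem h5 (e.ab (conj_mem' (e.ed.symm.om_le_norm ht) (inv_mem (mul_mem hb (ozc_le B hv)))))
  exact ⟨t, ht, by simpa [mul_assoc] using this⟩

theorem dec (ht : t ∈ om D) : ∃ c ∈ 𝒞(B ⊔ C), ∃ s ∈ om C, ∃ b ∈ B, c * (s * b) = t := by
  obtain ⟨b, hb, h1⟩ := e.beta ht
  obtain ⟨a, ha, ha'⟩ := e.exists_not_om
  obtain ⟨s, hs, h2⟩ := e.exists_cel ha ha' (e.ed.cel_mem ha ht)
  obtain ⟨t', ht', h3⟩ := e.dec0 a1 a2 a3 hs
  obtain rfl : t' = t := e.ed.cel_inj ha ha' ht' ht (by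
    have := cel_one.2 (cm_of h3 ha).symm
    rw [op_cel_mul (e.le_ob hs) (e.ed.le_ob ht') ha, h2] at this
    rw [eq_inv_of_mul_eq_one_right this, om_inv (e.ed.cel_mem ha ht)])
  obtain ⟨v, hv, h4⟩ := e.adj e.fs' (mul_mem h3 (e.ab hb)) (by
    rw [mul_assoc]; exact mul_mem (om_ab C hs) (cent_mono le_sup_right h1))
  refine ⟨s * t' * b * v, by rw [cent_sup]; exact ⟨mul_mem (mul_mem h3 (e.ab hb)) (ozc_le_cent B hv), h4⟩, s, hs,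
    (b * v)⁻¹, inv_mem (mul_mem hb (ozc_le B hv)), ?_⟩
  rw [← mul_assoc, (cm_of h4 (ozc_le C hs)).eq, ← mul_assoc, ← mul_assoc, ← mul_assoc, om_sq hs]
  group

omit a1 a2 a3 in
theorem dec_sq (ht : c * (s * b) ∈ om D) (hc : c ∈ 𝒞(B ⊔ C)) (hs : s ∈ om C) (hb : b ∈ B) : ⁅b, s⁆ * (b * b) = 1 := by
  have h1 := om_sq ht
  have h2 := cm_of hc (mul_mem (mem_sup_right (ozc_le C hs)) (mem_sup_left hb))
  rw [h2.symm.mul_mul_mul_comm, ob_mul_sq (e.le_ob hs) hb, om_sq hs, one_mul] at h1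
  refine e.toEd.symm.eq_one_of_cent (ozc_le B (mul_mem (e.cel_mem hb hs) (e.sq_mem hb))) ?_
  rw [eq_inv_of_mul_eq_one_right h1]
  exact inv_mem (cent_mono le_sup_right (mul_mem hc hc))

omit a1 a2 a3 in
theorem dec_comm {c' s' b' : G} (ht : c * (s * b) ∈ om D) (hc : c ∈ 𝒞(B ⊔ C)) (hs : s ∈ om C) (hb : b ∈ B)
    (ht' : c' * (s' * b') ∈ om D) (hc' : c' ∈ 𝒞(B ⊔ C)) (hs' : s' ∈ om C) (hb' : b' ∈ B) : Commute c c' := by
  have hu := mul_mem (mem_sup_right (ozc_le C hs)) (mem_sup_left hb)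
  have hu' := mul_mem (mem_sup_right (ozc_le C hs')) (mem_sup_left hb')
  have h1 : ⁅s * b, s' * b'⁆ ∈ om B := by
    rw [cel_mul_left, cel_mul_right s, cel_one.2 (cm_of (om_ab C hs) hs'), one_mul]
    exact mul_mem (conj_mem (norm_le_norm_ozc B (e.toEd.symm.om_le_norm hs)) (ob_cel (mul_mem (e.le_ob hs')
      (e.toTB.le_ob hb')) hb)) (conj_mem (norm_le_norm_ozc B (e.toEd.symm.om_le_norm hs')) (e.cel_mem' hs hb'))
  generalize s * b = u at *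
  generalize s' * b' = u' at *
  have h2 : c * c' * (u * u') = c' * c * (u' * u) := by
    rw [← (cm_of hc' hu).symm.mul_mul_mul_comm, ← (cm_of hc hu').symm.mul_mul_mul_comm]
    exact om_comm ht (ozc_le D ht') |>.symm
  have h3 : ⁅u, u'⁆ = (c * c')⁻¹ * (c' * c) := by
    rw [cel_def, eq_inv_mul_iff_mul_eq, ← mul_assoc, ← mul_assoc, h2]; group
  have h4 := e.toEd.symm.eq_one_of_cent (ozc_le B h1)
    (h3 ▸ cent_mono le_sup_right (mul_mem (inv_mem (mul_mem hc hc')) (mul_mem hc' hc)))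
  rw [h3, inv_mul_eq_one] at h4
  exact h4

omit a1 a2 a3 in
theorem dec_cent (hc : c ∈ 𝒞(B ⊔ C)) (hs : s ∈ om C) : c * s ∈ 𝒞(ln B C) :=
  mul_mem (cent_mono (sup_le_sup (ozc_le B) (ozc_le C)) hc) (e.ln_ab (mem_sup_right hs))

theorem cj_comm (hy : y ∈ B ⊔ C) (hy' : y ∈ 𝒩(B)) : om (cj y D) ≤ 𝒞(om D) := by
  intro x hx
  rw [← cj_om] at hx
  obtain ⟨t, ht, rfl⟩ := hx
  change y * t * y⁻¹ ∈ _
  obtain ⟨c, hc, s, hs, b, hb, rfl⟩ := e.dec a1 a2 a3 ht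
  by_cases b0 : b ∈ om B
  · rw [e.eq_one_of_cent' ht (cent_mono le_sup_right (by
      rw [← mul_assoc]; exact mul_mem (e.dec_cent hc hs) (e.om_cent b0)))]
    simp
  have hb1 := conj_mem hy' hb
  have b1 : y * b * y⁻¹ ∉ om B := fun h => b0 (by simpa [mul_assoc] using conj_mem' (norm_le_norm_ozc B hy') h)
  obtain ⟨v, hv, s₁, hs₁, h1⟩ := e.mem_ln.1 (conj_mem (e.sup_le_norm_ln hy) (mem_sup_right hs))
  have h2 : ⁅y * b * y⁻¹, s₁⁆ * (y * b * y⁻¹ * (y * b * y⁻¹)) = 1 := by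
    have := congrArg (fun z => y * z * y⁻¹) (e.dec_sq ht hc hs hb)
    simp only [← conj_mul, CL.Timm.cel_conj, ← h1] at this
    rwa [op_cel_mul (e.toTB.le_ob (ozc_le B hv)) (e.le_ob hs₁) hb1, cel_one.2 (tcomm e.toTB hb1 (ozc_le B hv)), one_mul,
      mul_one, mul_inv_cancel] at this
  rw [← conj_mul, ← conj_mul, (cm_of hc hy).symm.eq, mul_inv_cancel_right, ← h1]
  generalize y * b * y⁻¹ = b₁ at *
  obtain ⟨t₂, ht₂, h3⟩ := e.beta' hb1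
  obtain ⟨c₂, hc₂, s₂, hs₂, b₂, hb₂, rfl⟩ := e.dec a1 a2 a3 ht₂
  have h4 : b₂ * b₁ ∈ om B := e.mem_of_norm (mul_mem hb₂ hb1) (e.cent_le' (by
    simpa [mul_assoc] using mul_mem (inv_mem (e.dec_cent hc₂ hs₂)) h3))
  obtain rfl : s₁ = s₂ := e.cel_inj hb1 b1 hs₁ hs₂ (mul_right_cancel (h2.trans (by
    rw [← (e.sq_eq_iff hb₂ hb1).2 h4, ← cel_eq_of_mem (e.le_ob hs₂) hb₂ hb1 h4, e.dec_sq ht₂ hc₂ hs₂ hb₂])))
  have h5 : c * (v * s₁ * b₁) = c * c₂⁻¹ * (c₂ * (s₁ * b₂)) * ((b₂ * b₂)⁻¹ * (b₂ * b₁) * v) := by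
    rw [(e.comm_om hv hs₁).eq, mul_assoc s₁, om_comm hv hb1 |>.symm]; group
  rw [h5]
  refine mul_mem (mul_mem (mem_cent_of fun t' ht' => ?_) (om_ab D ht₂))
    (e.ed.symm.vv (mul_mem (mul_mem (inv_mem (e.sq_mem hb₂)) h4) hv))
  obtain ⟨c', hc', s', hs', b', hb', rfl⟩ := e.dec a1 a2 a3 ht'
  have hu := mul_mem (mem_sup_right (ozc_le C hs')) (mem_sup_left hb')
  exact ((e.dec_comm ht hc hs hb ht' hc' hs' hb').mul_right (cm_of hc hu)).mul_left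
    ((e.dec_comm ht₂ hc₂ hs₁ hb₂ ht' hc' hs' hb').mul_right (cm_of hc₂ hu)).inv_left

/-- a point with an element in `C(A)` that does not centralize `Ω₁(C)` -/
theorem exists_pt : ∃ E, Pt B E ∧ ∃ x ∈ om E, x ∈ 𝒞(A) ∧ x ∉ 𝒞(om C) := by
  obtain ⟨t, ht, t₂, ht₂, t1, t2, tt⟩ := two_om e.ed.t'
  obtain ⟨b, hb, h1⟩ := e.beta ht
  obtain ⟨b₂, hb₂, h2⟩ := e.beta ht₂
  have k : ∀ {t b : G}, t ∈ om D → t ≠ 1 → t * b ∈ 𝒞(ln B C) → b ∉ om B := fun ht t1 h hb =>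
    t1 (e.eq_one_of_cent' ht (cent_mono le_sup_right (by simpa using mul_mem h (inv_mem (e.om_cent hb)))))
  obtain ⟨y, hy, hy', h3⟩ := e.trans' hb (k ht t1 h1) hb₂ (k ht₂ t2 h2)
  have hN := norm_le_norm_cent _ (e.sup_le_norm_ln hy)
  have ht' : y * t * y⁻¹ ∈ om (cj y D) := cj_om y D ▸ conj_mem_cj y ht
  have r1 : y * t * y⁻¹ * t ∈ 𝒞(A) := by
    have := cel_mem_left (sup_le a1.cm a2.cm hy) (norm_le_norm_cent _ (a3.symm.om_le_norm ht))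
    rwa [cel_def, om_inv ht] at this
  have r2 : y * t * y⁻¹ * t ∉ 𝒞(om C) := fun h => by
    have h4 := mul_mem (cent_mono le_sup_right (mul_mem h2 (inv_mem (mul_mem (conj_mem hN h1) (e.om_cent h3))))) h
    have := e.eq_one_of_cent' (mul_mem ht₂ ht) (by convert h4 using 1; group)
    exact tt (by rw [eq_inv_of_mul_eq_one_right this, om_inv ht₂])
  have e' := e.ed.cj_right hy'
  by_cases h : cj y D ≤ 𝒞(D)
  · obtain ⟨v, hv, v1⟩ := e.exists_om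
    obtain ⟨d, hd, h4⟩ := e.ed.symm.full (e.fs'.of_pt e.ed.pt) hv v1 ht
    obtain ⟨d', hd', h5⟩ := e'.symm.full (e.fs'.of_pt e'.pt) hv v1 ht'
    have h6 : d * d' * v * (d * d')⁻¹ = y * t * y⁻¹ * t * v := by
      have := (cm_of (h (ozc_le _ ht')) hd).eq
      calc d * d' * v * (d * d')⁻¹ = d * ⁅d', v⁆ * d⁻¹ * ⁅d, v⁆ * v := by simp only [cel_def]; group
        _ = _ := by rw [h5, h4, ← this, mul_inv_cancel_right]
    refine ⟨_, Pt.of_cj (d * d') B, _, cj_om _ B ▸ conj_mem_cj _ hv, h6 ▸ mul_mem r1 (a1.cm (ozc_le B hv)), fun k => r2 ?_⟩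
    rw [← mul_inv_cancel_right (y * t * y⁻¹ * t) v, ← h6]
    exact mul_mem k (inv_mem (e.toEd.symm.vv hv))
  · have e2 : Ed D (cj y D) := ⟨⟨e.ed.t', Pt.of_cj y D, fun k => h (k.le.trans e.ed.t'.ab)⟩, h, e.cj_comm a1 a2 a3 hy hy'⟩
    obtain h4 | ⟨d, -, h4⟩ := e2.cover (e.fs'.of_pt e.ed.pt) (mul_mem (mem_sup_right ht') (mem_sup_left ht))
    · exact ⟨D, e.ed.pt, _, h4, r1, r2⟩
    · exact ⟨_, e'.pt.cj_right d, _, h4, r1, r2⟩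

end T2

end CL.AT
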