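/-
An abelian TI `2`-subgroup, neither cyclic nor elementary abelian, whose normalizer is a maximal `2`-local subgroup of
characteristic two, commutes with none of its other conjugates.
-/
import Cfsg.Agent.Even.AT1

set_option autoImplicit false
set_option linter.unusedSectionVars false

open Cfsg Subgroup
open scoped commutatorElement

namespace CL.AT

open CL.Even CL.Timm CL.Grp CL.ATI
open CL.WTI (Pt ax op mem_op op_le_cent op_le_norm op_cel_mul)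

variable {G : Type*} [Group G] [Finite G] {A B C D E N P X : Subgroup G} {a b c d f g k n s t u v w x y z : G}

theorem mc_of_pt (mc : MC B) (hC : Pt B C) : MC C := by
  obtain ⟨g, rfl⟩ := hC
  refine ⟨fun X hX h1 h2 => ?_, cj_norm g B ▸ mc.chr.cj g⟩
  rw [← cj_norm, cj_le_iff, cj_norm] at h2
  rw [← cj_norm, le_cj_iff, cj_norm]
  exact mc.max _ (isPGroup_cj hX _) (mt cj_eq_bot.1 h1) h2

/-- Baer–Suzuki -/
theorem baer (hv : v ∈ X) (vv : v * v = 1) (hm : ∀ m ∈ X, (v * (m * v * m⁻¹)) ^ 2 ^ 2 = 1) : v ∈ pCoreOf 2 X :=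
  ⟨⟨v, hv⟩, CL.Inv.baerSuzuki_mem_pCore _ fun m => CL.Inv.isPGroup_closure_pair_of_invol (Subtype.ext vv)
    (by rw [conj_mul, show (⟨v, hv⟩ : X) * ⟨v, hv⟩ = 1 from Subtype.ext vv, mul_one, mul_inv_cancel])
    ⟨2, Subtype.ext (hm m m.2)⟩, rfl⟩

theorem pow_four (hx : x * x = 1) (hy : y * y = 1) (h : Commute (y * x * y⁻¹) x) : (x * y) ^ 2 ^ 2 = 1 := by
  have e : x * y * (x * y) = x * (y * x * y⁻¹) := by rw [inv_eq_of_mul_eq_one_right hy]; group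
  rw [sq, pow_mul, sq, sq, e, h.mul_mul_mul_comm, conj_mul, hx]
  group

theorem comm_of_four (hx : x * x = 1) (hy : y * y = 1) (h : Commute (y * x * y⁻¹) x) : Commute (x * y * x⁻¹) y := by
  have := pow_four hx hy h
  rw [inv_eq_of_mul_eq_one_right hx]
  rw [sq, pow_mul, sq, sq] at this
  have e := eq_inv_of_mul_eq_one_left this
  rw [mul_inv_rev, mul_inv_rev, inv_eq_of_mul_eq_one_right hx, inv_eq_of_mul_eq_one_right hy] at e
  calc x * y * x * y = x * y * (x * y) := by group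
    _ = y * (x * y * x) := by rw [e]; group

/-- the product of the subgroups `Ω₁(C)` for the points `C` commuting with `B` -/
def Vs (B : Subgroup G) : Subgroup G := ⨆ C : {C // Pt B C ∧ C ≤ 𝒞(B)}, om C.1

theorem le_Vs (hC : Pt B C) (h : C ≤ 𝒞(B)) : om C ≤ Vs B := le_iSup_of_le ⟨C, hC, h⟩ le_rfl

theorem Vs_le (h : ∀ C, Pt B C → C ≤ 𝒞(B) → om C ≤ X) : Vs B ≤ X := iSup_le fun C => h _ C.2.1 C.2.2

theorem Vs_le_cent : Vs B ≤ 𝒞(B) := Vs_le fun C _ h => (ozc_le C).trans h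

theorem cj_Vs_le (g : G) (B : Subgroup G) : cj g (Vs B) ≤ Vs (cj g B) := cj_le_iff.2 (Vs_le fun C h1 h2 =>
  le_cj_iff.2 (by rw [inv_inv, cj_om]; exact le_Vs (h1.conj g) (by rw [← cj_cent]; exact cj_mono g h2)))

theorem cj_Vs (g : G) (B : Subgroup G) : cj g (Vs B) = Vs (cj g B) :=
  le_antisymm (cj_Vs_le g B) (le_cj_iff.2 (by simpa only [cj_inv_cj] using cj_Vs_le g⁻¹ (cj g B)))

theorem norm_le_norm_Vs : 𝒩(B) ≤ 𝒩(Vs B) := fun g hg => by rw [← cj_eq_iff_mem, cj_Vs, cj_eq hg]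

section

variable (h : TB B) (mc : MC B)
include h mc

omit mc in
theorem cj_cm (hC : Pt B C) (h1 : C ≤ 𝒞(B)) (hy : y ∈ pCoreOf 2 𝒩(B)) : cj y C ≤ 𝒞(C) :=
  cm_of_pgroup h (isPGroup_sup' (core_isP _) (h.of_pt hC).isP (h1.trans ((cent_le_norm B).trans (self_le_norm_core _))))
    hC (hC.cj_right y) le_sup_right (cj_le_of_le le_sup_right (le_normalizer (mem_sup_left hy)))

theorem sq_mem_Q (hC : Pt B C) (h1 : C ≤ 𝒞(B)) (hc : c ∈ C) : c * c ∈ pCoreOf 2 𝒩(B) := by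
  let c' : 𝒩(B) := ⟨c, cent_le_norm B (h1 hc)⟩
  refine ⟨c' * c', CL.Loc.mem_pCore_of_commutator_mem_frattini (isCharP_iff.1 mc.chr) fun y hy => ?_, rfl⟩
  refine ⟨⟨⁅y, c'⁆, cel_mem_left hy ((normalizer_eq_top _).ge (mem_top _))⟩ ^ 2, pow_mem_frattini pCore_isP _,
    Subtype.ext ?_⟩
  have : Commute ((y : G) * c * (y : G)⁻¹) c⁻¹ := (cm_of (cj_cm h hC h1 ⟨y, hy, rfl⟩ (conj_mem_cj _ hc)) hc).inv_right
  change ((y : G) * c * (y : G)⁻¹ * c⁻¹) ^ 2 = y * (c * c) * (y : G)⁻¹ * (c * c)⁻¹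
  rw [sq, this.symm.mul_mul_mul_comm]
  group

theorem om_le_Q (hD : Pt B D) (h1 : D ≤ 𝒞(B)) : om D ≤ pCoreOf 2 𝒩(B) := fun v hv => by
  refine baer (cent_le_norm B (h1 (ozc_le D hv))) (om_sq hv) fun m hm => ?_
  by_cases v1 : v = 1
  · simp [v1]
  have hv' : m * v * m⁻¹ ∈ om (cj m D) := cj_om m D ▸ conj_mem_cj m hv
  have hD' := hD.cj_right m
  have h2 : cj m D ≤ 𝒞(B) := cj_le_of_le h1 (norm_le_norm_cent B hm)
  generalize cj m D = D' at *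
  obtain ⟨c, hc, c1, c2⟩ := exists_four (h.of_pt hD')
  have h3 := comm_of_four (om_sq hv) (om_sq c2)
    (cm_of (cj_cm h hD h1 (sq_mem_Q h mc hD' h2 hc) (conj_mem_cj _ (ozc_le D hv))) (ozc_le D hv))
  have h4 := vv_of_comm (h.of_pt hD') (Pt.of_cj v D') (ozc_le _ c2) c1 (conj_mem_cj v (ozc_le _ c2))
    (mt conj_eq_one_iff.1 c1) h3.symm
  exact pow_four (om_sq hv) (om_sq hv') (comm_of_four (om_sq hv') (om_sq hv)
    (cm_of (h4 (cj_om v D' ▸ conj_mem_cj v hv')) hv'))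

theorem cc (hC : Pt B C) (h1 : C ≤ 𝒞(B)) (hD : Pt B D) (h2 : D ≤ 𝒞(B)) : om D ≤ 𝒞(om C) := by
  obtain ⟨c, hc, c1⟩ := exists_sq (h.of_pt hC)
  exact vv_of_norm (h.of_pt hC) (hC.symm.trans hD) (mul_mem hc hc) c1 (q4_sq (h.of_pt hD) fun v hv =>
    cm_of (cj_cm h hC h1 (om_le_Q h mc hD h2 hv) (conj_mem_cj v hc)) hc)

theorem elem_Vs : IsElementaryAbelian 2 (Vs B) :=
  elem_iSup (fun _ => ozc_elem _) fun C D => cc h mc D.2.1 D.2.2 C.2.1 C.2.2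

omit mc in
theorem ne_bot_of_om (hC : Pt B C) (h1 : om C ≤ X) : X ≠ ⊥ :=
  let ⟨_, hv, v1⟩ := (h.of_pt hC).exists_om; fun e => v1 (mem_bot.1 (e ▸ h1 hv))

end

/-- a point commuting with `B` is on an edge commuting with `B` -/
theorem Cm.exists_ed (e : Cm B C) (mc : MC B) : ∃ D, Cm B D ∧ Ed C D := by
  by_contra hn
  have h1 : Vs B ≤ Vs C := Vs_le fun D hD h => le_Vs (e.pt.symm.trans hD) (by
    by_cases h1 : D = B
    · exact h1 ▸ e.symm.cm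
    by_cases h2 : D = C
    · exact h2 ▸ e.t'.ab
    exact by_contra fun k => hn ⟨D, ⟨⟨e.toTB, hD, h1⟩, h⟩, ⟨e.t', e.pt.symm.trans hD, h2⟩, k,
      cc e.toTB mc e.pt e.cm hD h⟩)
  obtain ⟨g, rfl⟩ := e.pt
  rw [← cj_Vs] at h1
  exact e.ne (cj_eq (mc.max _ (elem_isP (elem_Vs e.toTB mc)) (ne_bot_of_om e.toTB (Pt.refl B) (le_Vs (Pt.refl B) e.ab))
    norm_le_norm_Vs (cj_eq_iff_mem.1 (eq_of_le_of_card_ge h1 (card_cj _ _).le).symm)))

theorem Ed.le_cent (e : Nb A E) (hx : x ∈ E) (x1 : x ≠ 1) (h : x ∈ 𝒞(A)) : Cm A E := by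
  obtain ⟨a, ha, ha'⟩ := e.exists_not_om
  have := e.nm hx x1 (cm_of h ha).symm
  exact (e.cm_or_ed ha (by rintro rfl; exact ha' (one_mem _)) this).resolve_right fun k => ha' (k.mem_of_norm ha this)

/-- `Ω₁(X)` centralizes `Ω₁(C)` if it normalizes a point that commutes with `C` -/
theorem Cm.vv_of_norm (e : Cm A C) (mc : MC A) (hD : Pt A D) (h : om D ≤ 𝒩(A)) : om D ≤ 𝒞(om C) := by
  by_contra nc
  have h1 : ¬ D ≤ 𝒞(A) := fun k => nc (cc e.toTB mc e.pt e.cm hD k)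
  obtain ⟨t, ht, t1⟩ := (e.of_pt hD).exists_om
  have a3 : Ed A D := (((Nb.symm ⟨e.toTB, hD, fun k => h1 (k ▸ e.ab)⟩).cm_or_ed (ozc_le D ht) t1 (h ht)).resolve_left
    fun k => h1 k.symm.cm).symm
  have hV := elem_le_cent (elem_Vs e.toTB mc)
  have hC := le_Vs e.pt e.cm
  have h2 : ∀ s ∈ om C, ∀ t ∈ om D, ⁅s, t⁆ ∈ Vs A := fun s hs t ht => cel_mem_left (hC hs) (norm_le_norm_Vs (h ht))
  obtain ⟨B, t2⟩ := exists_t2 ⟨e.t', e.pt.symm.trans hD, fun k => h1 (k ▸ e.cm)⟩ nc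
    (fun s hs t ht => cent_mono hC (hV (h2 s hs t ht))) fun s hs t ht => q4_cel a3.t'
      (fun v hv => cm_of (hV (conj_mem (norm_le_norm_Vs (h hv)) (hC hs))) (hC hs)) ht
  obtain ⟨s, hs, s1⟩ := e.t'.exists_om
  have a1 : Cm A B := Ed.le_cent ⟨e.toTB, e.pt.trans t2.pt.symm, fun k => t2.nc (k ▸ e.cm)⟩ (ozc_le B (t2.cel s hs t ht))
    (cel_ne_one t2.nb nc (ozc_le C hs) s1 (ozc_le D ht) t1) (Vs_le_cent (h2 s hs t ht))
  obtain ⟨E, hE, x, hx, h3, h4⟩ := t2.exists_pt a1 e a3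
  refine h4 (cc e.toTB mc e.pt e.cm (a1.pt.trans hE) ?_ hx)
  by_cases k : E = A
  · exact k ▸ e.ab
  · exact (Ed.le_cent ⟨e.toTB, a1.pt.trans hE, k⟩ (ozc_le E hx) (by rintro rfl; exact h4 (one_mem _)) h3).cm

/-- there are no commuting points -/
theorem not_cm (e : Cm B C) (mc : MC B) : False := by
  have mc' := mc_of_pt mc e.pt
  obtain ⟨D, e1, e2⟩ := e.symm.exists_ed mc'
  have key : ∀ m ∈ 𝒩(B), om (cj m D) ≤ 𝒞(om D) := fun m hm =>
    have e3 := e2.cj_right hm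
    e1.vv_of_norm mc' (e.pt.symm.trans e3.pt) ((e.vv_of_norm mc e3.pt e3.symm.om_le_norm).trans e.t'.cent_om_le)
  have h1 : IsElementaryAbelian 2 (ncl 𝒩(B) (om D)) := elem_iSup (fun m => elem_map _ (ozc_elem D)) fun m m' => by
    rw [← cj_cent, le_cj_iff, ← cj_mul, cj_om]
    exact key _ (mul_mem (inv_mem m'.2) m.2)
  have h2 : D ≤ 𝒩(ncl 𝒩(B) (om D)) := le_norm_of_commutator_le (commutator_le.2 fun x hx d hd => le_ncl _ _
    (ob_cel' ((ncl_le_iff.2 fun m hm => ?_ : ncl 𝒩(B) (om D) ≤ ob D) hx) hd))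
  · obtain ⟨d, hd, hd'⟩ := e2.t'.exists_not_om
    exact hd' (e2.symm.mem_of_norm hd (mc.max _ (elem_isP h1) (ne_bot_of_om e.toTB e2.pt (le_ncl _ _))
      (le_norm_ncl _ _) (h2 hd)))
  rw [cj_om]
  by_cases k : cj m D ≤ 𝒞(D)
  · exact (ozc_le _).trans (k.trans (WTI.cent_le_op (ozc_le D)))
  · exact Ed.le_ob ⟨⟨e2.t', Pt.of_cj m D, fun k' => k (k'.le.trans e2.t'.ab)⟩, k, key m hm⟩

/-- the pairs of points -/
theorem typeThm (h : TB B) (mc : MC B) : (∀ P, Pt B P → P ≠ B → ax B P = ⊥) ∨ T1 B := by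
  have key : ∀ P, Pt B P → P ≠ B → ∀ b ∈ B, b ≠ 1 → b ∈ 𝒩(P) → Ed B P := fun P hP hne b hb b1 hn =>
    (Nb.cm_or_ed ⟨h, hP, hne⟩ hb b1 hn).resolve_left fun e => not_cm e mc
  refine or_iff_not_imp_left.2 fun hn => ?_
  push Not at hn
  obtain ⟨P, hP, hne, h1⟩ := hn
  obtain ⟨b, hb, b1⟩ := (bot_or_exists_ne_one _).resolve_left h1
  exact ⟨h, fun _ => (key P hP hne b hb.1 b1 hb.2).sq_mem, fun P hP hne b hb b1 hn =>
    have e := key P hP hne b hb b1 hn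
    ⟨e.mem_of_norm hb hn, e.symm.vv, fun _ hx _ => e.cel_mem hx⟩⟩

end CL.AT
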