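/-
Rank one pushing up: maximal `p`-local subgroups that are not pushed up.
-/
import Cfsg.Agent.Even.PushExc
import Cfsg.Agent.Loc.QdStruct
import Cfsg.Agent.Loc.ElemAb
import Cfsg.Agent.Grp.Gaschutz

set_option autoImplicit false

open Cfsg Subgroup
open scoped commutatorElement

namespace CL.Even

open CL.Grp CL.Loc Matrix

variable {p : ℕ} {Γ : Type*} [Group Γ] [Finite Γ] [Fact p.Prime] {S G M Q Z : Subgroup Γ}

omit [Finite Γ] [Fact p.Prime] in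
theorem noChar_of_max (hS : IsPGroup p S) (hmax : ∀ R : Subgroup Γ, IsPGroup p R → R ≠ ⊥ → G ≤ 𝒩(R) → 𝒩(R) = G)
    (hN : ¬ 𝒩(S) ≤ G) : NoChar S G := fun C h1 _ e =>
  hN ((normalizer_le_normalizer_map_subtype C).trans (hmax _ (hS.to_le (map_subtype_le C))
    (fun e' => h1 ((map_eq_bot_iff_of_injective _ S.subtype_injective).1 e')) e).le)

theorem Vx.exists_not_le (h : Vx p S G M Q Z) (hp : p ≠ 3)
    (hmax : ∀ R : Subgroup Γ, IsPGroup p R → R ≠ ⊥ → G ≤ 𝒩(R) → 𝒩(R) = G) (hN : ¬ 𝒩(S) ≤ G) :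
    ∃ n ∈ 𝒩(S), ¬ cj n Z ≤ Q := by
  by_contra e
  push Not at e
  have k : ∀ n ∈ 𝒩(S), Vx p S (cj n G) (cj n M) (cj n Q) (cj n Z) := fun n hn => cj_eq hn ▸ (cj_eq hn).symm ▸ h.cj n
  have e1 : ∀ n ∈ 𝒩(S), G ≤ 𝒩(cj n Q ⊓ Q) := fun n hn => by
    rw [← h.prp_X (k n hn), h.prp_eq le_sup_right]
    exact le_norm_inf h.normQ (le_norm_cent (by_contra fun e' => hp (Pr.eq_three ⟨h, k n hn, e n hn, e'⟩)))
  have e2 : ⨅ n ∈ 𝒩(S), cj n Q ≤ Q := (iInf₂_le 1 (one_mem _)).trans (cj_one Q).le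
  refine hN (le_trans ?_ (hmax (⨅ n ∈ 𝒩(S), cj n Q) (h.Q_isP.to_le e2) (fun e' => h.not_Ω_le ?_) ?_).le)
  · refine le_normalizer_iff.2 fun g hg x hx => mem_iInf.2 fun n => mem_iInf.2 fun hn => ?_
    have := conj_mem_cj g (mem_iInf.1 (mem_iInf.1 hx (g⁻¹ * n)) (mul_mem (inv_mem hg) hn))
    rwa [← cj_mul, mul_inv_cancel_left] at this
  · exact (le_iInf₂ fun n hn => (k n hn).Ω_le_Z.trans (k n hn).Z_le_Q).trans (e'.le.trans bot_le)
  · exact le_normalizer_iff.2 fun g hg x hx => mem_iInf.2 fun n => mem_iInf.2 fun hn =>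
      (conj_mem (e1 n hn hg) (⟨mem_iInf.1 (mem_iInf.1 hx n) hn, e2 hx⟩ : x ∈ cj n Q ⊓ Q)).1

theorem Vx.comm_Q_le {H N P W : Subgroup Γ} (h : Vx p S G M Q Z) (k : Vx p S H N P W) (e : ¬ W ≤ Q) :
    ⁅Q, Q⁆ ≤ ⁅P, P⁆ := by
  obtain ⟨D, t⟩ := h.typeI k e
  have e1 : D ≤ P := (le_inf (t.D_le.trans h.Q_le) t.DW).trans k.prp_Z.le
  rw [← t.supD, sup_comm, commutator_sup_central (by rw [sup_comm, t.supD]; exact h.Z_le_cent)]
  exact commutator_mono e1 e1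

/-- the `p`-core of a maximal `p`-local vertex group that is not pushed up is elementary abelian -/
theorem Vx.core_eq (h : Vx p S G M Q Z) (hp : p ≠ 3)
    (hmax : ∀ R : Subgroup Γ, IsPGroup p R → R ≠ ⊥ → G ≤ 𝒩(R) → 𝒩(R) = G) (hN : ¬ 𝒩(S) ≤ G) :
    Q = Z ∧ ∃ W D, TI p S G Q Z W D := by
  obtain ⟨n, hn, e⟩ := h.exists_not_le hp hmax hN
  have k : Vx p S (cj n G) (cj n M) (cj n Q) (cj n Z) := cj_eq hn ▸ (cj_eq hn).symm ▸ h.cj n
  refine ⟨le_antisymm (h.hZ ▸ le_inf le_rfl (commutator_eq_bot_iff'.1 (by_contra fun e1 => e ?_))) h.Z_le_Q,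
    _, h.typeI k e⟩
  have e2 := hmax _ (h.Q_isP.to_le (commutator_le_of_le_norm le_normalizer)) e1 (le_norm_commutator h.normQ h.normQ)
  refine (cj_eq (h.normZ (e2.le (cj_eq_iff_mem.1 ?_)))).le.trans h.Z_le_Q
  rw [cj_commutator]
  exact le_antisymm (k.comm_Q_le h fun e' => e (k.le_comm h e')) (h.comm_Q_le k e)

theorem elem_exists_compl {A D : Subgroup Γ} (hA : IsElementaryAbelian p A) (hD : D ≤ A) :
    ∃ E : Subgroup Γ, E ≤ A ∧ E ⊓ D = ⊥ ∧ E ⊔ D = A := by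
  obtain ⟨W, hW⟩ := (EAMod.sub hA D).exists_isCompl
  have h1 := EAMod.grp_le hA W
  refine ⟨EAMod.grp W, h1, ?_, le_antisymm (sup_le h1 hD) ?_⟩
  · rw [← EAMod.grp_sub_of_le hA (inf_le_left.trans h1), EAMod.sub_inf, EAMod.sub_grp, inf_comm,
      hW.inf_eq_bot, EAMod.grp_bot]
  · rw [← EAMod.sub_le_sub_iff hA le_rfl, EAMod.sub_sup hA h1 hD, EAMod.sub_grp, sup_comm, hW.sup_eq_top]
    exact le_top

/-- a central extension of `F² : SL₂(F)` in odd characteristic with a suitable Sylow subgroup splits -/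
theorem NatSec.qd_split {F : Type*} [Field F] [CharP F p] (hp : p ≠ 2) {Z₀ W : Subgroup Γ} (N : NatSec F G Z Z₀)
    (hk : N.ker = Z) (ea : IsElementaryAbelian p Z) (h0 : Z₀ ≤ 𝒞(G)) (hS : IsSylowIn p S G)
    (eW : IsElementaryAbelian p W) (hW : W ⊔ Z = S) :
    ∃ G₀, IsInternalDirectProduct G₀ Z₀ G ∧ Nonempty (G₀ ≃* qdOver F) := by
  obtain ⟨t, ht, hr⟩ := N.r_surj (-1)
  have hZG : Z ≤ G := hk ▸ N.ker_le
  have hZ := elem_le_cent ea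
  have two := two_ne_zero_of_charP F hp
  have odd : ∀ z ∈ Z, (orderOf z).Coprime 2 := fun z hz => Nat.Coprime.coprime_dvd_left
    (orderOf_dvd_of_pow_eq_one (ea.2 z hz)) ((Nat.coprime_primes Fact.out Nat.prime_two).2 hp)
  have hc : ∀ g ∈ G, ⁅g, t⁆ ∈ Z := fun g hg => hk ▸ N.mem_ker.2 ⟨comm_mem_left hg (le_normalizer ht), by
    rw [commutatorElement_def, N.r_mul _ (conj_mem (le_normalizer hg) ht) _ (G.inv_mem ht), N.r_conj hg ht,
      N.r_inv ht, hr]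
    simp⟩
  have ht2 : t * t ∈ Z := hk ▸ N.mem_ker.2 ⟨G.mul_mem ht ht, by rw [N.r_mul t ht t ht, hr]; simp⟩
  have hψ : ∀ z ∈ Z, N.ψ (t * z * t⁻¹) = -N.ψ z := fun z hz => by rw [N.ψ_conj t ht z hz, hr]; simp [neg_mulVec]
  have hψ' : ∀ z ∈ Z, N.ψ ⁅z, t⁆ = (2 : F) • N.ψ z := fun z hz => by
    rw [commutatorElement_def, mul_assoc, mul_assoc, ← mul_assoc t, N.ψ_mul z hz _ (conj_mem (N.norm ht)
      (Z.inv_mem hz)), hψ _ (Z.inv_mem hz), N.ψ_inv hz, neg_neg, two_smul]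
  let R : Subgroup Γ :=
    { carrier := {z | z ∈ Z ∧ t * z * t⁻¹ = z⁻¹}
      one_mem' := ⟨Z.one_mem, by simp⟩
      mul_mem' := fun {a b} ha hb => ⟨Z.mul_mem ha.1 hb.1, by
        rw [← conj_mul, ha.2, hb.2, ← _root_.mul_inv_rev, comm_of_mem (hZ ha.1) hb.1]⟩
      inv_mem' := fun {a} ha => ⟨Z.inv_mem ha.1, by rw [← conj_inv, ha.2]⟩ }
  have hR : G ≤ 𝒩(R) := le_normalizer_iff.2 fun g hg z hz => ⟨conj_mem (N.norm hg) hz.1, by
    have e := conj_eq_of_mem (hZ (hc _ (G.inv_mem hg))) (Z.inv_mem hz.1)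
    calc t * (g * z * g⁻¹) * t⁻¹ = g * (⁅g⁻¹, t⁆ * (t * z * t⁻¹) * ⁅g⁻¹, t⁆⁻¹) * g⁻¹ := by
          simp only [commutatorElement_def]; group
      _ = _ := by rw [hz.2, e, conj_inv]⟩
  have hR0 : ∀ z ∈ R, z ∈ Z₀ → z = 1 := fun z hz e => mem_bot.1 (mem_of_pow_mem_of_coprime (odd z hz.1) (by
    rw [sq, mem_bot, mul_eq_one_iff_eq_inv, ← hz.2, conj_eq_of_mem' ht (h0 e)]))
  have hRZ : Z ≤ R ⊔ Z₀ := fun z hz => mem_of_pow_mem_of_coprime (odd z hz) (by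
    have e1 := conj_mem (N.norm ht) hz
    have e2 : z ^ 2 = ⁅z, t⁆ * (t * z * t⁻¹ * z) := by rw [commutatorElement_def, sq]; group
    refine e2 ▸ mul_mem_sup ⟨hc z (hZG hz), ?_⟩ ((N.ψ_eq_zero _ (Z.mul_mem e1 hz)).1 (by
      rw [N.ψ_mul _ e1 _ hz, hψ z hz, neg_add_cancel]))
    rw [commutatorElement_inv, commutatorElement_def t, ← conj_eq_of_mem (hZ ht2) (Z.inv_mem hz),
      commutatorElement_def]
    group)
  have hWG : W ≤ G := (le_sup_left.trans hW.le).trans hS.le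
  obtain ⟨C, c1, c2, c3⟩ := elem_exists_compl (elem_sup eW (elem_of_le ea N.le)
    (le_centralizer_iff.1 (h0.trans (cent_mono hWG)))) (inf_le_left : (W ⊔ Z₀) ⊓ Z ≤ _)
  have hZS : Z ≤ S := le_sup_right.trans hW.le
  have hCS : C ≤ S := c1.trans (sup_le (le_sup_left.trans hW.le) (N.le.trans hZS))
  have hRS : R ≤ S := fun _ h => hZS h.1
  have hn : (Z₀.subgroupOf G).Normal := ⟨fun x hx g => conj_mem (H := Z₀) (N.norm₀ g.2) hx⟩
  have : IsMulCommutative Z₀ := (elem_of_le ea N.le).1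
  obtain ⟨L, hL⟩ := gaschutz_sylow (Z₀.subgroupOf G) (elem_isP (elem_subgroupOf (elem_of_le ea N.le) G))
    hS.toSylow ((C ⊔ R).subgroupOf G) (eq_bot_iff.2 fun x hx => by
      obtain ⟨c, hc, r, hr, e⟩ := (mem_sup_nr ((hCS.trans hS.le).trans hR)).1 hx.1
      have e1 : c * r ∈ Z₀ := e ▸ hx.2
      have e2 : c = 1 := mem_bot.1 (c2.le ⟨hc, c1 hc, (Z.mul_mem_cancel_right hr.1).1 (N.le e1)⟩)
      rw [e2, one_mul] at e e1
      exact Subtype.ext (e.symm.trans (hR0 r hr e1))) (by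
      rw [hS.coe_toSylow, ← subgroupOf_sup (N.le.trans hZG) ((sup_le hCS hRS).trans hS.le)]
      have e : Z ≤ Z₀ ⊔ (C ⊔ R) := hRZ.trans (sup_le (le_sup_of_le_right le_sup_right) le_sup_left)
      exact congrArg (subgroupOf · G) (le_antisymm (sup_le (N.le.trans hZS) (sup_le hCS hRS)) (hW.ge.trans
        (sup_le (le_sup_left.trans (c3.ge.trans (sup_le (le_sup_of_le_right le_sup_left)
          (inf_le_right.trans e)))) e))))
  let φ : G →* qdOver F := MonoidHom.mk' (fun g => qdMk (N.ψ ⁅(g : Γ), t⁆) (N.r g)) fun a b => by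
    rw [qdMk_mul, coe_mul, comm_mul_left', N.r_mul _ a.2 _ b.2, N.ψ_mul _ (conj_mem (N.norm a.2) (hc _ b.2)) _
      (hc _ a.2), N.ψ_conj _ a.2 _ (hc _ b.2), add_comm]
  have hφ : ∀ g : G, φ g = 1 ↔ (g : Γ) ∈ Z₀ := fun g => by
    rw [← qdMk_one]
    refine qdMk_inj.trans ⟨fun e => ?_, fun e => ⟨?_, (N.mem_ker.1 (hk.ge (N.le e))).2⟩⟩
    · have e1 : (g : Γ) ∈ Z := hk ▸ N.mem_ker.2 ⟨g.2, e.2⟩
      exact (N.ψ_eq_zero _ e1).1 ((smul_eq_zero.1 ((hψ' _ e1).symm.trans e.1)).resolve_left two)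
    · rw [hψ' _ (N.le e), (N.ψ_eq_zero _ (N.le e)).2 e, smul_zero]
  have hs : Function.Surjective φ := fun x => by
    obtain ⟨v, s, rfl⟩ := exists_qdMk x
    obtain ⟨g, hg, rfl⟩ := N.r_surj s
    obtain ⟨z, hz, e⟩ := N.ψ_surj ((2 : F)⁻¹ • (v - N.ψ ⁅g, t⁆))
    refine ⟨⟨z, hZG hz⟩ * ⟨g, hg⟩, ?_⟩
    rw [map_mul]
    refine (qdMk_mul _ _ _ _).trans ?_
    rw [hψ' z hz, e, (N.mem_ker.1 (hk.ge hz)).2, smul_inv_smul₀ two, one_mul, CL.Even.sl2_one_mulVec,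
      sub_add_cancel]
  refine ⟨L.map G.subtype, ⟨map_subtype_le L, N.le.trans hZG, fun a ha b hb =>
    comm_of_mem (h0 hb) (map_subtype_le L ha), ?_, ?_⟩, ⟨(L.equivMapOfInjective _ G.subtype_injective).symm.trans
      (MulEquiv.ofBijective (φ.comp L.subtype) ⟨(injective_iff_map_eq_one _).2 fun x hx => ?_, fun x => ?_⟩)⟩⟩
  · rw [← map_subgroupOf_eq_of_le (N.le.trans hZG), ← map_inf _ _ _ G.subtype_injective, inf_comm,
      hL.disjoint.eq_bot, Subgroup.map_bot]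
  · rw [← map_subgroupOf_eq_of_le (N.le.trans hZG), ← Subgroup.map_sup, sup_comm, hL.sup_eq_top, map_subtype_top]
  · exact Subtype.ext (mem_bot.1 (hL.disjoint.eq_bot.le ⟨(hφ x).1 hx, x.2⟩))
  · obtain ⟨g, rfl⟩ := hs x
    obtain ⟨⟨a, b⟩, rfl⟩ := hL.2 g
    exact ⟨b, by rw [map_mul, (hφ a).2 a.2, one_mul]; rfl⟩

end CL.Even
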