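/-
Sims' theorem in local form: a maximal subgroup of characteristic two with dihedral top of order `2 q`.
-/
import Cfsg.Agent.Even.AmS3
import Cfsg.Agent.Loc.Thompson2

set_option autoImplicit false
open Cfsg CL.Grp CL.Even CL.Loc
open scoped Pointwise commutatorElement

namespace CL.Am

variable {K : Type*} [Group K] [Finite K]

theorem conj_mul_inv_mem_of_small {V W : Subgroup K} [V.Normal] (hab : ∀ a ∈ V, ∀ b ∈ V, a * b = b * a) {x : K}
    (hx : x ∈ 𝒞(W)) {q : ℕ} (hq : q.Prime) (hxq : x ^ q ∈ 𝒞(V)) (hc : W.relIndex V < q) {v : K} (hv : v ∈ V) :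
    (x * v * x⁻¹)⁻¹ * v ∈ W := by
  classical
  let W' := W.subgroupOf V
  have : W'.Normal := ⟨fun a ha g => by
    have : g * a * g⁻¹ = a := Subtype.ext (by
      rw [Subgroup.coe_mul, Subgroup.coe_mul, hab _ g.2 _ a.2, Subgroup.coe_inv, mul_inv_cancel_right])
    rwa [this]⟩
  let c : MulAut V := MulAut.conjNormal x
  let f : V ⧸ W' → V ⧸ W' := QuotientGroup.map W' W' c.toMonoidHom fun a ha => by
    change x * a * x⁻¹ ∈ W
    rwa [conj_eq_of_mem hx (show (a : K) ∈ W from ha)]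
  have hf : ∀ (n : ℕ) (a : V), f^[n] (a : V ⧸ W') = ((MulAut.conjNormal (x ^ n) a : V) : V ⧸ W') := by
    intro n a
    induction n with
    | zero => simp
    | succ n ih => rw [Function.iterate_succ_apply', ih, pow_succ', map_mul]; rfl
  have hp : Function.IsPeriodicPt f q ((⟨v, hv⟩ : V) : V ⧸ W') := by
    rw [Function.IsPeriodicPt, Function.IsFixedPt, hf]
    congr 1
    exact Subtype.ext (conj_eq_of_mem hxq hv)
  have : Fintype (V ⧸ W') := Fintype.ofFinite _
  have h1 := Function.minimalPeriod_le_card (f := f) (x := ((⟨v, hv⟩ : V) : V ⧸ W'))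
  rw [← Nat.card_eq_fintype_card] at h1
  have h2 := (Nat.dvd_prime hq).1 hp.minimalPeriod_dvd
  have h3 := Function.minimalPeriod_eq_one_iff_isFixedPt.1 (h2.resolve_right fun e => by
    rw [e] at h1
    exact absurd (lt_of_le_of_lt h1 hc) (lt_irrefl _))
  have h4 : (c ⟨v, hv⟩)⁻¹ * ⟨v, hv⟩ ∈ W' :=
    QuotientGroup.eq.1 (show ((c ⟨v, hv⟩ : V) : V ⧸ W') = (⟨v, hv⟩ : V) from h3)
  exact h4

theorem dihedral_three {q : ℕ} (hq : q.Prime) (φ : K →* DihedralGroup q) (hφ : Function.Surjective φ)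
    (hker : φ.ker = pCore 2 K) (hc : 𝒞(pCore 2 K) ≤ pCore 2 K) (S : Sylow 2 K)
    (hJ : ¬ thompsonSubgroupOf 2 (S : Subgroup K) ≤ pCore 2 K) (hZ : ¬ (omZ 2 (S : Subgroup K)).Normal) : q = 3 := by
  have := Fact.mk hq
  have hq2 : q ≠ 2 := by
    rintro rfl
    have h1 : IsPGroup 2 (⊤ : Subgroup (DihedralGroup 2)) := IsPGroup.of_card (n := 2) (by
      rw [Subgroup.card_top, DihedralGroup.nat_card]; rfl)
    have h2 := S.3 (h1.comap_of_ker_isPGroup φ (hker ▸ pCore_isPGroup 2 K)) (fun _ _ => trivial)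
    refine hZ (Subgroup.normalizer_eq_top_iff.1 (eq_top_iff.2 (le_trans ?_ (normalizer_le_normalizer_omZ _))))
    exact fun g _ => Subgroup.le_normalizer (show g ∈ (S : Subgroup K) from h2 ▸ trivial)
  have h20 : (2 : ZMod q) ≠ 0 := fun e => hq2 ((Nat.prime_dvd_prime_iff_eq hq Nat.prime_two).1
    ((ZMod.natCast_eq_zero_iff 2 q).1 e))
  have hr : ∀ (x : K) (i : ZMod q), x * x = 1 → φ x = .r i → x ∈ pCore 2 K := fun x i h1 h2 => by
    have h3 := congrArg φ h1
    rw [map_mul, map_one, h2, DihedralGroup.r_mul_r, DihedralGroup.one_def, DihedralGroup.r.injEq, ← two_mul] at h3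
    rw [← hker, MonoidHom.mem_ker, h2, (mul_eq_zero.1 h3).resolve_left h20]
    rfl
  obtain ⟨A, hA, hAQ⟩ : ∃ A ∈ meaIn 2 (S : Subgroup K), ¬ A ≤ pCore 2 K := by
    by_contra h
    exact hJ (thompsonSubgroupOf_le_iff.2 fun A hA => by_contra fun e => h ⟨A, hA, e⟩)
  have hsr : ∀ a ∈ A, a ∉ pCore 2 K → ∃ i, φ a = .sr i := fun a ha ha' => by
    rcases e : φ a with i | i
    · exact absurd (hr a i (by rw [← pow_two]; exact ea_pow (meaIn_ea hA) ha) e) ha'
    · exact ⟨i, rfl⟩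
  obtain ⟨a, ha, ha'⟩ := SetLike.not_le_iff_exists.1 hAQ
  obtain ⟨i, hi⟩ := hsr a ha ha'
  have := sylV_normal (p := 2) (G := K)
  set V := sylV 2 K
  have hV : IsElementaryAbelian 2 V := ea_sylV hc
  have hVQ : V ≤ 𝒞(pCore 2 K) := (sylV_le_omegaOne_center_pCore hc).trans (omegaOne_center_le_centralizer _)
  have hQS : pCore 2 K ≤ S := pCore_le_sylow S
  -- the centraliser of `V`
  have hCV : ∀ (x : K) (j : ZMod q), j ≠ 0 → φ x = .r j → x ∉ 𝒞(V) := fun x j hj hx hxV => by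
    have h1 : (S : Subgroup K) ≤ 𝒞(omZ 2 (S : Subgroup K)) := Subgroup.le_centralizer_iff.1 (omZ_le_centralizer _)
    have h2 : x ∈ 𝒞(omZ 2 (S : Subgroup K)) := cent_mono (omegaOne_center_le_sylV S) hxV
    have h3 : ∀ (k : K) (m : ZMod q), φ k = .r m → k ∈ 𝒞(omZ 2 (S : Subgroup K)) := fun k m hk => by
      have : k * (x ^ (m / j).val)⁻¹ ∈ φ.ker := by
        rw [MonoidHom.mem_ker, map_mul, map_inv, map_pow, hk, hx, DihedralGroup.r_pow, mul_inv_eq_one,
          ZMod.natCast_zmod_val, mul_div_cancel₀ _ hj]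
      have := Subgroup.mul_mem _ (h1 (hQS (hker ▸ this))) (Subgroup.pow_mem _ h2 (m / j).val)
      rwa [inv_mul_cancel_right] at this
    refine hZ (Subgroup.normalizer_eq_top_iff.1 (eq_top_iff.2 fun k _ => cent_le_norm _ ?_))
    rcases e : φ k with m | m
    · exact h3 k m e
    · have := h3 (a * k) _ (by rw [map_mul, hi, e, DihedralGroup.sr_mul_sr])
      simpa using Subgroup.mul_mem _ (Subgroup.inv_mem _ (h1 (meaIn_le hA ha))) this
  -- `a` is a transvection
  have hA2 : (pCore 2 K).relIndex A = 2 := Subgroup.relIndex_eq_two_iff.2 ⟨a, ha, fun k hk => by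
    by_cases hk' : k ∈ pCore 2 K
    · exact Or.inr ⟨hk', fun e => ha' (by simpa using Subgroup.mul_mem _ (Subgroup.inv_mem _ hk') e)⟩
    · obtain ⟨m, hm⟩ := hsr k hk hk'
      exact Or.inl ⟨hr _ _ (by rw [← pow_two]; exact ea_pow (meaIn_ea hA) (A.mul_mem hk ha))
        (by rw [map_mul, hm, hi, DihedralGroup.sr_mul_sr]), hk'⟩⟩
  have c1 := card_inf_mul_relIndex (pCore 2 K) A
  have c2 := card_sup_mul_card_inf_of_normal (pCore 2 K ⊓ A) V
  have c3 := meaIn_card_le hA (sup_le (inf_le_left.trans hQS) ((sylV_le_pCore hc).trans hQS))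
    (ea_sup (ea_mono (meaIn_ea hA) (inf_le_right : pCore 2 K ⊓ A ≤ A)) hV
      (inf_le_left.trans (Subgroup.le_centralizer_iff.1 hVQ)))
  have c4 : Nat.card (pCore 2 K ⊓ A ⊓ V : Subgroup K) ≤ Nat.card (V ⊓ 𝒞(Subgroup.zpowers a) : Subgroup K) :=
    Subgroup.card_le_of_le fun y hy => ⟨hy.2, ea_le_centralizer_of_le (meaIn_ea hA) le_rfl
      (Subgroup.zpowers_le.2 ha) hy.1.2⟩
  have c5 : Nat.card V ≤ 2 * Nat.card (V ⊓ 𝒞(Subgroup.zpowers a) : Subgroup K) := by
    rw [hA2] at c1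
    have := Nat.card_pos (α := (pCore 2 K ⊓ A : Subgroup K))
    refine Nat.le_of_mul_le_mul_left ?_ this
    rw [← c2]
    calc _ ≤ _ := Nat.mul_le_mul c3 c4
      _ = _ := by rw [← c1]; ring
  obtain ⟨g, hg⟩ := hφ (.r 1)
  set C := V ⊓ 𝒞(Subgroup.zpowers a)
  have hCg : cj g C ≤ V := cj_le_of_le inf_le_left (Subgroup.le_normalizer_of_normal (Subgroup.mem_top g))
  have c6 := card_sup_mul_card_inf (H := C) (K := cj g C) (ea_le_normalizer_of_le hV inf_le_left hCg)
  have c7 := Subgroup.card_le_of_le (sup_le inf_le_left hCg : C ⊔ cj g C ≤ V)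
  have c8 := card_mul_relIndex (inf_le_left.trans inf_le_left : C ⊓ cj g C ≤ V)
  rw [card_cj] at c6
  have c9 : (C ⊓ cj g C).relIndex V ≤ 4 := by
    have h1 := Nat.card_pos (α := V)
    have h2 := Nat.card_pos (α := (C ⊓ cj g C : Subgroup K))
    refine Nat.le_of_mul_le_mul_left (Nat.le_of_mul_le_mul_left ?_ h1) h2
    rw [c8]
    nlinarith
  have hx : φ (a * (g * a * g⁻¹)) = .r (-2) := by
    rw [map_mul, map_mul, map_mul, map_inv, hi, hg, DihedralGroup.inv_r, DihedralGroup.r_mul_sr,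
      DihedralGroup.sr_mul_r, DihedralGroup.sr_mul_sr]
    congr 1; ring
  have hxC : a * (g * a * g⁻¹) ∈ 𝒞(C ⊓ cj g C) := Subgroup.mul_mem _
    (fun y hy => (hy.1.2 a (Subgroup.mem_zpowers a)).symm) fun y hy => by
      have := (mem_cj.1 hy.2).2 a (Subgroup.mem_zpowers a)
      calc y * (g * a * g⁻¹) = g * (g⁻¹ * y * g * a) * g⁻¹ := by group
        _ = _ := by rw [← this]; group
  generalize a * (g * a * g⁻¹) = x at hx hxC
  by_contra hq3
  have hq5 : 4 < q := by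
    have := hq.two_le
    by_contra h
    have : q = 4 := by omega
    exact absurd (this ▸ hq) (by decide)
  have hxq : x ^ q ∈ 𝒞(V) := Subgroup.le_centralizer_iff.1 hVQ (by
    rw [← hker, MonoidHom.mem_ker, map_pow, hx, DihedralGroup.r_pow, ZMod.natCast_self, mul_zero]; rfl)
  refine hCV (x * x) (-2 + -2) (by rw [← two_mul]; exact mul_ne_zero h20 (neg_ne_zero.2 h20))
    (by rw [map_mul, hx, DihedralGroup.r_mul_r]) fun v hv => ?_
  have h1 := conj_mul_inv_mem_of_small (fun a ha b hb => ea_mul_comm hV ha hb) hxC hq hxq (by omega) hv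
  have h2 := conj_eq_of_mem hxC h1
  have h3 := ea_pow hV h1.1.1
  generalize hw : (x * v * x⁻¹)⁻¹ * v = w at h2 h3
  have h4 : x * v * x⁻¹ = v * w⁻¹ := by rw [← hw]; group
  have h5 : x * w⁻¹ * x⁻¹ = w⁻¹ := by nth_rw 2 [← h2]; group
  symm
  calc x * x * v = x * (x * v * x⁻¹) * x := by group
    _ = x * v * x⁻¹ * (x * w⁻¹ * x⁻¹) * (x * x) := by nth_rw 1 [h4]; group
    _ = v * (w ^ 2)⁻¹ * (x * x) := by rw [h4, h5, pow_two]; group
    _ = _ := by rw [h3]; group

theorem sims_local {H : Type*} [Group H] [Finite H] [IsSimpleGroup H] (G : Subgroup H) (hG : IsCoatom G) (hchar : Subgroup.centralizer (pCore 2 ↥G : Set ↥G) ≤ pCore 2 ↥G) (S : Sylow 2 ↥G) (hN : ¬ Subgroup.normalizer (((S : Subgroup ↥G).map G.subtype : Subgroup H) : Set H) ≤ G) (q : ℕ) (hq : q.Prime) (hD : Nonempty (↥G ⧸ pCore 2 ↥G ≃* DihedralGroup q)) : Nonempty (↥G ≃* Equiv.Perm (Fin 4)) ∨ Nonempty (↥G ≃* Equiv.Perm (Fin 4) × Multiplicative (ZMod 2)) := by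
  obtain ⟨e⟩ := hD
  obtain ⟨n, hn, hnG⟩ := SetLike.not_le_iff_exists.1 hN
  obtain ⟨T, hT⟩ : ∃ T, T = (S : Subgroup G).map G.subtype := ⟨_, rfl⟩
  rw [← hT] at hn
  have hTG : T ≤ G := hT ▸ Subgroup.map_subtype_le _
  have hne : ∀ N : Subgroup H, N ≤ G → G ≤ 𝒩(N) → n ∈ 𝒩(N) → N = ⊥ := fun N h1 h2 h3 =>
    (Subgroup.normalizer_eq_top_iff.1 (hG.2 _ (lt_of_le_of_ne h2 fun e => hnG (by rwa [e])))).eq_bot_or_eq_top.resolve_right
      fun e => hG.1 (eq_top_iff.2 (by rwa [← e]))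
  have hnorm : ∀ N : Subgroup G, N.Normal → G ≤ 𝒩(N.map G.subtype) := fun N hN =>
    (Subgroup.normal_subgroupOf_iff_le_normalizer (Subgroup.map_subtype_le N)).1 (by
      rwa [Subgroup.subgroupOf, Subgroup.comap_map_eq_self_of_injective G.subtype_injective])
  have hS : (S : Subgroup G) ≠ ⊥ := S.ne_bot_of_dvd_card (by
    rw [Subgroup.card_eq_card_quotient_mul_card_subgroup (pCore 2 G), Nat.card_congr e.toEquiv,
      DihedralGroup.nat_card, mul_assoc]
    exact Dvd.intro _ rfl)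
  have hT0 : T ≠ ⊥ := fun h => hS ((Subgroup.map_eq_bot_iff_of_injective _ G.subtype_injective).1 (hT ▸ h))
  have hTp : IsPGroup 2 T := hT ▸ S.isPGroup'.map _
  have hZ : ¬ G ≤ 𝒩(omZ 2 T) := fun h =>
    omZ_ne_bot hTp hT0 (hne _ ((omZ_le T).trans hTG) h (normalizer_le_normalizer_omZ T hn))
  have hq3 : q = 3 := dihedral_three hq (e.toMonoidHom.comp (QuotientGroup.mk' _))
    (e.surjective.comp (QuotientGroup.mk'_surjective _)) (by ext x; simp) hchar S (fun h => by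
      have h1 := hnorm _ (thompsonSubgroupOf_normal (p := 2) (pCore 2 G))
      rw [thompsonSubgroupOf_eq_of_le h (pCore_le_sylow S),
        map_thompsonSubgroupOf_of_injective _ G.subtype_injective, ← hT] at h1
      exact thompsonSubgroupOf_ne_bot_of_isPGroup hTp hT0 (hne _ ((thompsonSubgroupOf_le T).trans hTG) h1
        (normalizer_le_normalizer_thompsonSubgroupOf T hn))) fun h => hZ (by
      have h1 := hnorm _ h
      rwa [map_omegaOne_center (inf_ker_eq_bot_of_injective _ G.subtype_injective), ← hT] at h1)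
  subst hq3
  have h1 := s3_facts hTG ⟨S, by
    rw [hT, Subgroup.subgroupOf, Subgroup.comap_map_eq_self_of_injective G.subtype_injective]⟩
    (by rw [Nat.card_congr e.toEquiv, DihedralGroup.nat_card])
  have hnn : n ∉ 𝒩(G) := fun h => hT0 (eq_bot_iff.2 (hTG.trans (hne G le_rfl Subgroup.le_normalizer h).le))
  have hI : G ⊓ cj n G = T := by
    have h2 : T ≤ G ⊓ cj n G := le_inf hTG ((cj_eq hn).ge.trans (cj_mono n hTG))
    have h3 := Subgroup.relIndex_mul_relIndex T _ G h2 inf_le_left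
    rw [h1.2.1] at h3
    rcases (Nat.dvd_prime Nat.prime_three).1 (Dvd.intro _ h3) with h4 | h4
    · exact le_antisymm (Subgroup.relIndex_eq_one.1 h4) h2
    · rw [h4] at h3
      have h5 := (Subgroup.relIndex_eq_one.1 (by omega : (G ⊓ cj n G).relIndex G = 1)).trans inf_le_right
      exact absurd (cj_eq_iff_mem.1 (eq_of_le_of_card_ge h5 (card_cj n G).le).symm) hnn
  have hc : G ⊓ 𝒞(pCoreOf 2 G) ≤ pCoreOf 2 G := charP_iff.1 hchar
  have h2 : Tri2 G (cj n G) := (tri_of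
    (hG.2 _ (lt_of_le_of_ne le_sup_left fun e => hnn (mem_norm_of_cj_le (le_sup_right.trans e.ge))))
    (fun N h h' => h'.eq_bot_or_eq_top.resolve_right fun e => hG.1 (eq_top_iff.2 (e.ge.trans (h.trans inf_le_left))))
    (by rw [hI]; exact h1) (by
      rw [hI]
      refine ⟨hTp, ?_, ?_⟩
      · rw [← cj_eq hn, Subgroup.relIndex_map_map_of_injective _ _ (MulAut.conj n).injective, h1.2.1]
      · rw [← cj_eq hn, ← cj_norm, cj_le_cj]
        exact h1.2.2)).tri2 hc (charP_conj n hc)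
  refine (h2.s4 (fun h => hZ ?_) fun h => hZ ?_).imp And.left
    fun h => ⟨h.1.some.trans MulEquiv.prodComm⟩
  · rw [hI] at h
    exact h.trans (cent_le_norm _)
  rw [hI, ← cj_eq (normalizer_le_normalizer_omZ (p := 2) T hn), ← cj_cent, cj_le_cj] at h
  exact h.trans (cent_le_norm _)

end CL.Am
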