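/-
Involution centralizers of symplectic type that are not extraspecial: definitions and basic facts.
-/
import Cfsg.Agent.Even.XS2
import Cfsg.Agent.Transfer.Basic

set_option autoImplicit false

namespace CL.Styp

open Cfsg Subgroup CL.Grp CL.Even
open scoped commutatorElement

universe u

variable {G : Type u} [Group G]

/-- A class `D` of involutions with square roots `ρ t`, canonical up to inversion. -/
structure Ro (D : Set G) (ρ : G → G) : Prop where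
  cjm : ∀ t ∈ D, ∀ g, g * t * g⁻¹ ∈ D
  tr : ∀ s ∈ D, ∀ t ∈ D, ∃ g, g * s * g⁻¹ = t
  ne : ∀ t ∈ D, t ≠ 1
  sq : ∀ t ∈ D, t * t = 1
  rr : ∀ t ∈ D, ρ t * ρ t = t
  eqv : ∀ t ∈ D, ∀ g, g * ρ t * g⁻¹ = ρ (g * t * g⁻¹) ∨ g * ρ t * g⁻¹ = (ρ (g * t * g⁻¹))⁻¹

/-- The roots have square roots, canonical up to generators of the cyclic group of order eight. -/
def Big (D : Set G) (ρ : G → G) : Prop :=
  ∀ t ∈ D, ∃ u, u * u = ρ t ∧ ∀ c, Commute c t →
    c * u * c⁻¹ = u ∨ c * u * c⁻¹ = u * t ∨ c * u * c⁻¹ = u⁻¹ ∨ c * u * c⁻¹ = u⁻¹ * t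

/-- The local structure of `C(z)`: `Q = O₂(C(z))`, `P = E * ⟨w⟩`. -/
structure GP (z w : G) (P Q : Subgroup G) : Prop where
  ne : z ≠ 1
  zz : z * z = 1
  ww : w * w = z
  wP : w ∈ P
  PQ : P ≤ Q
  Qz : ∀ x ∈ Q, Commute x z
  nP : ∀ c, Commute c z → ∀ x ∈ P, c * x * c⁻¹ ∈ P
  nQ : ∀ c, Commute c z → ∀ x ∈ Q, c * x * c⁻¹ ∈ Q
  nw : ∀ c, Commute c z → Commute c w ∨ c * w * c⁻¹ = w⁻¹
  cw : ∀ x ∈ P, Commute x w
  sq : ∀ x ∈ P, x * x = 1 ∨ x * x = z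
  cm : ∀ y ∈ Q, ∀ x ∈ P, Commute y x ∨ y * x * y⁻¹ = x * z
  cen : ∀ x ∈ P, (∀ y ∈ P, Commute x y) → x ∈ zpowers w
  stab : ∀ c, Commute c z → (∀ x ∈ P, c * x * c⁻¹ * x⁻¹ ∈ zpowers w) → c ∈ Q
  inv : ∀ x ∈ Q, x * x = 1 → Commute x w → x ∈ P
  sqQ : ∀ x ∈ Q, x * x * (x * x) = 1 → x * x = 1 ∨ x * x = z
  two : IsPGroup 2 Q

/-- The main setting `Q t = E * ⟨ρ t⟩`. -/
structure Sy (D : Set G) (ρ : G → G) (Q : G → Subgroup G) : Prop extends Ro D ρ where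
  gp : ∀ t ∈ D, GP t (ρ t) (Q t) (Q t)
  qe : ∀ t ∈ D, ∀ g, ∀ x ∈ Q t, g * x * g⁻¹ ∈ Q (g * t * g⁻¹)
  nrm : ∀ t ∈ D, ∀ K : Subgroup G, (∀ k ∈ K, Commute k t) →
    (∀ c, Commute c t → ∀ k ∈ K, c * k * c⁻¹ ∈ K) → IsPGroup 2 K → K ≤ Q t

/-- The symplectic space `P / ⟨w⟩` with the action of `C(z)`. -/
structure Md (z w : G) (P : Subgroup G) (V : Type u) [AddCommGroup V] [Module (ZMod 2) V] where
  π : G → V
  B : LinearMap.BilinForm (ZMod 2) V
  A : G → V →ₗ[ZMod 2] V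
  π_mul : ∀ x ∈ P, ∀ y ∈ P, π (x * y) = π x + π y
  surj : ∀ v, ∃ x ∈ P, π x = v
  π_zero : ∀ x ∈ P, π x = 0 ↔ x ∈ zpowers w
  B_zero : ∀ x ∈ P, ∀ y ∈ P, B (π x) (π y) = 0 ↔ Commute x y
  A_π : ∀ c, Commute c z → ∀ x ∈ P, A c (π x) = π (c * x * c⁻¹)

/-- A member of `D` centralizing the root of `z` lies in `Q z`. -/
def No2 (D : Set G) (ρ : G → G) (Q : G → Subgroup G) : Prop :=
  ∀ z ∈ D, ∀ t ∈ D, Commute t (ρ z) → t ∈ Q z

/-- Every `Q z` contains two members of `D` which do not commute. -/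
def NonAb (D : Set G) (Q : G → Subgroup G) : Prop :=
  ∀ z ∈ D, ∃ s ∈ D, ∃ t ∈ D, s ∈ Q z ∧ t ∈ Q z ∧ ¬ Commute s t

/-- The case `|Q z| = 16`. -/
def Narrow (D : Set G) (ρ : G → G) (Q : G → Subgroup G) : Prop :=
  ∃ z ∈ D, ∃ t ∈ D, ∃ y ∈ D, t ∈ Q z ∧ y ∈ Q z ∧ ¬ Commute y t ∧
    ∀ x ∈ Q z, Commute x t → x ∈ zpowers (ρ z) ∨ x * t ∈ zpowers (ρ z)

/-- The geometry at a point `t ∈ D ∩ Q z` in the case `|Q z| = 64`. -/
structure Pt (D : Set G) (ρ : G → G) (Q : G → Subgroup G) {z : G} {V : Type u} [AddCommGroup V]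
    [Module (ZMod 2) V] (m : Md z (ρ z) (Q z) V) (t h : G) : Prop where
  hz : h ∈ Q z
  ht : h ∈ Q t
  h0 : m.π h ≠ 0
  hne : m.π h ≠ m.π t
  perp : ∀ x, m.B x (m.π t) = 0 → m.B x (m.π h) = 0 →
    x = 0 ∨ x = m.π t ∨ x = m.π h ∨ x = m.π h + m.π t
  mem : ∀ x ∈ Q z, x * x = 1 → m.B (m.π x) (m.π t) = 0 → m.B (m.π x) (m.π h) = 0 → x ∈ Q t
  om : ∀ x, m.A (ρ t) x = x + m.B x (m.π h) • m.π t + m.B x (m.π t) • (m.π h + m.π t)
  par : ∃ y ∈ D, y ∈ Q z ∧ m.B (m.π y) (m.π t) = 1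

/-- The case `|Q z| = 64`. -/
def Wide (D : Set G) (ρ : G → G) (Q : G → Subgroup G) : Prop :=
  ∀ z ∈ D, (∃ t ∈ D, t ∈ Q z ∧ t ≠ z) ∧ ∀ (V : Type u) [AddCommGroup V] [Module (ZMod 2) V] [Finite V]
    (m : Md z (ρ z) (Q z) V), ∀ t ∈ D, t ∈ Q z → t ≠ z → ∃ h, Pt D ρ Q m t h

/-- Case B: there are no planes. -/
def NoPl (D : Set G) (Q : G → Subgroup G) : Prop :=
  ∀ z ∈ D, ∀ t ∈ D, t ∈ Q z → t ≠ z → ∀ x ∈ D, x ∈ Q z → x ∈ Q t → x = z ∨ x = t ∨ x = t * z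

/-- Case A: all involutions of `Q z` lie in `D`. -/
def AllD (D : Set G) (Q : G → Subgroup G) : Prop :=
  ∀ z ∈ D, ∀ x ∈ Q z, x * x = 1 → x = 1 ∨ x ∈ D

/-- Case A: the action of `C(z)` on the five planes through `z`. -/
structure Sp (D : Set G) (Q : G → Subgroup G) (z : G)
    (π : centralizer ({z} : Set G) →* Equiv.Perm (Fin 5)) (l : G → Fin 5) : Prop where
  surj : Function.Surjective π
  ker : ∀ g, π g = 1 ↔ g.1 ∈ Q z
  eq : ∀ s ∈ D, s ∈ Q z → s ≠ z → ∀ t ∈ D, t ∈ Q z → t ≠ z → (l s = l t ↔ s ∈ Q t)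
  act : ∀ g, ∀ t ∈ D, t ∈ Q z → t ≠ z → π g (l t) = l (g.1 * t * g.1⁻¹)
  all : ∀ i, ∃ t ∈ D, t ∈ Q z ∧ t ≠ z ∧ l t = i

/-- The subgroup generated by the members of `D` in `Q z`. -/
def EE (D : Set G) (Q : G → Subgroup G) (z : G) : Subgroup G := closure (D ∩ Q z)

/-- The stabiliser in `C(z)` of the pair `{t, t z}`. -/
def St (z t : G) : Subgroup G where
  carrier := {g | Commute g z ∧ (Commute g t ∨ g * t * g⁻¹ = t * z ∧ g * (t * z) * g⁻¹ = t)}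
  one_mem' := ⟨Commute.one_left _, Or.inl (Commute.one_left _)⟩
  mul_mem' := by
    rintro a b ⟨ha, ha'⟩ ⟨hb, hb'⟩
    have e : ∀ x, a * b * x * (a * b)⁻¹ = a * (b * x * b⁻¹) * a⁻¹ := fun x => by group
    refine ⟨ha.mul_left hb, ?_⟩
    rcases ha' with ha' | ⟨h1, h2⟩ <;> rcases hb' with hb' | ⟨h3, h4⟩
    · exact Or.inl (ha'.mul_left hb')
    · exact Or.inr ⟨by rw [e, h3, (ha'.mul_right ha).mul_inv_cancel], by rw [e, h4, ha'.mul_inv_cancel]⟩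
    · exact Or.inr ⟨by rw [e, hb'.mul_inv_cancel, h1], by rw [e, (hb'.mul_right hb).mul_inv_cancel, h2]⟩
    · exact Or.inl (mul_inv_eq_iff_eq_mul.1 (by rw [e, h3, h2]))
  inv_mem' := by
    rintro a ⟨ha, ha'⟩
    refine ⟨ha.inv_left, ha'.imp (·.inv_left) fun ⟨h1, h2⟩ => ⟨?_, ?_⟩⟩
    · conv_lhs => rw [← h2]
      group
    · rw [← h1]; group

/-- Case B: the facts about `Q z` used by the transfer argument. -/
structure CB (D : Set G) (ρ : G → G) (Q : G → Subgroup G) (z t : G) : Prop where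
  nw : ρ z ∉ EE D Q z
  cov : ∀ x ∈ Q z, x ∈ EE D Q z ∨ x * ρ z ∈ EE D Q z
  inf : ∀ x ∈ EE D Q z, x ∈ Q t → x = 1 ∨ x = z ∨ x = t ∨ x = t * z
  idx : ∃ g₀ ∈ St z t, ∀ g ∈ St z t, ∃ b ∈ Q t, Commute b z ∧ (g * b ∈ Q z ∨ g₀ * g * b ∈ Q z)

/-! ### Elementary facts -/

theorem cj_mul (g x y : G) : g * (x * y) * g⁻¹ = g * x * g⁻¹ * (g * y * g⁻¹) := by group

theorem cj_inv (g x : G) : g * x⁻¹ * g⁻¹ = (g * x * g⁻¹)⁻¹ := by group

theorem comm_of_cj {g x : G} (h : g * x * g⁻¹ = x) : Commute g x := mul_inv_eq_iff_eq_mul.1 h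

theorem comm_cj (g : G) {x y : G} (h : Commute x y) : Commute (g * x * g⁻¹) (g * y * g⁻¹) := by
  rw [Commute, SemiconjBy, ← cj_mul, ← cj_mul, h.eq]

theorem inv_of_sq {x : G} (h : x * x = 1) : x⁻¹ = x := inv_eq_of_mul_eq_one_right h

theorem mem_zp4 {z w x : G} (hz : z * z = 1) (hw : w * w = z) :
    x ∈ zpowers w ↔ x = 1 ∨ x = z ∨ x = w ∨ x = w⁻¹ := by
  have h4 : w ^ (4 : ℤ) = 1 := by
    rw [show (4 : ℤ) = 1 + 1 + (1 + 1) by norm_num, zpow_add, zpow_add, zpow_one, hw, hz]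
  constructor
  · rintro ⟨k, rfl⟩
    have e : w ^ k = w ^ (k % 4) := by
      conv_lhs => rw [← Int.emod_add_mul_ediv k 4, zpow_add, zpow_mul, h4, one_zpow, mul_one]
    have : k % 4 = 0 ∨ k % 4 = 1 ∨ k % 4 = 1 + 1 ∨ k % 4 = -1 + 4 := by omega
    simp only
    rcases this with h | h | h | h <;> rw [e, h]
    · simp
    · simp
    · rw [zpow_add, zpow_one, hw]; simp
    · rw [zpow_add, h4]; simp
  · rintro (rfl | rfl | rfl | rfl)
    exacts [one_mem _, hw ▸ mul_mem (mem_zpowers _) (mem_zpowers _), mem_zpowers _,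
      inv_mem (mem_zpowers _)]

theorem mem_St {z t g : G} (hz : z * z = 1) :
    g ∈ St z t ↔ Commute g z ∧ (Commute g t ∨ g * t * g⁻¹ = t * z) :=
  and_congr_right fun h => or_congr_right ⟨And.left, fun e =>
    ⟨e, by rw [cj_mul, e, h.mul_inv_cancel, mul_assoc, hz, mul_one]⟩⟩

theorem perf [IsSimpleGroup G] (hG : ¬ IsMulCommutative G) : commutator G = ⊤ :=
  (Subgroup.Normal.eq_bot_or_eq_top inferInstance).resolve_left fun h => hG ⟨⟨fun a b =>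
    commutatorElement_eq_one_iff_mul_comm.1 (mem_bot.1 (h ▸ commutator_mem_commutator (mem_top a) (mem_top b)))⟩⟩

namespace Ro

variable {D : Set G} {ρ : G → G} (h : Ro D ρ) {s t c : G}
include h

theorem inv (ht : t ∈ D) : t⁻¹ = t := inv_of_sq (h.sq t ht)

theorem cjm' (ht : t ∈ D) (g : G) : g⁻¹ * t * g ∈ D := by simpa using h.cjm t ht g⁻¹

theorem rt (ht : t ∈ D) : Commute (ρ t) t := by
  conv_rhs => rw [← h.rr t ht]
  exact (Commute.refl _).mul_right (Commute.refl _)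

theorem rinv (ht : t ∈ D) : (ρ t)⁻¹ = ρ t * t :=
  inv_eq_of_mul_eq_one_right (by rw [← mul_assoc, h.rr t ht, h.sq t ht])

theorem rinv_ne (ht : t ∈ D) : (ρ t)⁻¹ ≠ ρ t := fun e => h.ne t ht (by
  rw [h.rinv ht] at e; exact mul_eq_left.1 e)

theorem mem_zp (ht : t ∈ D) {x : G} : x ∈ zpowers (ρ t) ↔ x = 1 ∨ x = t ∨ x = ρ t ∨ x = (ρ t)⁻¹ :=
  mem_zp4 (h.sq t ht) (h.rr t ht)

/-- An element centralizing `t` centralizes or inverts the root. -/
theorem nr (ht : t ∈ D) (hc : Commute c t) : Commute c (ρ t) ∨ c * ρ t * c⁻¹ = (ρ t)⁻¹ := by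
  have := h.eqv t ht c
  rw [hc.mul_inv_cancel] at this
  exact this.imp_left comm_of_cj

theorem comm_of_root (ht : t ∈ D) (hc : Commute c (ρ t)) : Commute c t :=
  h.rr t ht ▸ hc.mul_right hc

theorem not_comm_of_inv (ht : t ∈ D) (hc : c * ρ t * c⁻¹ = (ρ t)⁻¹) : ¬ Commute c (ρ t) := fun e =>
  h.rinv_ne ht (by rw [← hc, e.mul_inv_cancel])

/-- The product of two elements inverting the root centralizes it. -/
theorem comm_mul (ht : t ∈ D) {a b : G} (ha : Commute a t) (hb : Commute b t) (ha' : ¬ Commute a (ρ t))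
    (hb' : ¬ Commute b (ρ t)) : Commute (a * b) (ρ t) := comm_of_cj (by
  rw [show a * b * ρ t * (a * b)⁻¹ = a * (b * ρ t * b⁻¹) * a⁻¹ by group, (h.nr ht hb).resolve_left hb',
    cj_inv, (h.nr ht ha).resolve_left ha', inv_inv])

theorem comm_sq (ht : t ∈ D) (hc : Commute c t) : Commute (c * c) (ρ t) := by
  by_cases e : Commute c (ρ t)
  exacts [e.mul_left e, h.comm_mul ht hc hc e e]

/-- Symmetry of the relation `s` centralizes the root of `t`. -/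
theorem c0 (hs : s ∈ D) (ht : t ∈ D) (e : Commute s (ρ t)) : Commute t (ρ s) :=
  h.rr t ht ▸ h.comm_sq hs e.symm

theorem c0' (hs : s ∈ D) (ht : t ∈ D) (e : Commute s (ρ t)) : Commute (ρ s) (ρ t) := by
  rcases h.nr ht (h.c0 hs ht e).symm with e1 | e1
  · exact e1
  rcases h.nr hs e.symm with e2 | e2
  · exact e2.symm
  have e3 : s = t := by
    have a : ρ s * ρ t = ρ t * ρ s * t := by
      rw [mul_inv_eq_iff_eq_mul.1 e1, h.rinv ht, mul_assoc, mul_assoc, (h.c0 hs ht e).eq]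
    have b : ρ t * ρ s = ρ s * ρ t * s := by
      rw [mul_inv_eq_iff_eq_mul.1 e2, h.rinv hs, mul_assoc, mul_assoc, e.eq]
    rw [b, mul_assoc, left_eq_mul] at a
    rw [← h.inv ht, eq_inv_iff_mul_eq_one, a]
  exact e3 ▸ Commute.refl _

/-- An element centralizing a conjugate of a root centralizes the root of the conjugate. -/
theorem comm_root (ht : t ∈ D) (g : G) : Commute c (g * ρ t * g⁻¹) ↔ Commute c (ρ (g * t * g⁻¹)) := by
  rcases h.eqv t ht g with e | e <;> rw [e]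
  exact Commute.inv_right_iff

end Ro

namespace GP

variable {z w : G} {P Q : Subgroup G} (h : GP z w P Q) {x y c : G}
include h

theorem zinv : z⁻¹ = z := inv_of_sq h.zz

theorem zP : z ∈ P := h.ww ▸ mul_mem h.wP h.wP

theorem zQ : z ∈ Q := h.PQ h.zP

theorem wz : Commute w z := h.Qz w (h.PQ h.wP)

theorem winv : w⁻¹ = w * z := inv_eq_of_mul_eq_one_right (by rw [← mul_assoc, h.ww, h.zz])

theorem mem_zp : x ∈ zpowers w ↔ x = 1 ∨ x = z ∨ x = w ∨ x = w⁻¹ := mem_zp4 h.zz h.ww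

theorem z_zp : z ∈ zpowers w := h.mem_zp.2 (Or.inr (Or.inl rfl))

theorem zp_le : zpowers w ≤ P := zpowers_le.2 h.wP

theorem eq_of_sq (hx : x ∈ zpowers w) (h2 : x * x = 1) : x = 1 ∨ x = z := by
  rcases h.mem_zp.1 hx with e | e | e | e
  · exact Or.inl e
  · exact Or.inr e
  · exact absurd (by rw [← h.ww, ← e, h2]) h.ne
  · exact absurd (by rw [← h.ww, ← inv_inv w, ← e, ← mul_inv_rev, h2, inv_one]) h.ne

theorem cj_of_not_comm (hy : y ∈ Q) (hx : x ∈ P) (hn : ¬ Commute y x) : y * x * y⁻¹ = x * z :=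
  (h.cm y hy x hx).resolve_left hn

theorem not_comm_of_cj (e : y * x * y⁻¹ = x * z) : ¬ Commute y x := fun e' =>
  h.ne (by rw [e'.mul_inv_cancel] at e; exact left_eq_mul.1 e)

/-- A non-central element of `P` is conjugate to its product with `z`. -/
theorem exists_cj (hx : x ∈ P) (hn : x ∉ zpowers w) : ∃ y ∈ P, y * x * y⁻¹ = x * z := by
  by_contra hc
  push Not at hc
  exact hn (h.cen x hx fun y hy => ((h.cm y (h.PQ hy) x hx).resolve_right (hc y hy)).symm)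

theorem not_zp (h2 : x * x = 1) (h1 : x ≠ 1) (hz : x ≠ z) : x ∉ zpowers w := fun e =>
  (h.eq_of_sq e h2).elim h1 hz

/-- Every coset of `⟨w⟩` in `P` contains an element of order at most two. -/
theorem sq_or (hx : x ∈ P) : x * x = 1 ∨ x * w * (x * w) = 1 :=
  (h.sq x hx).imp_right fun e => by rw [← (h.cw x hx).mul_mul_mul_comm, e, h.ww, h.zz]

/-- A square root of an involution other than `z` is not in `Q`. -/
theorem root_not_mem {v t : G} (hv : v * v = t) (h2 : t * t = 1) (h1 : t ≠ 1) (hz : t ≠ z) : v ∉ Q :=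
  fun e => (h.sqQ v e (by rw [hv, h2])).elim (fun e => h1 (hv ▸ e)) fun e => hz (hv ▸ e)

theorem comm_mem (hc : Commute c z) (hx : x ∈ P) : c * x * c⁻¹ * x⁻¹ ∈ P := mul_mem (h.nP c hc x hx) (inv_mem hx)

theorem comm_memQ (hc : Commute c z) (hx : x ∈ Q) : c * x * c⁻¹ * x⁻¹ ∈ Q := mul_mem (h.nQ c hc x hx) (inv_mem hx)

/-- An involution centralizing `Q` equals `z`. -/
theorem eq_z (h2 : x * x = 1) (h1 : x ≠ 1) (hc : ∀ y ∈ Q, Commute x y) : x = z := by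
  have hQ : x ∈ Q := h.stab x (hc z h.zQ) fun y hy => by
    rw [(hc y (h.PQ hy)).mul_inv_cancel, mul_inv_cancel]; exact one_mem _
  exact (h.eq_of_sq (h.cen x (h.inv x hQ h2 (hc w (h.PQ h.wP))) fun y hy => hc y (h.PQ hy)) h2).resolve_left h1

/-- A conjugate of `Q` inside `C(z)` is conjugate by an element of `C(z)`. -/
theorem comm_of_conj {g : G} (hg : ∀ y ∈ Q, Commute (g⁻¹ * y * g) z) : Commute g z :=
  comm_of_cj (h.eq_z (by rw [← cj_mul, h.zz]; simp) (by simpa using h.ne) fun y hy => by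
    simpa [mul_assoc] using (comm_cj g (hg y hy)).symm)

omit h in
theorem xs (h : GP z w Q Q) : XS z Q where
  ord := orderOf_eq_prime (by rw [pow_two, h.zz]) h.ne
  mem := h.zQ
  le := fun x hx => mem_cent_singleton.2 (h.Qz x hx)
  norm := fun c hc => mem_normalizer_iff.2 fun x => ⟨h.nQ c (mem_cent_singleton.1 hc) x, fun hx => by
    simpa [mul_assoc] using h.nQ c⁻¹ (Commute.inv_left (mem_cent_singleton.1 hc)) _ hx⟩
  sq := fun x hx => by
    rw [pow_two]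
    rcases h.sq x hx with e | e <;> rw [e]
    exacts [one_mem _, mem_zpowers _]
  cent := fun x hx hc h2 => by
    rcases h.eq_of_sq (h.cen x hx fun y hy => (hc y hy).symm) (by rw [← pow_two, h2]) with e | e <;> rw [e]
    exacts [one_mem _, mem_zpowers _]
  stab := fun c hc h1 => h.stab c (mem_cent_singleton.1 hc) fun x hx => zpowers_le.2 h.z_zp (h1 x hx)

end GP

end CL.Styp
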