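/-
Involution centralizers of symplectic type that are not extraspecial: the linear model, transfer, and
the geometry of a line of involutions.
-/
import Cfsg.Agent.Even.Styp0

set_option autoImplicit false

namespace CL.Styp

open Cfsg Subgroup CL.Grp CL.Even
open scoped commutatorElement

universe u

variable {G : Type u} [Group G]

theorem lift_lin {V W : Type*} [AddCommGroup V] [Module (ZMod 2) V] [AddCommGroup W] [Module (ZMod 2) W]
    {P X : Subgroup G} {π : G → V} (hm : ∀ x ∈ P, ∀ y ∈ P, π (x * y) = π x + π y)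
    (hs : ∀ v, ∃ x ∈ P, π x = v) (h0 : ∀ x ∈ P, π x = 0 → x ∈ X) (f : G → W)
    (fm : ∀ x ∈ P, ∀ y ∈ P, f (x * y) = f x + f y) (f0 : ∀ x ∈ P, x ∈ X → f x = 0) :
    ∃ F : V →ₗ[ZMod 2] W, ∀ x ∈ P, F (π x) = f x := by
  choose s hP hπ using hs
  have key : ∀ x ∈ P, f (s (π x)) = f x := fun x hx => eq_of_add_eq_zero_zmod2 (by
    rw [← fm _ (hP _) x hx]
    exact f0 _ (mul_mem (hP _) hx) (h0 _ (mul_mem (hP _) hx) (by rw [hm _ (hP _) x hx, hπ, add_self_zmod2])))
  exact ⟨(AddMonoidHom.mk' (fun v => f (s v)) fun a b => by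
    rw [← fm _ (hP a) _ (hP b), ← key _ (mul_mem (hP a) (hP b)), hm _ (hP a) _ (hP b), hπ, hπ]).toZModLinearMap 2,
    key⟩

theorem GP.exists_md [Finite G] {z w : G} {P Q : Subgroup G} (h : GP z w P Q) :
    ∃ (V : Type u) (_ : AddCommGroup V) (_ : Module (ZMod 2) V) (_ : Finite V), Nonempty (Md z w P V) := by
  classical
  have hX : ∀ x ∈ zpowers w, ∀ y ∈ P, Commute y x := by
    rintro _ ⟨k, rfl⟩ y hy
    exact (h.cw y hy).zpow_right k
  let X := (zpowers w).subgroupOf P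
  haveI : X.Normal := ⟨fun n hn g => by
    have : (g : G) * n * (g : G)⁻¹ = n := (hX _ hn _ g.2).mul_inv_cancel
    simpa [X, mem_subgroupOf, this] using hn⟩
  letI : CommGroup (P ⧸ X) := { (inferInstance : Group (P ⧸ X)) with
    mul_comm := fun a b => by
      obtain ⟨a, rfl⟩ := QuotientGroup.mk_surjective a
      obtain ⟨b, rfl⟩ := QuotientGroup.mk_surjective b
      rw [← QuotientGroup.mk_mul, ← QuotientGroup.mk_mul, QuotientGroup.eq]
      change ((a : G) * b)⁻¹ * (b * a) ∈ zpowers w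
      rcases h.cm b (h.PQ b.2) a a.2 with e | e
      · rw [e.eq, inv_mul_cancel]; exact one_mem _
      · rw [mul_inv_eq_iff_eq_mul.1 e, mul_assoc, ← (h.Qz b (h.PQ b.2)).eq, ← mul_assoc (a : G),
          inv_mul_cancel_left]
        exact h.z_zp }
  letI : Module (ZMod 2) (Additive (P ⧸ X)) := AddCommGroup.zmodModule (n := 2) fun x => by
    obtain ⟨a, ha⟩ := QuotientGroup.mk_surjective x.toMul
    rw [two_nsmul, ← ofMul_toMul x, ← ha, ← ofMul_mul, ← QuotientGroup.mk_mul, ofMul_eq_zero,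
      QuotientGroup.eq_one_iff]
    change (a : G) * a ∈ zpowers w
    rcases h.sq a a.2 with e | e <;> rw [e]
    exacts [one_mem _, h.z_zp]
  let π : G → Additive (P ⧸ X) := fun x => if hx : x ∈ P then Additive.ofMul (QuotientGroup.mk ⟨x, hx⟩) else 0
  have hm : ∀ x ∈ P, ∀ y ∈ P, π (x * y) = π x + π y := fun x hx y hy => by
    simp only [π, dif_pos hx, dif_pos hy, dif_pos (mul_mem hx hy)]; rfl
  have hs : ∀ v, ∃ x ∈ P, π x = v := fun v => by
    obtain ⟨a, ha⟩ := QuotientGroup.mk_surjective v.toMul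
    exact ⟨a, a.2, by simp only [π, dif_pos a.2]; rw [← ofMul_toMul v, ← ha]⟩
  have h0 : ∀ x ∈ P, π x = 0 ↔ x ∈ zpowers w := fun x hx => by
    simp only [π, dif_pos hx]; rw [ofMul_eq_zero, QuotientGroup.eq_one_iff]; rfl
  let b : G → G → ZMod 2 := fun x y => if Commute x y then 0 else 1
  have bs : ∀ x y, b x y = b y x := fun x y => by simp only [b, Commute.symm_iff (a := x)]
  have bm : ∀ x ∈ P, ∀ y ∈ P, ∀ y' ∈ P, b x (y * y') = b x y + b x y' := fun x hx y hy y' hy' => by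
    by_cases e : Commute x y <;> by_cases e' : Commute x y'
    · simp [b, e, e', e.mul_right e']
    · have : ¬ Commute x (y * y') := fun k => e' (by simpa using e.inv_right.mul_right k)
      simp [b, e, e', this]
    · have : ¬ Commute x (y * y') := fun k => e (by simpa using k.mul_right e'.inv_right)
      simp [b, e, e', this]
    · have : Commute x (y * y') := comm_of_cj (by
        rw [cj_mul, h.cj_of_not_comm (h.PQ hx) hy e, h.cj_of_not_comm (h.PQ hx) hy' e', mul_assoc,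
          ← mul_assoc z, ← (h.Qz y' (h.PQ hy')).eq, mul_assoc, h.zz, mul_one])
      simp only [b, e, e', this, if_true, if_false]; rfl
  have h1 : ∀ x, ∃ F : Additive (P ⧸ X) →ₗ[ZMod 2] ZMod 2, x ∈ P → ∀ y ∈ P, F (π y) = b x y := fun x => by
    by_cases hx : x ∈ P
    · obtain ⟨F, hF⟩ := lift_lin hm hs (fun x hx => (h0 x hx).1) (b x) (bm x hx) fun y _ hy => if_pos (hX y hy x hx)
      exact ⟨F, fun _ => hF⟩
    · exact ⟨0, fun e => absurd e hx⟩
  choose F hF using h1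
  obtain ⟨B, hB⟩ := lift_lin hm hs (fun x hx => (h0 x hx).1) F (fun x hx y hy => LinearMap.ext fun v => by
      obtain ⟨a, ha, rfl⟩ := hs v
      rw [LinearMap.add_apply, hF _ (mul_mem hx hy) a ha, hF x hx a ha, hF y hy a ha, bs, bm a ha x hx y hy,
        bs a, bs a])
    fun x hx hx' => LinearMap.ext fun v => by
      obtain ⟨a, ha, rfl⟩ := hs v
      rw [hF x hx a ha]; exact if_pos (hX x hx' a ha).symm
  have h2 : ∀ c, ∃ F : Additive (P ⧸ X) →ₗ[ZMod 2] Additive (P ⧸ X), Commute c z →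
      ∀ y ∈ P, F (π y) = π (c * y * c⁻¹) := fun c => by
    by_cases hc : Commute c z
    · obtain ⟨F, hF⟩ := lift_lin hm hs (fun x hx => (h0 x hx).1) (fun y => π (c * y * c⁻¹))
        (fun x hx y hy => by rw [cj_mul, hm _ (h.nP c hc x hx) _ (h.nP c hc y hy)]) fun y hy hy' =>
          (h0 _ (h.nP c hc y hy)).2 (by
            obtain ⟨k, rfl⟩ := hy'
            rw [← conj_zpow]
            rcases h.nw c hc with e | e
            · rw [e.mul_inv_cancel]; exact zpow_mem (mem_zpowers _) _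
            · rw [e]; exact zpow_mem (inv_mem (mem_zpowers _)) _)
      exact ⟨F, fun _ => hF⟩
    · exact ⟨0, fun e => absurd e hc⟩
  choose A hA using h2
  exact ⟨_, _, _, inferInstance, ⟨⟨π, B, A, hm, hs, h0, fun x hx y hy => by
    rw [hB x hx, hF x hx y hy]; simp [b], hA⟩⟩⟩

namespace Md

variable {z w : G} {P Q : Subgroup G} {V : Type u} [AddCommGroup V] [Module (ZMod 2) V]
  (m : Md z w P V) {x y c c' : G}

theorem π_one : m.π 1 = 0 := (m.π_zero 1 (one_mem _)).2 (one_mem _)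

theorem π_inv (hx : x ∈ P) : m.π x⁻¹ = m.π x := eq_of_add_eq_zero_zmod2 (by
  rw [← m.π_mul _ (inv_mem hx) x hx, inv_mul_cancel, m.π_one])

theorem π_eq (hx : x ∈ P) (hy : y ∈ P) : m.π x = m.π y ↔ x * y⁻¹ ∈ zpowers w := by
  rw [← m.π_zero _ (mul_mem hx (inv_mem hy)), m.π_mul _ hx _ (inv_mem hy), m.π_inv hy]
  exact ⟨fun e => by rw [e, add_self_zmod2], eq_of_add_eq_zero_zmod2⟩

theorem alt (v : V) : m.B v v = 0 := by
  obtain ⟨x, hx, rfl⟩ := m.surj v
  exact (m.B_zero x hx x hx).2 (Commute.refl _)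

theorem symm (v v' : V) : m.B v v' = m.B v' v := by
  have := m.alt (v + v')
  simp only [map_add, LinearMap.add_apply, m.alt, zero_add, add_zero] at this
  exact (eq_of_add_eq_zero_zmod2 this).symm

theorem B_one (hx : x ∈ P) (hy : y ∈ P) : m.B (m.π x) (m.π y) = 1 ↔ ¬ Commute x y := by
  rw [← m.B_zero x hx y hy]
  exact ⟨fun e => by rw [e]; exact one_ne_zero, zmod2_eq_one_of_ne_zero⟩

theorem A_one (v : V) : m.A 1 v = v := by
  obtain ⟨x, hx, rfl⟩ := m.surj v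
  rw [m.A_π 1 (Commute.one_left _) x hx]; simp

theorem A_fix (hc : Commute c z) (hx : x ∈ P) (e : Commute c x) : m.A c (m.π x) = m.π x := by
  rw [m.A_π c hc x hx, e.mul_inv_cancel]

variable (h : GP z w P Q)
include h

theorem π_w : m.π w = 0 := (m.π_zero w h.wP).2 (mem_zpowers _)

theorem π_z : m.π z = 0 := (m.π_zero z h.zP).2 h.z_zp

theorem π_mul_z (hx : x ∈ P) : m.π (x * z) = m.π x := by rw [m.π_mul x hx z h.zP, m.π_z h, add_zero]

theorem π_mul_w (hx : x ∈ P) : m.π (x * w) = m.π x := by rw [m.π_mul x hx w h.wP, m.π_w h, add_zero]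

theorem nondeg {v : V} (hv : ∀ v', m.B v v' = 0) : v = 0 := by
  obtain ⟨x, hx, rfl⟩ := m.surj v
  exact (m.π_zero x hx).2 (h.cen x hx fun y hy => (m.B_zero x hx y hy).1 (hv _))

theorem exists_B_one {v : V} (hv : v ≠ 0) : ∃ v', m.B v v' = 1 := by
  by_contra hc
  exact hv (m.nondeg h fun v' => (zmod2_cases _).resolve_right fun e => hc ⟨v', e⟩)

/-- A vector perpendicular to the perp of `t` is `0` or `t`. -/
theorem eq_of_perp {t v : V} (hv : ∀ y, m.B t y = 0 → m.B v y = 0) : v = 0 ∨ v = t :=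
  (forall_B_eq_zero_or hv).imp (m.nondeg h) fun e => eq_of_add_eq_zero_zmod2 (m.nondeg h e)

theorem A_mul (hc : Commute c z) (hc' : Commute c' z) (v : V) : m.A (c * c') v = m.A c (m.A c' v) := by
  obtain ⟨x, hx, rfl⟩ := m.surj v
  rw [m.A_π _ (hc.mul_left hc') x hx, m.A_π _ hc' x hx, m.A_π _ hc _ (h.nP _ hc' x hx)]
  congr 1; group

theorem A_inv (hc : Commute c z) (v : V) : m.A c⁻¹ (m.A c v) = v := by
  rw [← m.A_mul h hc.inv_left hc, inv_mul_cancel, m.A_one]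

theorem A_inv' (hc : Commute c z) (v : V) : m.A c (m.A c⁻¹ v) = v := by
  rw [← m.A_mul h hc hc.inv_left, mul_inv_cancel, m.A_one]

theorem A_inj (hc : Commute c z) : Function.Injective (m.A c) :=
  Function.LeftInverse.injective (m.A_inv h hc)

theorem B_A (hc : Commute c z) (v v' : V) : m.B (m.A c v) (m.A c v') = m.B v v' := by
  obtain ⟨x, hx, rfl⟩ := m.surj v
  obtain ⟨y, hy, rfl⟩ := m.surj v'
  rw [m.A_π c hc x hx, m.A_π c hc y hy]
  have : m.B (m.π (c * x * c⁻¹)) (m.π (c * y * c⁻¹)) = 0 ↔ m.B (m.π x) (m.π y) = 0 := by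
    rw [m.B_zero _ (h.nP c hc x hx) _ (h.nP c hc y hy), m.B_zero x hx y hy]
    exact ⟨fun e => by simpa [mul_assoc] using comm_cj c⁻¹ e, comm_cj c⟩
  revert this
  generalize m.B (m.π (c * x * c⁻¹)) (m.π (c * y * c⁻¹)) = a
  generalize m.B (m.π x) (m.π y) = b
  revert a b; decide

/-- `π` of a commutator. -/
theorem π_comm (hc : Commute c z) (hx : x ∈ P) : m.π (c * x * c⁻¹ * x⁻¹) = m.A c (m.π x) + m.π x := by
  rw [m.π_mul _ (h.nP c hc x hx) _ (inv_mem hx), m.π_inv hx, m.A_π c hc x hx]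

theorem A_eq_iff (hc : Commute c z) (hx : x ∈ P) :
    m.A c (m.π x) = m.π x ↔ c * x * c⁻¹ * x⁻¹ ∈ zpowers w := by
  rw [m.A_π c hc x hx, m.π_eq (h.nP c hc x hx) hx]

/-- The kernel of the action is `Q`. -/
theorem mem_of_fix (hc : Commute c z) (e : ∀ v, m.A c v = v) : c ∈ Q :=
  h.stab c hc fun _ hx => (m.A_eq_iff h hc hx).1 (e _)

theorem A_of_mem (hc : c ∈ Q) (v : V) : m.A c v = v := by
  obtain ⟨x, hx, rfl⟩ := m.surj v
  rw [m.A_π c (h.Qz c hc) x hx]
  rcases h.cm c hc x hx with e | e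
  · rw [e.mul_inv_cancel]
  · rw [e, m.π_mul_z h hx]

/-- Every vector lifts to an element of order at most two. -/
theorem exists_inv (v : V) : ∃ x ∈ P, x * x = 1 ∧ m.π x = v := by
  obtain ⟨x, hx, rfl⟩ := m.surj v
  rcases h.sq_or hx with e | e
  exacts [⟨x, hx, e, rfl⟩, ⟨_, mul_mem hx h.wP, e, m.π_mul_w h hx⟩]

/-- Two elements with the same image and the same square differ by `z`. -/
theorem eq_of_π (hx : x ∈ P) (hy : y ∈ P) (e : m.π x = m.π y) (e2 : x * x = y * y) : x = y ∨ x = y * z := by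
  have h1 := (m.π_eq hx hy).1 e
  have h2 : Commute y (x * y⁻¹) := by
    obtain ⟨k, hk⟩ := h1
    exact hk ▸ (h.cw y hy).zpow_right k
  have h3 : x * y⁻¹ * (x * y⁻¹) = 1 := by
    have h4 : x = y * (x * y⁻¹) := by rw [h2.eq]; simp
    rw [h4, h2.symm.mul_mul_mul_comm] at e2
    exact mul_eq_left.1 e2
  rcases h.eq_of_sq h1 h3 with k | k
  · exact Or.inl (mul_inv_eq_one.1 k)
  · exact Or.inr (by rw [mul_inv_eq_iff_eq_mul.1 k, (h.Qz y (h.PQ hy)).eq])

include m in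
theorem card_eq [Finite G] : Nat.card P = 4 * Nat.card V := by
  let f : P →* Multiplicative V := MonoidHom.mk' (fun x => Multiplicative.ofAdd (m.π x)) fun a b => by
    rw [← ofAdd_add, ← m.π_mul _ a.2 _ b.2]; rfl
  have hk : f.ker = (zpowers w).subgroupOf P := by
    ext x; exact m.π_zero x x.2
  have hr : f.range = ⊤ := MonoidHom.range_eq_top.2 fun v => by
    obtain ⟨x, hx, e⟩ := m.surj v.toAdd
    exact ⟨⟨x, hx⟩, congrArg Multiplicative.ofAdd e⟩
  have ho : orderOf w = 2 ^ (1 + 1) := orderOf_eq_prime_pow (by rw [pow_one, pow_two, h.ww]; exact h.ne)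
    (by rw [show 2 ^ (1 + 1) = 2 * 2 from rfl, pow_mul, pow_two w, h.ww, pow_two, h.zz])
  rw [← card_mul_index f.ker, index_ker, hr, card_top, hk,
    Nat.card_congr (subgroupOfEquivOfLe h.zp_le).toEquiv, Nat.card_zpowers, ho]
  rfl

end Md

/-! ### Odd index, transfer, normal 2-subgroups -/

/-- A 2-subgroup `K` of `H` with a unique fixed point on the cosets of `H`. -/
theorem odd_index [Finite G] {K H : Subgroup G} (hK : IsPGroup 2 K) (hKH : K ≤ H)
    (h : ∀ g, (∀ k ∈ K, g⁻¹ * k * g ∈ H) → g ∈ H) : Odd H.index := by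
  have h1 := hK.card_modEq_card_fixedPoints (G ⧸ H)
  have h2 : Nat.card (MulAction.fixedPoints K (G ⧸ H)) = 1 := by
    rw [Nat.card_eq_one_iff_exists]
    refine ⟨⟨((1 : G) : G ⧸ H), fun k => QuotientGroup.eq.2 (by simpa using hKH k.2)⟩, fun ⟨q, hq⟩ => ?_⟩
    obtain ⟨g, rfl⟩ := QuotientGroup.mk_surjective q
    refine Subtype.ext (QuotientGroup.eq.2 ?_)
    rw [mul_one, inv_mem_iff]
    refine h g fun k hk => ?_
    have := QuotientGroup.eq.1 (hq ⟨k, hk⟩).symm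
    simpa [mul_assoc] using this
  rw [h2] at h1
  exact Nat.odd_iff.2 h1

theorem GP.odd_index [Finite G] {z w : G} {P Q : Subgroup G} (h : GP z w P Q) {H : Subgroup G} {σ : G}
    (hH : ∀ g ∈ H, Commute g z) (hQ : Q ≤ H) (hσ : σ ∈ H) {k : ℕ} (h2 : σ ^ 2 ^ k = 1)
    (hg : ∀ g, Commute g z → g⁻¹ * σ * g ∈ H → g ∈ H) : Odd H.index := by
  have hn : zpowers σ ≤ normalizer (Q : Set G) := zpowers_le.2 (mem_normalizer_iff.2 fun x =>
    ⟨h.nQ σ (hH σ hσ) x, fun hx => by simpa [mul_assoc] using h.nQ σ⁻¹ (hH σ hσ).inv_left _ hx⟩)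
  refine Styp.odd_index (K := zpowers σ ⊔ Q) (IsPGroup.to_sup_of_normal_right' (fun x => ⟨k, ?_⟩) h.two hn)
    (sup_le (zpowers_le.2 hσ) hQ) fun g e => hg g (h.comm_of_conj fun y hy => hH _ (e y (mem_sup_right hy)))
      (e σ (mem_sup_left (mem_zpowers σ)))
  obtain ⟨_, j, rfl⟩ := x
  refine Subtype.ext ?_
  change (σ ^ j) ^ 2 ^ k = 1
  rw [← zpow_natCast, ← zpow_mul, mul_comm, zpow_mul, zpow_natCast, h2, one_zpow]

/-- Transfer of an element of order four into an abelian section of a subgroup of odd index. -/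
theorem transfer4 [Finite G] (hG : commutator G = ⊤) {H T : Subgroup G} (hH : Odd H.index)
    (hc : ∀ a ∈ H, ∀ b ∈ H, a * b * a⁻¹ * b⁻¹ ∈ T) {w : G} (hw : w ∈ H) (h4 : w * w * (w * w) = 1)
    (h1 : ∀ g, g * w * g⁻¹ ∈ H → w⁻¹ * (g * w * g⁻¹) ∈ T)
    (h2 : ∀ g, g * (w * w) * g⁻¹ ∈ H → g * (w * w) * g⁻¹ ∈ T) : w ∈ T := by
  have hn : (T.subgroupOf H).Normal := ⟨fun n hn g => by
    have := mul_mem (hc g g.2 n n.2) hn
    simpa [mem_subgroupOf] using this⟩
  letI : CommGroup (H ⧸ T.subgroupOf H) := { (inferInstance : Group (H ⧸ T.subgroupOf H)) with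
    mul_comm := fun a b => by
      obtain ⟨a, rfl⟩ := QuotientGroup.mk_surjective a
      obtain ⟨b, rfl⟩ := QuotientGroup.mk_surjective b
      rw [← QuotientGroup.mk_mul, ← QuotientGroup.mk_mul, QuotientGroup.eq]
      have := hc _ (inv_mem b.2) _ (inv_mem a.2)
      simpa [mem_subgroupOf, mul_assoc] using this }
  let ϕ := QuotientGroup.mk' (T.subgroupOf H)
  have e2 : ϕ ⟨w, hw⟩ ^ 2 = 1 := by
    rw [← map_pow]
    exact (QuotientGroup.eq_one_iff _).2 (by
      simpa [mem_subgroupOf, pow_two] using h2 1 (by simpa using mul_mem hw hw))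
  have e4 : w ^ 4 = 1 := by rw [← h4, show 4 = 2 * 2 from rfl, pow_mul, pow_two, pow_two]
  have e1 : ∀ (g : G) (h : g⁻¹ * w * g ∈ H), ϕ ⟨_, h⟩ = ϕ ⟨w, hw⟩ := fun g h =>
    (QuotientGroup.eq.2 (by simpa [mem_subgroupOf] using h1 g⁻¹ (by simpa using h))).symm
  have e := CL.Transfer.transfer_eq_pow_of_conj ϕ w (ϕ ⟨w, hw⟩) fun k g h => by
    have a : w ^ k = w ^ (k % 4) := pow_eq_pow_mod k e4
    rw [pow_eq_pow_mod k e2]
    have : k % 4 = 0 ∨ k % 4 = 1 ∨ k % 4 = 2 ∨ k % 4 = 3 := by omega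
    rcases this with b | b | b | b <;> rw [b] at a
    · rw [show k % 2 = 0 by omega, pow_zero]
      exact (QuotientGroup.eq_one_iff _).2 (by simp [mem_subgroupOf, a])
    · rw [show k % 2 = 1 by omega, pow_one, ← e1 g (by simpa [a] using h)]
      simp [a]
    · rw [show k % 2 = 0 by omega, pow_zero]
      exact (QuotientGroup.eq_one_iff _).2 (by
        simpa [mem_subgroupOf, a, pow_two] using h2 g⁻¹ (by simpa [a, pow_two] using h))
    · have a' : w ^ k = w⁻¹ := by rw [a, eq_inv_iff_mul_eq_one, ← pow_succ, e4]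
      have h' : g⁻¹ * w * g ∈ H := by simpa [a', mul_assoc] using inv_mem h
      rw [show k % 2 = 1 by omega, pow_one, ← inv_eq_of_mul_eq_one_right ((pow_two _).symm.trans e2),
        ← e1 g h', ← map_inv]
      congr 1
      exact Subtype.ext (by simp [a', mul_assoc])
  have e0 : MonoidHom.transfer ϕ w = 1 :=
    Abelianization.commutator_subset_ker (MonoidHom.transfer ϕ) (hG ▸ mem_top w)
  obtain ⟨j, hj⟩ := hH
  rw [e0, hj, pow_succ, pow_mul, e2, one_pow, one_mul] at e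
  exact (QuotientGroup.eq_one_iff (⟨w, hw⟩ : H)).1 e.symm

/-- Transport of the property `D ∩ C(ρ z) = {z}` along the class. -/
theorem Ro.iso_all {D : Set G} {ρ : G → G} (h : Ro D ρ) {z : G} (hz : z ∈ D)
    (h3 : ∀ t ∈ D, Commute t (ρ z) → t = z) : ∀ s ∈ D, ∀ t ∈ D, Commute s (ρ t) → s = t := fun s hs t ht e => by
  obtain ⟨g, hg⟩ := h.tr t ht z hz
  have := h3 _ (h.cjm s hs g) (hg ▸ (h.comm_root ht g).1 (comm_cj g e))
  simpa using this.trans hg.symm

namespace Sy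

variable {D : Set G} {ρ : G → G} {Q : G → Subgroup G} (h : Sy D ρ Q) {z s t x y : G}
include h

theorem self (hz : z ∈ D) : z ∈ Q z := (h.gp z hz).zQ

theorem root (hz : z ∈ D) : ρ z ∈ Q z := (h.gp z hz).wP

theorem mem_cj (ht : t ∈ D) (g : G) : g * x * g⁻¹ ∈ Q (g * t * g⁻¹) ↔ x ∈ Q t :=
  ⟨fun e => by simpa [mul_assoc] using h.qe _ (h.cjm t ht g) g⁻¹ _ e, h.qe t ht g x⟩

/-- Symmetry of collinearity. -/
theorem sym [Finite G] (hz : z ∈ D) (ht : t ∈ D) (e : t ∈ Q z) : z ∈ Q t := by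
  obtain ⟨g, rfl⟩ := h.tr z hz t ht
  simpa [mul_assoc] using h.qe z hz g _ (CL.Even.mem_cj.1 ((h.gp z hz).xs.mem_cj_of_conj_mem e))

theorem root_not_mem (hz : z ∈ D) (ht : t ∈ D) (hne : t ≠ z) : ρ t ∉ Q z :=
  (h.gp z hz).root_not_mem (h.rr t ht) (h.sq t ht) (h.ne t ht) hne

theorem not_zp (hz : z ∈ D) (ht : t ∈ D) (hne : t ≠ z) : t ∉ zpowers (ρ z) :=
  (h.gp z hz).not_zp (h.sq t ht) (h.ne t ht) hne

theorem exists_cj (hz : z ∈ D) (ht : t ∈ D) (e : t ∈ Q z) (hne : t ≠ z) : ∃ y ∈ Q z, y * t * y⁻¹ = t * z :=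
  (h.gp z hz).exists_cj e (h.not_zp hz ht hne)

theorem mul_mem_D (hz : z ∈ D) (ht : t ∈ D) (e : t ∈ Q z) (hne : t ≠ z) : t * z ∈ D := by
  obtain ⟨y, -, hy⟩ := h.exists_cj hz ht e hne
  exact hy ▸ h.cjm t ht y

/-- `Q z ∩ Q t` is elementary abelian. -/
theorem inf_sq (hz : z ∈ D) (ht : t ∈ D) (hne : t ≠ z) (h1 : x ∈ Q z) (h2 : x ∈ Q t) : x * x = 1 :=
  ((h.gp z hz).sq x h1).elim id fun a => ((h.gp t ht).sq x h2).elim id fun b => absurd (b.symm.trans a) hne

theorem inf_comm (hz : z ∈ D) (ht : t ∈ D) (hne : t ≠ z) (h1 : x ∈ Q z) (h2 : x ∈ Q t) (h3 : y ∈ Q z)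
    (h4 : y ∈ Q t) : Commute x y :=
  ((h.gp z hz).cm x h1 y h3).elim id fun a => ((h.gp t ht).cm x h2 y h4).elim id fun b =>
    absurd (mul_left_cancel (b.symm.trans a)) hne

/-- `Q z ∩ Q (t z) = Q z ∩ Q t` on a line. -/
theorem mem_mul [Finite G] (hz : z ∈ D) (ht : t ∈ D) (e : t ∈ Q z) (hne : t ≠ z) (h1 : x ∈ Q z) (h2 : x ∈ Q t) :
    x ∈ Q (t * z) := by
  obtain ⟨y, hy, e'⟩ := h.exists_cj hz ht e hne
  have h3 : y⁻¹ * x * y⁻¹⁻¹ ∈ Q t := by
    rcases (h.gp z hz).cm _ (inv_mem hy) x h1 with k | k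
    · rwa [k.mul_inv_cancel]
    · exact k ▸ mul_mem h2 (h.sym hz ht e)
  simpa [mul_assoc, ← e'] using h.qe t ht y _ h3

/-- Distinct commuting members of `D` have their product in `D`. -/
theorem adj (hn : No2 D ρ Q) (hs : s ∈ D) (ht : t ∈ D) (e : Commute s t) (hne : s ≠ t) : s * t ∈ D := by
  rcases h.nr ht e with k | k
  · exact h.mul_mem_D ht hs (hn t ht s hs k) hne
  · have := h.cjm' hs (ρ t)
    rwa [show (ρ t)⁻¹ * s * ρ t = s * t by
      rw [← k, inv_mul_cancel_right, mul_assoc, h.rr t ht]] at this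

/-- An invariant set which is elementary abelian modulo `Q z` lies in `Q z`. -/
theorem nrm_set [Finite G] (hz : z ∈ D) {S : Set G} (h1 : ∀ r ∈ S, Commute r z)
    (h2 : ∀ c, Commute c z → ∀ r ∈ S, c * r * c⁻¹ ∈ S) (h3 : ∀ r ∈ S, r * r ∈ Q z)
    (h4 : ∀ r ∈ S, ∀ r' ∈ S, r * r' * r⁻¹ * r'⁻¹ ∈ Q z) : ∀ r ∈ S, r ∈ Q z := by
  have g := h.gp z hz
  let L : Set G → Subgroup G := fun S =>
    { carrier := {a | Commute a z ∧ ∀ r ∈ S, Commute r z → a * r * a⁻¹ * r⁻¹ ∈ Q z}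
      one_mem' := ⟨Commute.one_left _, fun r _ _ => by simpa using one_mem _⟩
      mul_mem' := fun {a b} ha hb => ⟨ha.1.mul_left hb.1, fun r hr hr' => by
        simpa [mul_assoc] using mul_mem (g.nQ a ha.1 _ (hb.2 r hr hr')) (ha.2 r hr hr')⟩
      inv_mem' := fun {a} ha => ⟨ha.1.inv_left, fun r hr hr' => by
        simpa [mul_assoc] using g.nQ a⁻¹ ha.1.inv_left _ (inv_mem (ha.2 r hr hr'))⟩ }
  have a1 : closure S ≤ L S := (closure_le _).2 fun r hr => ⟨h1 r hr, fun r' hr' _ => h4 r hr r' hr'⟩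
  have a2 : closure S ≤ L (closure S) := (closure_le _).2 fun r hr => ⟨h1 r hr, fun a ha _ => by
    simpa [mul_assoc] using inv_mem ((a1 ha).2 r hr (h1 r hr))⟩
  have a3 : ∀ a ∈ closure S, a * a ∈ Q z := fun a ha => by
    induction ha using closure_induction with
    | mem r hr => exact h3 r hr
    | one => simpa using one_mem _
    | inv a _ ih => simpa using inv_mem ih
    | mul a b ha hb iha ihb =>
      simpa [mul_assoc] using mul_mem (mul_mem iha ((a2 (inv_mem ha)).2 b hb (a1 hb).1)) ihb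
  refine fun r hr => h.nrm z hz (closure S) (fun k hk => (a1 hk).1) (fun c hc k hk => ?_) (fun a => ?_)
    (subset_closure hr)
  · induction hk using closure_induction with
    | mem r hr => exact subset_closure (h2 c hc r hr)
    | one => simpa using one_mem _
    | inv a _ ih => rw [cj_inv]; exact inv_mem ih
    | mul a b _ _ iha ihb => rw [cj_mul]; exact mul_mem iha ihb
  · obtain ⟨k, hk⟩ := g.two ⟨_, a3 a a.2⟩
    exact ⟨k + 1, Subtype.ext (by simpa [pow_succ', pow_mul, pow_two] using congrArg Subtype.val hk)⟩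

/-- The roots on a line `{z, t, t z}` (`t` centralizes `ρ z`; it need not lie in `Q z`). -/
theorem tri (hz : z ∈ D) (ht : t ∈ D) (hc : Commute t (ρ z)) {f v k : G} (hf : f ∈ Q z)
    (e : f * t * f⁻¹ = t * z) (hv : v = f * ρ t * f⁻¹) (hk : k = (ρ t)⁻¹ * v * ρ z) :
    v * v = t * z ∧ Commute (ρ t) v ∧ Commute v (ρ z) ∧ k ∈ Q z ∧ k * k = 1 ∧ f * k * f⁻¹ = k * z ∧
      Commute k (ρ t) ∧ ∀ f' ∈ Q t, f' * z * f'⁻¹ = z * t → k ∈ Q t ∨ k * z ∈ Q t := by
  have g := h.gp z hz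
  have zv : Commute z (ρ t) := h.c0 ht hz hc
  have ac : Commute (ρ t) (ρ z) := h.c0' ht hz hc
  have tz : Commute t z := h.comm_of_root hz hc
  have hD : t * z ∈ D := e ▸ h.cjm t ht f
  have ab : Commute (ρ t) v := by
    rw [hv, h.comm_root ht, e]
    exact (h.c0' hD ht ((h.rt ht).symm.mul_left zv)).symm
  have bc : Commute v (ρ z) := hv ▸ ((g.cw f hf).mul_left ac).mul_left (g.cw f hf).inv_left
  have bb : v * v = t * z := by rw [hv, ← cj_mul, h.rr t ht, e]
  have bz : Commute v z := h.comm_of_root hz bc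
  have bt : Commute v t := h.comm_of_root ht ab.symm
  have bi : v⁻¹ = v * (t * z) := inv_eq_of_mul_eq_one_right (by rw [← mul_assoc, bb, h.sq _ hD])
  refine ⟨bb, ab, bc, ?_, ?_, ?_, ?_, fun f' hf' e' => ?_⟩
  · rw [hk, hv]
    simpa [mul_assoc] using mul_mem (mul_mem (g.nQ _ zv.symm.inv_left f hf) (inv_mem hf)) g.wP
  · rw [hk, (ac.inv_left.mul_left bc).symm.mul_mul_mul_comm, ab.symm.inv_right.mul_mul_mul_comm,
      ← mul_inv_rev, h.rr t ht, bb, g.ww, inv_mul_cancel_left, g.zz]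
  · have f2 : Commute (f * f) (ρ t) := by
      rcases g.sq f hf with k | k <;> rw [k]
      exacts [Commute.one_left _, zv]
    rw [hk, cj_mul, cj_mul, cj_inv, ← hv, (g.cw f hf).mul_inv_cancel,
      show f * v * f⁻¹ = f * f * ρ t * (f * f)⁻¹ by rw [hv]; group, f2.mul_inv_cancel, bi, h.rinv ht,
      ← (ab.mul_right ((h.rt ht).mul_right zv.symm)).eq, mul_assoc _ (ρ z), g.wz.eq, ← mul_assoc v, bt.eq]
    simp only [mul_assoc]
  · rw [hk]
    exact ((Commute.refl _).inv_left.mul_left ab.symm).mul_left ac.symm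
  · have g' := h.gp t ht
    have a1 : (ρ z)⁻¹ * (f' * ρ z * f'⁻¹) ∈ Q t := by
      simpa [mul_assoc] using mul_mem (g'.nQ _ hc.symm.inv_left f' hf') (inv_mem hf')
    have a2 : f' * ρ z * f'⁻¹ = v ∨ f' * ρ z * f'⁻¹ = v⁻¹ := by
      have b1 := h.eqv z hz f'
      have b2 := h.eqv t ht f
      rw [e', ← tz.eq] at b1
      rw [e, ← hv] at b2
      rcases b1 with b1 | b1 <;> rcases b2 with b2 | b2 <;> simp [b1, b2]
    rcases a2 with a2 | a2 <;> rw [a2] at a1
    · refine Or.inr ?_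
      rw [hk, mul_assoc, ← g.winv, mul_assoc, bc.inv_right.eq]
      exact mul_mem (inv_mem g'.wP) a1
    · refine Or.inl ?_
      rw [hk, mul_assoc]
      exact mul_mem (inv_mem g'.wP) (by simpa using inv_mem a1)

/-- The action of the root of a point `t ∈ D ∩ Q z`. -/
theorem line [Finite G] (hz : z ∈ D) (ht : t ∈ D) (hQ : t ∈ Q z) (hne : t ≠ z) {V : Type u} [AddCommGroup V]
    [Module (ZMod 2) V] (m : Md z (ρ z) (Q z) V) (hy : y ∈ Q z) (e : y * t * y⁻¹ = t * z) :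
    ∃ k ∈ Q z, k ∈ Q t ∧ m.B (m.π y) (m.π k) = 1 ∧
      ∀ x, m.A (ρ t) x = x + m.B x (m.π k) • m.π t + m.B x (m.π t) • (m.π k + m.π t) := by
  have g := h.gp z hz
  have hc := g.cw t hQ
  have zt := h.sym hz ht hQ
  have vz : Commute (ρ t) z := (h.c0 ht hz hc).symm
  obtain ⟨f', hf', e'⟩ := h.exists_cj ht hz zt hne.symm
  obtain ⟨-, ab, -, k1, -, k3, k4, k5⟩ := h.tri hz ht hc hy e rfl rfl
  set k := (ρ t)⁻¹ * (y * ρ t * y⁻¹) * ρ z with hk
  have kt : k ∈ Q t := (k5 f' hf' e').elim id fun a => by simpa using mul_mem a (inv_mem zt)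
  have yk : m.B (m.π y) (m.π k) = 1 := (m.B_one hy k1).2 (g.not_comm_of_cj k3)
  have yt : m.B (m.π y) (m.π t) = 1 := (m.B_one hy hQ).2 (g.not_comm_of_cj e)
  have tk : m.B (m.π k) (m.π t) = 0 := (m.B_zero _ k1 _ hQ).2 (h.comm_of_root ht k4)
  have Ay : m.A (ρ t) (m.π y) = m.π y + m.π k := by
    have a := g.comm_mem vz hy
    rw [← add_zero (m.A _ _), ← add_self_zmod2 (m.π y), ← add_assoc, ← m.π_comm g vz hy, add_comm,
      ← m.π_inv a, ← m.π_mul_w g (inv_mem a), hk, ab.inv_left.eq]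
    congr 2; group
  have A0 : ∀ x, m.B x (m.π t) = 0 → m.A (ρ t) x = x + m.B x (m.π k) • m.π t := fun x hx => by
    obtain ⟨x, hx', rfl⟩ := m.surj x
    have a := m.B_A g vz (m.π x) (m.π y)
    rcases h.nr ht ((m.B_zero x hx' t hQ).1 hx).inv_left with b | b
    · rw [m.A_fix vz hx' (Commute.inv_left_iff.1 b).symm] at a ⊢
      rw [Ay, map_add, add_eq_left] at a
      rw [a, zero_smul, add_zero]
    · have c : m.A (ρ t) (m.π x) = m.π x + m.π t := by
        rw [m.A_π _ vz x hx', ← m.π_mul x hx' t hQ, show ρ t * x * (ρ t)⁻¹ = x * (x⁻¹ * ρ t * x⁻¹⁻¹ * (ρ t)⁻¹) by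
          group, b, ← mul_inv_rev, h.rr t ht, h.inv ht]
      rw [c, Ay] at a
      simp only [map_add, LinearMap.add_apply, m.symm (m.π t), yt, tk, add_zero] at a
      rw [add_right_comm, add_assoc, add_eq_left] at a
      rw [c, eq_of_add_eq_zero_zmod2 a, one_smul]
  refine ⟨k, k1, kt, yk, fun x => ?_⟩
  rcases zmod2_cases (m.B x (m.π t)) with a | a
  · rw [A0 x a, a, zero_smul, add_zero]
  · have b := A0 (x + m.π y) (by rw [map_add, LinearMap.add_apply, a, yt]; rfl)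
    rw [map_add, Ay, map_add, LinearMap.add_apply, yk, add_smul, one_smul] at b
    rw [a, one_smul, eq_sub_of_add_eq b, sub_eq_add_neg, neg_add, neg_eq_of_add_eq_zero_right (add_self_zmod2 (m.π k))]
    abel

/-- Elements of `Q t ∩ C(z)` moving `y` by a prescribed element `a` modulo `Q z ∩ Q t`. -/
theorem l5 [Finite G] (hz : z ∈ D) (ht : t ∈ D) (hQ : t ∈ Q z) (hne : t ≠ z) {a : G} (ha : a ∈ Q z)
    (hat : Commute a t) : ∃ b ∈ Q t, Commute b z ∧ ∀ y ∈ Q z, y * t * y⁻¹ = t * z →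
      ∃ d ∈ Q z, d ∈ Q t ∧ b * y * b⁻¹ = a * d * y := by
  have g := h.gp z hz
  have g' := h.gp t ht
  have tz := g.Qz t hQ
  have hD := h.mul_mem_D hz ht hQ hne
  obtain ⟨f, hf, e⟩ := h.exists_cj ht hz (h.sym hz ht hQ) hne.symm
  have a1 : f * a * f⁻¹ ∈ Q (t * z) := by rw [tz.eq, ← e]; exact h.qe z hz f a ha
  have a2 : Commute (f * a * f⁻¹) z := by
    have := (((g'.Qz f hf).mul_left hat).mul_left (g'.Qz f hf).inv_left).inv_right.mul_right
      ((h.gp _ hD).Qz _ a1)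
    rwa [inv_mul_cancel_left] at this
  have bz : Commute (a * f * a⁻¹ * f⁻¹) z := by
    simpa [mul_assoc] using (g.Qz a ha).mul_left a2.inv_left
  refine ⟨_, g'.comm_memQ hat hf, bz, fun y hy e' => ?_⟩
  set b := a * f * a⁻¹ * f⁻¹ with hb
  have a3 : y * b * y⁻¹ * b⁻¹ * a ∈ Q z := by
    simpa [mul_assoc] using mul_mem (mul_mem hy (g.nQ b bz _ (inv_mem hy))) ha
  have a4 : y * b * y⁻¹ * b⁻¹ * a ∈ Q (t * z) := by
    have := mul_mem (e' ▸ h.qe t ht y b (g'.comm_memQ hat hf)) a1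
    convert this using 1
    rw [hb]; group
  have a5 := h.mem_mul hz hD (mul_mem hQ g.zQ) (fun k => h.ne t ht (mul_eq_right.1 k)) a3 a4
  rw [mul_assoc t, g.zz, mul_one] at a5
  exact ⟨_, inv_mem a3, inv_mem a5, by group⟩

end Sy

end CL.Styp
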