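/-
Involution centralizers of symplectic type that are not extraspecial: the geometry of `Q z` of order 64,
and the data given by P. Hall's theorem.
-/
import Cfsg.Agent.Even.Styp1

set_option autoImplicit false

namespace CL.Styp

open Cfsg Subgroup CL.Grp CL.Even

universe u

variable {G : Type u} [Group G]

/-- The structure `Q = E * R` of P. Hall's theorem, with `R = ⟨a⟩` or `R = ⟨a, b⟩`, `a` of order at least 4. -/
structure HD (z a b : G) (n : ℕ) (E Q : Subgroup G) : Prop where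
  ord : orderOf a = 2 ^ (n + 2)
  az : a ^ 2 ^ (n + 1) = z
  EQ : E ≤ Q
  aQ : a ∈ Q
  bQ : b ∈ Q
  Ea : ∀ e ∈ E, Commute e a
  Eb : ∀ e ∈ E, Commute e b
  Esq : ∀ e ∈ E, e * e = 1 ∨ e * e = z
  Ecm : ∀ e ∈ E, ∀ e' ∈ E, Commute e e' ∨ e * e' * e⁻¹ = e' * z
  Ecen : ∀ e ∈ E, (∀ e' ∈ E, Commute e e') → e = 1 ∨ e = z
  elt : ∀ x ∈ Q, ∃ e ∈ E, ∃ i : ℤ, x = e * a ^ i ∨ x = e * a ^ i * b
  rel : b = 1 ∨ 1 ≤ n ∧ b * (a * a) * b⁻¹ = (a * a)⁻¹ ∧
    ∀ i : ℤ, a ^ i * b * (a ^ i * b) = 1 ∨ a ^ i * b * (a ^ i * b) = z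
  Qz : ∀ x ∈ Q, Commute x z
  nQ : ∀ c, Commute c z → ∀ x ∈ Q, c * x * c⁻¹ ∈ Q
  cen : ∀ c, Commute c z → (∀ x ∈ Q, Commute c x) → c ∈ Q
  nrm : ∀ K : Subgroup G, (∀ k ∈ K, Commute k z) →
    (∀ c, Commute c z → ∀ k ∈ K, c * k * c⁻¹ ∈ K) → IsPGroup 2 K → K ≤ Q
  two : IsPGroup 2 Q

variable {D : Set G} {ρ : G → G} {Q : G → Subgroup G} {z t k : G} {V : Type u} [AddCommGroup V]
  [Module (ZMod 2) V] {m : Md z (ρ z) (Q z) V}

/-- The images of the points of `D ∩ Q z`. -/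
def Dl (D : Set G) (m : Md z (ρ z) (Q z) V) (x : V) : Prop := ∃ s ∈ D, s ∈ Q z ∧ s ≠ z ∧ m.π s = x

/-- The subspace spanned by two vectors. -/
def Ln (a b x : V) : Prop := x = 0 ∨ x = a ∨ x = b ∨ x = b + a

theorem Ln.add {a b x y : V} (hx : Ln a b x) (hy : Ln a b y) : Ln a b (x + y) := by
  have e : ∀ v : V, v + v = 0 := add_self_zmod2
  have e' : ∀ v u : V, v + (v + u) = u := fun v u => by rw [← add_assoc, e, zero_add]
  rcases hx with rfl | rfl | rfl | rfl <;> rcases hy with h | h | h | h <;> rw [h] <;>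
    simp [Ln, e, e', add_comm, add_left_comm, add_assoc]

theorem Ln.of_two {a b x y v : V} (hx : Ln a b x) (hy : Ln a b y) (x0 : x ≠ 0) (y0 : y ≠ 0) (xy : x ≠ y)
    (hv : Ln a b v) : Ln x y v := by
  have e : ∀ v : V, v + v = 0 := add_self_zmod2
  have e' : ∀ v u : V, v + (v + u) = u := fun v u => by rw [← add_assoc, e, zero_add]
  rcases hx with h | h | h | h <;> rcases hy with h' | h' | h' | h' <;>
    first
    | exact absurd h x0
    | exact absurd h' y0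
    | exact absurd (h.trans h'.symm) xy
    | rcases hv with k | k | k | k <;> rw [h, h', k] <;> simp [Ln, e, e', add_comm, add_left_comm]

namespace Sy

variable (h : Sy D ρ Q) (hz : z ∈ D)
include h hz

theorem π_ne (ht : t ∈ D) (hQ : t ∈ Q z) (hne : t ≠ z) : m.π t ≠ 0 := fun e =>
  h.not_zp hz ht hne ((m.π_zero t hQ).1 e)

theorem Dl_ne {x : V} (hx : Dl D m x) : x ≠ 0 := by
  obtain ⟨s, h1, h2, h3, rfl⟩ := hx
  exact h.π_ne hz h1 h2 h3

theorem Dl_act {x : V} (hx : Dl D m x) {c : G} (hc : Commute c z) : Dl D m (m.A c x) := by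
  obtain ⟨s, h1, h2, h3, rfl⟩ := hx
  exact ⟨_, h.cjm s h1 c, (h.gp z hz).nQ c hc s h2, fun e => h3 (by
    simpa using e.trans hc.mul_inv_cancel.symm), (m.A_π c hc s h2).symm⟩

theorem Dl_add (hn : No2 D ρ Q) {x y : V} (hx : Dl D m x) (hy : Dl D m y) (e : m.B x y = 0) (hne : x ≠ y) :
    Dl D m (x + y) := by
  obtain ⟨s, h1, h2, -, rfl⟩ := hx
  obtain ⟨r, h4, h5, -, rfl⟩ := hy
  refine ⟨_, h.adj hn h1 h4 ((m.B_zero s h2 r h5).1 e) fun e => hne (e ▸ rfl), mul_mem h2 h5, fun e => hne ?_,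
    m.π_mul s h2 r h5⟩
  exact eq_of_add_eq_zero_zmod2 (by rw [← m.π_mul s h2 r h5, e, m.π_z (h.gp z hz)])

/-- An involution of `Q z` over the image of a point is a point. -/
theorem mem_of_Dl {x : G} (hx : x ∈ Q z) (h2 : x * x = 1) (e : Dl D m (m.π x)) : x ∈ D := by
  obtain ⟨s, h1, h3, h4, e⟩ := e
  rcases m.eq_of_π (h.gp z hz) hx h3 e.symm (by rw [h2, h.sq s h1]) with rfl | rfl
  exacts [h1, h.mul_mem_D hz h1 h3 h4]

/-- The stabiliser of `{t, t z}` is the stabiliser of the vector `t̄`. -/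
theorem mem_St_iff (ht : t ∈ D) (hQ : t ∈ Q z) {g : G} :
    g ∈ St z t ↔ Commute g z ∧ m.A g (m.π t) = m.π t := by
  rw [mem_St (h.sq z hz)]
  refine and_congr_right fun hg => ?_
  rw [m.A_π g hg t hQ]
  refine ⟨fun e => e.elim (fun e => by rw [e.mul_inv_cancel]) fun e => by rw [e, m.π_mul_z (h.gp z hz) hQ],
    fun e => (m.eq_of_π (h.gp z hz) ((h.gp z hz).nQ g hg t hQ) hQ e ?_).imp_left comm_of_cj⟩
  rw [h.sq _ (h.cjm t ht g), h.sq t ht]

theorem root_comm (ht : t ∈ D) (hQ : t ∈ Q z) : Commute (ρ t) z :=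
  (h.c0 ht hz ((h.gp z hz).cw t hQ)).symm

end Sy

namespace Pt

variable (p : Pt D ρ Q m t k) (h : Sy D ρ Q) (hz : z ∈ D) (ht : t ∈ D) (hQ : t ∈ Q z) (hne : t ≠ z)
include p h hz ht hQ hne

omit hz hne in
theorem B_kt : m.B (m.π k) (m.π t) = 0 := (m.B_zero k p.hz t hQ).2 ((h.gp t ht).Qz k p.ht)

omit hz hne in
theorem perp_iff {x : V} : Ln (m.π t) (m.π k) x ↔ m.B x (m.π t) = 0 ∧ m.B x (m.π k) = 0 := by
  refine ⟨?_, fun e => p.perp x e.1 e.2⟩
  have a := p.B_kt h ht hQ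
  have b := (m.symm _ _).trans a
  rintro (rfl | rfl | rfl | rfl) <;> simp [a, b, m.alt]

/-- The image of `Q z ∩ Q t`. -/
theorem ln_of_mem {x : G} (h1 : x ∈ Q z) (h2 : x ∈ Q t) : Ln (m.π t) (m.π k) (m.π x) :=
  p.perp _ ((m.B_zero x h1 t hQ).2 ((h.gp t ht).Qz x h2))
    ((m.B_zero x h1 k p.hz).2 (h.inf_comm hz ht hne h1 h2 p.hz p.ht))

omit hz hne in
theorem mem_of_ln {x : G} (h1 : x ∈ Q z) (h2 : x * x = 1) (e : Ln (m.π t) (m.π k) (m.π x)) : x ∈ Q t :=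
  p.mem x h1 h2 ((p.perp_iff h ht hQ).1 e).1 ((p.perp_iff h ht hQ).1 e).2

omit hz hne in
theorem swap : Pt D ρ Q m t (k * t) := by
  have e : m.π (k * t) = m.π k + m.π t := m.π_mul k p.hz t hQ
  have e2 : m.π k + m.π t + m.π t = m.π k := by rw [add_assoc, add_self_zmod2, add_zero]
  have e3 : ∀ x, m.B x (m.π t) = 0 → m.B x (m.π (k * t)) = 0 → m.B x (m.π k) = 0 := fun x a b => by
    rwa [e, map_add, a, add_zero] at b
  refine ⟨mul_mem p.hz hQ, mul_mem p.ht (h.self ht), fun a => p.hne (eq_of_add_eq_zero_zmod2 (e ▸ a)),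
    fun a => p.h0 (by rwa [e, add_eq_right] at a), fun x a b => ?_, fun x hx h2 a b => p.mem x hx h2 a (e3 _ a b),
    fun x => ?_, p.par⟩
  · rw [e, e2]
    rcases p.perp x a (e3 x a b) with c | c | c | c <;> simp [c]
  · rw [p.om, e, e2, map_add, add_smul, smul_add]
    abel

/-- Normal form: a partner `y ∈ D` of `t` with `(y, k) = 1`. -/
theorem exists_par : ∃ k', Pt D ρ Q m t k' ∧ ∃ y, Dl D m y ∧ m.B y (m.π t) = 1 ∧ m.B y (m.π k') = 1 := by
  obtain ⟨y, h1, h2, h3⟩ := p.par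
  have a : Dl D m (m.π y) := ⟨y, h1, h2, fun e => by simp [e, m.π_z (h.gp z hz)] at h3, rfl⟩
  rcases zmod2_cases (m.B (m.π y) (m.π k)) with e | e
  · exact ⟨_, p.swap h ht hQ, _, a, h3, by rw [m.π_mul k p.hz t hQ, map_add, e, h3, zero_add]⟩
  · exact ⟨k, p, _, a, h3, e⟩

omit ht hQ hne in
theorem exists_u : ∃ u, m.B u (m.π t) = 0 ∧ m.B u (m.π k) = 1 := by
  by_contra hc
  refine (m.eq_of_perp (h.gp z hz) (t := m.π t) (v := m.π k) fun y hy => ?_).elim p.h0 p.hne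
  exact (zmod2_cases _).resolve_right fun e => hc ⟨y, (m.symm _ _).trans hy, (m.symm _ _).trans e⟩

omit h hz ht hQ hne in
/-- Coordinates. -/
theorem decomp {y u : V} (yt : m.B y (m.π t) = 1) (yk : m.B y (m.π k) = 1) (ut : m.B u (m.π t) = 0)
    (uk : m.B u (m.π k) = 1) (x : V) : ∃ d, Ln (m.π t) (m.π k) d ∧
      x = m.B x (m.π t) • y + (m.B x (m.π k) + m.B x (m.π t)) • u + d := by
  refine ⟨x + (m.B x (m.π t) • y + (m.B x (m.π k) + m.B x (m.π t)) • u), p.perp _ ?_ ?_, ?_⟩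
  · simp [yt, ut, zmod2_add_self]
  · simp only [map_add, map_smul, LinearMap.add_apply, LinearMap.smul_apply, yk, uk, smul_eq_mul, mul_one]
    generalize m.B x (m.π k) = a
    generalize m.B x (m.π t) = b
    revert a b; decide
  · rw [add_comm x, ← add_assoc, add_self_zmod2, zero_add]

/-- The fixed points of the root of `t`. -/
theorem om_fix {x : V} : m.A (ρ t) x = x ↔ Ln (m.π t) (m.π k) x := by
  rw [p.perp_iff h ht hQ, p.om, add_assoc, add_eq_left]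
  have a := h.π_ne (m := m) hz ht hQ hne
  rcases zmod2_cases (m.B x (m.π t)) with e | e <;> rcases zmod2_cases (m.B x (m.π k)) with e' | e' <;>
    simp only [e, e', zero_smul, one_smul, add_zero, zero_add, and_self, one_ne_zero, and_false, false_and,
      iff_false]
  · exact a
  · exact fun b => p.hne (eq_of_add_eq_zero_zmod2 b)
  · rw [add_comm, add_assoc, add_self_zmod2, add_zero]; exact p.h0

theorem card_V : Nat.card V = 16 := by
  obtain ⟨k, p, y, -, yt, yk⟩ := p.exists_par h hz ht hQ hne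
  obtain ⟨u, ut, uk⟩ := p.exists_u h hz
  have a := p.B_kt h ht hQ
  let f : (Fin 4 → ZMod 2) →+ V := AddMonoidHom.mk'
    (fun c => c 0 • y + c 1 • u + (c 2 • m.π t + c 3 • m.π k)) fun c c' => by
      simp only [Pi.add_apply, add_smul]; abel
  have hf : Function.Bijective f := ⟨(injective_iff_map_eq_zero f).2 fun c e => by
      have e : c 0 • y + c 1 • u + (c 2 • m.π t + c 3 • m.π k) = 0 := e
      have e1 := congrArg (fun x => m.B x (m.π t)) e
      have e2 := congrArg (fun x => m.B x (m.π k)) e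
      have e3 := congrArg (m.B u) e
      have e4 := congrArg (m.B y) e
      simp [yt, yk, ut, uk, a, m.alt, m.symm (m.π t)] at e1 e2 e3 e4
      simp [e1] at e2
      simp [e1] at e3
      simp [e2, e3] at e4
      ext i; fin_cases i <;> simpa,
    fun x => by
      obtain ⟨d, hd, e⟩ := p.decomp yt yk ut uk x
      rcases hd with rfl | rfl | rfl | rfl
      · exact ⟨![_, _, 0, 0], by rw [e]; simp [f]; rfl⟩
      · exact ⟨![_, _, 1, 0], by rw [e]; simp [f]; rfl⟩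
      · exact ⟨![_, _, 0, 1], by rw [e]; simp [f]; rfl⟩
      · exact ⟨![_, _, 1, 1], by rw [e, add_comm (m.π k)]; simp [f]; rfl⟩⟩
  rw [← Nat.card_eq_of_bijective f hf]
  simp

theorem card_Q [Finite G] : Nat.card (Q z) = 64 := by
  rw [m.card_eq (h.gp z hz), p.card_V h hz ht hQ hne]

/-- The action of `Q t ∩ C(z)` on the perp of `t̄`. -/
theorem act_perp {b : G} (hb : b ∈ Q t) (bz : Commute b z) {x : V} (e : m.B x (m.π t) = 0) :
    Ln (m.π t) (m.π k) (m.A b x + x) := by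
  obtain ⟨x, hx, rfl⟩ := m.surj x
  rw [← m.π_comm (h.gp z hz) bz hx]
  refine p.ln_of_mem h hz ht hQ hne ((h.gp z hz).comm_mem bz hx) ?_
  simpa [mul_assoc] using mul_mem hb ((h.gp t ht).nQ x ((m.B_zero x hx t hQ).1 e) _ (inv_mem hb))

omit hne in
theorem act_k {b : G} (hb : b ∈ Q t) (bz : Commute b z) :
    m.A b (m.π t) = m.π t ∧ (m.A b (m.π k) = m.π k ∨ m.A b (m.π k) = m.π k + m.π t) :=
  ⟨m.A_fix bz hQ ((h.gp t ht).Qz b hb), ((h.gp t ht).cm b hb k p.ht).imp (m.A_fix bz p.hz) fun e => by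
    rw [m.A_π b bz k p.hz, e, m.π_mul k p.hz t hQ]⟩

/-- Linear form of `Sy.l5`. -/
theorem l5 [Finite G] {u : V} (ut : m.B u (m.π t) = 0) : ∃ b ∈ Q t, Commute b z ∧ ∀ y, m.B y (m.π t) = 1 →
    ∃ d, Ln (m.π t) (m.π k) d ∧ m.A b y = y + u + d := by
  obtain ⟨a, ha, rfl⟩ := m.surj u
  obtain ⟨b, hb, bz, e⟩ := h.l5 hz ht hQ hne ha ((m.B_zero a ha t hQ).1 ut)
  refine ⟨b, hb, bz, fun y hy => ?_⟩
  obtain ⟨y, hy', rfl⟩ := m.surj y
  obtain ⟨d, h1, h2, e⟩ := e y hy' ((h.gp z hz).cj_of_not_comm hy' hQ ((m.B_one hy' hQ).1 hy))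
  refine ⟨_, p.ln_of_mem h hz ht hQ hne h1 h2, ?_⟩
  rw [m.A_π b bz y hy', e, m.π_mul _ (mul_mem ha h1) y hy', m.π_mul a ha d h1]
  abel

/-- Points on the same plane through `z` have the same `Q z ∩ Q t`. -/
theorem mem_trans [Finite G] {s k' x : G} (p' : Pt D ρ Q m s k') (hs : s ∈ D) (h1 : s ∈ Q z) (h2 : s ≠ z)
    (h3 : s ∈ Q t) (hx : x ∈ Q z) (hx' : x ∈ Q t) : x ∈ Q s := by
  by_cases e : m.π s = m.π t
  · rcases m.eq_of_π (h.gp z hz) h1 hQ e (by rw [h.sq s hs, h.sq t ht]) with rfl | rfl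
    exacts [hx', h.mem_mul hz ht hQ hne hx hx']
  have a := (p.ln_of_mem h hz ht hQ hne h1 h3).of_two (Or.inr (Or.inl rfl)) (h.π_ne hz hs h1 h2)
    (h.π_ne hz ht hQ hne) e (p.ln_of_mem h hz ht hQ hne hx hx')
  have b := p'.ln_of_mem h hz hs h1 h2 hQ (h.sym ht hs h3)
  refine p'.mem_of_ln h hs h1 hx (h.inf_sq hz ht hne hx hx') ?_
  rcases a with a | a | a | a <;> rw [a]
  exacts [Or.inl rfl, Or.inr (Or.inl rfl), b, b.add (Or.inr (Or.inl rfl))]

end Pt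

end CL.Styp
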