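/-
Involution centralizers of symplectic type: in case A all involutions of `Q z` lie in `D`.
-/
import Cfsg.Agent.Even.Styp2

set_option autoImplicit false

namespace CL.Styp

open Cfsg Subgroup CL.Grp CL.Even

universe u

variable {G : Type u} [Group G] [Finite G] {D : Set G} {ρ : G → G} {Q : G → Subgroup G}

section

variable {z t k : G} {V : Type u} [AddCommGroup V] [Module (ZMod 2) V] {m : Md z (ρ z) (Q z) V}

omit [Finite G] in
private theorem a0_key (p : Pt D ρ Q m t k) (h : Sy D ρ Q) (hn : No2 D ρ Q) (hz : z ∈ D) (ht : t ∈ D)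
    (hQ : t ∈ Q z) (hk : Dl D m (m.π k)) (hkt : Dl D m (m.π k + m.π t)) {y : V} (hy : Dl D m y)
    (yt : m.B y (m.π t) = 1) {d : V} (hd : Ln (m.π t) (m.π k) d) : Dl D m (y + d) := by
  have kt := p.B_kt h ht hQ
  have tk := (m.symm _ _).trans kt
  have e2 : ∀ v : V, v + v = 0 := add_self_zmod2
  have key : ∀ a b : V, Dl D m b → m.B y b = 0 → m.B a b = 0 → m.B a (m.π t) = 0 → m.B b (m.π t) = 0 →
      Dl D m (y + a) → Dl D m (y + b) ∧ Dl D m (y + a + b) := fun a b hb e1 e3 e4 e5 ha =>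
    ⟨h.Dl_add hz hn hy hb e1 fun e => by rw [e, e5] at yt; exact zero_ne_one yt,
      h.Dl_add hz hn ha hb (by rw [map_add, LinearMap.add_apply, e1, e3, add_zero]) fun e => by
        rw [← e, map_add, LinearMap.add_apply, yt, e4, add_zero] at e5; exact one_ne_zero e5⟩
  have ho := h.Dl_act hz hy (h.root_comm hz ht hQ)
  rw [p.om, yt, one_smul] at ho
  have f1 : m.B (m.π k + m.π t) (m.π t) = 0 := by simp [kt, m.alt]
  rcases zmod2_cases (m.B y (m.π k)) with e | e <;> rw [e] at ho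
  · rw [zero_smul, add_zero] at ho
    obtain ⟨a, b⟩ := key _ _ hk e (by simp [tk, m.alt]) f1 kt ho
    rcases hd with rfl | rfl | rfl | rfl
    · rwa [add_zero]
    · rwa [add_assoc, add_comm (m.π k), add_assoc, e2, add_zero] at b
    · exact a
    · exact ho
  · rw [one_smul, add_assoc, add_comm (m.π k), ← add_assoc (m.π t), e2, zero_add] at ho
    obtain ⟨a, b⟩ := key _ _ hkt (by rw [map_add, e, yt]; rfl) (by simp [kt, m.alt]) kt f1 ho
    rcases hd with rfl | rfl | rfl | rfl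
    · rwa [add_zero]
    · rwa [add_assoc, ← add_assoc (m.π k), e2, zero_add] at b
    · exact ho
    · exact a

private theorem a0_all (p : Pt D ρ Q m t k) (h : Sy D ρ Q) (hn : No2 D ρ Q) (hz : z ∈ D) (ht : t ∈ D)
    (hQ : t ∈ Q z) (hne : t ≠ z) {x : G} (hx : x ∈ D) (x1 : x ∈ Q z) (x2 : x ∈ Q t) (n1 : x ≠ z) (n2 : x ≠ t)
    (n3 : x ≠ t * z) (v : V) (hv : v ≠ 0) : Dl D m v := by
  obtain ⟨k, p, y, hy, yt, yk⟩ := p.exists_par h hz ht hQ hne
  obtain ⟨u, ut, uk⟩ := p.exists_u h hz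
  have e2 : ∀ v : V, v + v = 0 := add_self_zmod2
  have kt := p.B_kt h ht hQ
  have dt : Dl D m (m.π t) := ⟨t, ht, hQ, hne, rfl⟩
  have dx : Dl D m (m.π x) := ⟨x, hx, x1, n1, rfl⟩
  have xt : m.π x ≠ m.π t := fun e =>
    (m.eq_of_π (h.gp z hz) x1 hQ e (by rw [h.sq x hx, h.sq t ht])).elim n2 n3
  have hl := p.ln_of_mem h hz ht hQ hne x1 x2
  have dxt := h.Dl_add hz hn dx dt ((p.perp_iff h ht hQ).1 hl).1 xt
  obtain ⟨hk, hkt⟩ : Dl D m (m.π k) ∧ Dl D m (m.π k + m.π t) := by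
    rcases hl with e | e | e | e
    · exact absurd e (h.π_ne hz hx x1 n1)
    · exact absurd e xt
    · exact ⟨e ▸ dx, e ▸ dxt⟩
    · rw [e] at dx dxt
      rw [add_assoc, e2, add_zero] at dxt
      exact ⟨dxt, dx⟩
  have c1 : ∀ d, Ln (m.π t) (m.π k) d → Dl D m (y + d) := fun d hd =>
    a0_key p h hn hz ht hQ hk hkt hy yt hd
  have c2 : ∀ d, Ln (m.π t) (m.π k) d → Dl D m (y + u + d) := fun d hd => by
    obtain ⟨b, -, bz, e⟩ := p.l5 h hz ht hQ hne ut
    obtain ⟨d0, h0, e⟩ := e y yt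
    have a := h.Dl_act hz hy bz
    rw [e] at a
    have := a0_key p h hn hz ht hQ hk hkt a (by
      simp only [map_add, LinearMap.add_apply, yt, ut, ((p.perp_iff h ht hQ).1 h0).1, add_zero]) (h0.add hd)
    rwa [add_assoc, ← add_assoc d0, e2, zero_add] at this
  have c3 : ∀ d, Ln (m.π t) (m.π k) d → Dl D m (u + d) := fun d hd => by
    have hd' := (p.perp_iff h ht hQ).1 hd
    have key : ∀ d1, Ln (m.π t) (m.π k) d1 → m.B (y + d1) (y + u + (d1 + d)) = 0 → Dl D m (u + d) :=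
      fun d1 h1 e => by
        have := h.Dl_add hz hn (c1 d1 h1) (c2 _ (h1.add hd)) e fun e' => by
          have e3 := congrArg (fun x => m.B x (m.π k)) e'
          simp only [map_add, LinearMap.add_apply, yk, uk, hd'.2, ((p.perp_iff h ht hQ).1 h1).2] at e3
          revert e3; decide
        rwa [show y + d1 + (y + u + (d1 + d)) = (y + y) + (d1 + d1) + (u + d) by abel, e2, e2, add_zero,
          zero_add] at this
    rcases zmod2_cases (m.B y u + m.B y d) with e | e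
    · exact key 0 (Or.inl rfl) (by simpa [m.alt] using e)
    · refine key (m.π k) (Or.inr (Or.inr (Or.inl rfl))) ?_
      simp only [map_add, LinearMap.add_apply, m.alt, m.symm (m.π k), yk, uk, hd'.2]
      revert e
      generalize m.B y u = a
      generalize m.B y d = b
      revert a b; decide
  obtain ⟨d, hd, e⟩ := p.decomp yt yk ut uk v
  rcases zmod2_cases (m.B v (m.π t)) with a | a <;>
    rcases zmod2_cases (m.B v (m.π k) + m.B v (m.π t)) with b | b <;> rw [b, a] at e <;>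
    simp only [zero_smul, one_smul, add_zero, zero_add] at e
  · rcases hd with rfl | rfl | rfl | rfl
    exacts [absurd e hv, e ▸ dt, e ▸ hk, e ▸ hkt]
  exacts [e ▸ c3 d hd, e ▸ c1 d hd, e ▸ c2 d hd]

end

theorem allD (h : Sy D ρ Q) (hn : No2 D ρ Q) (hw : Wide D ρ Q) (hp : ¬ NoPl D Q) : AllD D Q := by
  unfold NoPl at hp
  push Not at hp
  obtain ⟨z, hz, t, ht, hQ, hne, x, hx, x1, x2, n1, n2, n3⟩ := hp
  obtain ⟨V, _, _, _, ⟨m⟩⟩ := (h.gp z hz).exists_md
  obtain ⟨k, p⟩ := (hw z hz).2 V m t ht hQ hne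
  have key : ∀ a ∈ Q z, a * a = 1 → a = 1 ∨ a ∈ D := fun a ha h2 => by
    by_cases e : m.π a = 0
    · exact ((h.gp z hz).eq_of_sq ((m.π_zero a ha).1 e) h2).imp_right fun (e : a = z) => e ▸ hz
    · exact Or.inr (h.mem_of_Dl hz ha h2 (a0_all p h hn hz ht hQ hne hx x1 x2 n1 n2 n3 _ e))
  intro z' hz' a ha h2
  obtain ⟨g, rfl⟩ := h.tr z hz z' hz'
  have e : a = g * (g⁻¹ * a * g) * g⁻¹ := by group
  rw [e, h.mem_cj hz] at ha
  rcases key _ ha (by
    rw [show g⁻¹ * a * g * (g⁻¹ * a * g) = g⁻¹ * (a * a) * g by group, h2]; simp) with b | b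
  · exact Or.inl (by rw [e, b]; simp)
  · exact Or.inr (e ▸ h.cjm _ b g)

end CL.Styp
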