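/-
Involution centralizers of symplectic type (project S1758), part A1 (helper17): `C(z) / Q z = S₅` acts on a spread.
-/
import Cfsg.Agent.Even.Styp2

set_option autoImplicit false
set_option linter.unusedSectionVars false

namespace CL.Styp

open Cfsg Subgroup CL.Grp CL.Even Equiv

universe u

theorem a1_dec : (∀ a : Perm (Fin 5), a * a = 1 → ∀ b : Perm (Fin 5), b * b = 1 → ∀ i, (∀ x, a x = x ↔ x = i) →
      ∀ j, (∀ x, b x = x ↔ x = j) → ∃ k : Fin 5, ((a * b) ^ k.1) i = j) ∧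
    ∀ σ : Perm (Fin 5), σ ≠ 1 → ∀ a, σ a = a → ∀ b, σ b = b → ∀ c, σ c = c → a ≠ b → a ≠ c → b ≠ c →
      σ.support.card = 2 := by
  refine ⟨?_, ?_⟩ <;> decide +kernel

variable {G : Type u} [Group G] [Finite G] {D : Set G} {ρ : G → G} {Q : G → Subgroup G} {z : G} {V : Type u}
  [AddCommGroup V] [Module (ZMod 2) V]

/-- a point of `D ∩ Q z` other than `z` -/
structure A1P (D : Set G) (Q : G → Subgroup G) (z s : G) : Prop where
  d : s ∈ D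
  q : s ∈ Q z
  n : s ≠ z

/-- two vectors on the same plane -/
def A1R (D : Set G) (m : Md z (ρ z) (Q z) V) (x y : V) : Prop :=
  ∃ s r, A1P D Q z s ∧ A1P D Q z r ∧ m.π s = x ∧ m.π r = y ∧ s ∈ Q r

structure A1 (D : Set G) (m : Md z (ρ z) (Q z) V) : Prop where
  h : Sy D ρ Q
  hz : z ∈ D
  ha : AllD D Q
  pt : ∀ t ∈ D, t ∈ Q z → t ≠ z → ∃ k, Pt D ρ Q m t k

namespace A1

variable {m : Md z (ρ z) (Q z) V} (F : A1 D m) {s r k g : G} {x y a b : V}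
include F

theorem gp : GP z (ρ z) (Q z) (Q z) := F.h.gp z F.hz

theorem ne0 (hs : A1P D Q z s) : m.π s ≠ 0 := F.h.π_ne F.hz hs.d hs.q hs.n

theorem lift (hx : x ≠ 0) : ∃ s, A1P D Q z s ∧ m.π s = x := by
  obtain ⟨s, h1, h2, rfl⟩ := m.exists_inv F.gp x
  exact ⟨s, ⟨(F.ha z F.hz s h1 h2).resolve_left fun e => hx (e ▸ m.π_one), h1, fun e => hx (e ▸ m.π_z F.gp)⟩, rfl⟩

theorem A0 (hg : Commute g z) (hx : x ≠ 0) : m.A g x ≠ 0 := fun e => hx (m.A_inj F.gp hg (e.trans (map_zero _).symm))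

theorem mem_iff (p : Pt D ρ Q m r k) (hr : A1P D Q z r) (hs : A1P D Q z s) : s ∈ Q r ↔ Ln (m.π r) (m.π k) (m.π s) :=
  ⟨p.ln_of_mem F.h F.hz hr.d hr.q hr.n hs.q, p.mem_of_ln F.h hr.d hr.q hs.q (F.h.sq s hs.d)⟩

theorem tr {c : G} (hs : A1P D Q z s) (hr : A1P D Q z r) (hc : c ∈ Q z) (h1 : c ∈ Q r) (h2 : r ∈ Q s) : c ∈ Q s := by
  obtain ⟨_, p⟩ := F.pt r hr.d hr.q hr.n
  obtain ⟨_, p'⟩ := F.pt s hs.d hs.q hs.n
  exact p.mem_trans F.h F.hz hr.d hr.q hr.n p' hs.d hs.q hs.n (F.h.sym hs.d hr.d h2) hc h1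

theorem R_iff (hs : A1P D Q z s) (hr : A1P D Q z r) : A1R D m (m.π s) (m.π r) ↔ s ∈ Q r := by
  refine ⟨fun ⟨s', r', h1, h2, e1, e2, e⟩ => ?_, fun e => ⟨s, r, hs, hr, rfl, rfl, e⟩⟩
  obtain ⟨_, p⟩ := F.pt r hr.d hr.q hr.n
  rw [F.mem_iff p hr hs, ← e1, ← F.mem_iff p hr h1]
  exact F.tr hr h2 h1.q e ((F.mem_iff p hr h2).2 (.inr (.inl e2)))

theorem R_ln (p : Pt D ρ Q m r k) (hr : A1P D Q z r) (hx : x ≠ 0) : A1R D m x (m.π r) ↔ Ln (m.π r) (m.π k) x := by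
  obtain ⟨s, hs, rfl⟩ := F.lift hx
  rw [F.R_iff hs hr, F.mem_iff p hr hs]

theorem R0 (e : A1R D m x y) : x ≠ 0 ∧ y ≠ 0 := by
  obtain ⟨s, r, hs, hr, rfl, rfl, -⟩ := e
  exact ⟨F.ne0 hs, F.ne0 hr⟩

theorem refl (hx : x ≠ 0) : A1R D m x x := by
  obtain ⟨s, hs, rfl⟩ := F.lift hx
  exact ⟨s, s, hs, hs, rfl, rfl, F.h.self hs.d⟩

theorem symm (e : A1R D m x y) : A1R D m y x := by
  obtain ⟨s, r, hs, hr, rfl, rfl, e⟩ := e
  exact ⟨r, s, hr, hs, rfl, rfl, F.h.sym hr.d hs.d e⟩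

theorem trans (e : A1R D m x y) (e' : A1R D m y a) : A1R D m x a := by
  obtain ⟨s, r, hs, hr, rfl, rfl, e⟩ := e
  obtain ⟨c, hc, rfl⟩ := F.lift (F.R0 e').2
  exact ⟨s, c, hs, hc, rfl, rfl, F.tr hc hr hs.q e ((F.R_iff hr hc).1 e')⟩

theorem cjP (hg : Commute g z) (hs : A1P D Q z s) : A1P D Q z (g * s * g⁻¹) :=
  ⟨F.h.cjm s hs.d g, F.gp.nQ g hg s hs.q, fun e => hs.n (by simpa using e.trans hg.mul_inv_cancel.symm)⟩

theorem act (hg : Commute g z) (e : A1R D m x y) : A1R D m (m.A g x) (m.A g y) := by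
  obtain ⟨s, r, hs, hr, rfl, rfl, e⟩ := e
  exact ⟨_, _, F.cjP hg hs, F.cjP hg hr, (m.A_π g hg s hs.q).symm, (m.A_π g hg r hr.q).symm, F.h.qe r hr.d g s e⟩

theorem exP (hx : x ≠ 0) : ∃ r k, A1P D Q z r ∧ Pt D ρ Q m r k ∧ m.π r = x := by
  obtain ⟨r, hr, e⟩ := F.lift hx
  obtain ⟨k, p⟩ := F.pt r hr.d hr.q hr.n
  exact ⟨r, k, hr, p, e⟩

theorem RB (e : A1R D m x y) : m.B x y = 0 := by
  obtain ⟨r, k, hr, p, rfl⟩ := F.exP (F.R0 e).2
  exact ((p.perp_iff F.h hr.d hr.q).1 ((F.R_ln p hr (F.R0 e).1).1 e)).1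

theorem p1 (hx : x ≠ 0) (y : V) : ∃ x', A1R D m x' x ∧ m.B x' y = 0 := by
  obtain ⟨r, k, hr, p, rfl⟩ := F.exP hx
  rcases zmod2_cases (m.B (m.π r) y) with e | e
  · exact ⟨_, F.refl hx, e⟩
  rcases zmod2_cases (m.B (m.π k) y) with e' | e'
  · exact ⟨_, (F.R_ln p hr p.h0).2 (.inr (.inr (.inl rfl))), e'⟩
  · exact ⟨_, (F.R_ln p hr fun l => p.hne (eq_of_add_eq_zero_zmod2 l)).2 (.inr (.inr (.inr rfl))),
      by rw [map_add, LinearMap.add_apply, e, e']; rfl⟩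

theorem p2 (ha : A1R D m a x) (hb : A1R D m b x) (hab : a ≠ b) (h1 : m.B a y = 0) (h2 : m.B b y = 0) (hy : y ≠ 0) :
    A1R D m y x := by
  obtain ⟨r, k, hr, p, rfl⟩ := F.exP (F.R0 ha).2
  have e : ∀ v, Ln (m.π r) (m.π k) v → m.B y v = 0 := fun v hv => by
    rw [m.symm]
    rcases ((F.R_ln p hr (F.R0 ha).1).1 ha).of_two ((F.R_ln p hr (F.R0 hb).1).1 hb) (F.R0 ha).1 (F.R0 hb).1 hab hv with
      l | l | l | l <;> simp [l, h1, h2]
  exact (F.R_ln p hr hy).2 (p.perp y (e _ (.inr (.inl rfl))) (e _ (.inr (.inr (.inl rfl)))))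

theorem n1 (p : Pt D ρ Q m r k) (hr : A1P D Q z r) (h : m.B x (m.π k) = 1) : ¬ A1R D m x (m.π r) := fun e => by
  rw [((p.perp_iff F.h hr.d hr.q).1 ((F.R_ln p hr (F.R0 e).1).1 e)).2] at h
  exact zero_ne_one h

theorem n2 (p : Pt D ρ Q m r k) (hr : A1P D Q z r) (h : m.B x (m.π k) = 1) (h1 : m.B x (m.π r) = 0)
    (h2 : m.B y (m.π r) = 0) (hn : y ≠ x) : ¬ A1R D m y x := fun e =>
  F.n1 p hr h (F.symm (F.p2 e (F.refl (F.R0 e).2) hn h2 h1 (F.ne0 hr)))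

theorem label {t : G} (ht : A1P D Q z t) : ∃ (l : V → Fin 5) (r : Fin 5 → V), (∀ i, r i ≠ 0) ∧ (∀ i, l (r i) = i) ∧
    ∀ x y, x ≠ 0 → y ≠ 0 → (l x = l y ↔ A1R D m x y) := by
  obtain ⟨k, p⟩ := F.pt t ht.d ht.q ht.n
  obtain ⟨u, ut, uk⟩ := p.exists_u F.h F.hz
  let d : Fin 4 → V := ![0, m.π t, m.π k, m.π k + m.π t]
  have t0 := F.ne0 ht
  have kt : m.π k + m.π t ≠ 0 := fun l => p.hne (eq_of_add_eq_zero_zmod2 l)
  have di : ∀ i j, d i = d j → i = j := fun i j => by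
    fin_cases i <;> fin_cases j <;> simp [d, t0, t0.symm, kt, kt.symm, p.h0, p.h0.symm, p.hne, p.hne.symm]
  have dl : ∀ v, Ln (m.π t) (m.π k) v ↔ ∃ i, d i = v := fun v => by simp [Ln, d, Fin.exists_fin_succ, eq_comm]
  have dB : ∀ i, m.B (u + d i) (m.π t) = 0 ∧ m.B (u + d i) (m.π k) = 1 := fun i => by
    obtain ⟨a, b⟩ := (p.perp_iff F.h ht.d ht.q).1 ((dl _).2 ⟨i, rfl⟩)
    simp [a, b, ut, uk]
  let r : Fin 5 → V := Fin.cons (m.π t) fun i => u + d i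
  have r0 : ∀ i, r i ≠ 0 := Fin.cases t0 fun i e => by
    have := (dB i).2
    rw [show u + d i = 0 from e] at this
    simp at this
  have ri : ∀ i j, A1R D m (r i) (r j) → i = j := fun i j => by
    refine Fin.cases ?_ (fun i => ?_) i <;> refine Fin.cases ?_ (fun j => ?_) j <;> intro e
    · rfl
    · exact absurd (F.symm e) (F.n1 p ht (dB j).2)
    · exact absurd e (F.n1 p ht (dB i).2)
    · exact congrArg _ (di _ _ (add_left_cancel (by_contra fun l => F.n2 p ht (dB j).2 (dB j).1 (dB i).1 l e)))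
  have cov : ∀ x, x ≠ 0 → ∃ i, A1R D m x (r i) := fun x hx => by
    obtain ⟨x', e, h1⟩ := F.p1 hx (m.π t)
    rcases zmod2_cases (m.B x' (m.π k)) with h2 | h2
    · exact ⟨0, F.trans (F.symm e) ((F.R_ln p ht (F.R0 e).1).2 (p.perp _ h1 h2))⟩
    · obtain ⟨i, hi⟩ := (dl _).1 (p.perp (u + x') (by simp [h1, ut]) (by simp [h2, uk]; rfl))
      refine ⟨i.succ, ?_⟩
      rw [show r i.succ = x' by change u + d i = x'; rw [hi, ← add_assoc, add_self_zmod2, zero_add]]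
      exact F.symm e
  classical
  let l : V → Fin 5 := fun x => if h : ∃ i, A1R D m x (r i) then h.choose else 0
  have hl : ∀ x, x ≠ 0 → A1R D m x (r (l x)) := fun x hx => by
    simp only [l, dif_pos (cov x hx)]; exact (cov x hx).choose_spec
  exact ⟨l, r, r0, fun i => (ri _ _ (hl _ (r0 i))).symm, fun x y hx hy =>
    ⟨fun e => F.trans (hl x hx) (e ▸ F.symm (hl y hy)),
      fun e => ri _ _ (F.trans (F.symm (hl x hx)) (F.trans e (hl y hy)))⟩⟩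

theorem ker (hg : Commute g z) (h : ∀ x, x ≠ 0 → A1R D m (m.A g x) x) : g ∈ Q z := by
  have b0 : ∀ x, m.B (m.A g x) x = 0 := fun x => by
    by_cases e : x = 0
    exacts [by simp [e], F.RB (h x e)]
  have b1 : ∀ a b, m.B (m.A g a) b = m.B a (m.A g b) := fun a b => by
    have := b0 (a + b)
    simp only [map_add, LinearMap.add_apply, b0, zero_add, add_zero] at this
    rw [m.symm a]; exact (eq_of_add_eq_zero_zmod2 this).symm
  have AA : ∀ a, m.A g (m.A g a) = a := fun a => eq_of_add_eq_zero_zmod2 (m.nondeg F.gp fun b => by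
    rw [map_add, LinearMap.add_apply, b1, m.B_A F.gp hg, zmod2_add_self])
  refine m.mem_of_fix F.gp hg fun x => by_contra fun hx => ?_
  have x0 : x ≠ 0 := fun e => hx (by simp [e])
  have p0 : m.A g x + x ≠ 0 := fun e => hx (eq_of_add_eq_zero_zmod2 e)
  have e1 : A1R D m (m.A g x + x) x := by
    obtain ⟨r, k, hr, p, rfl⟩ := F.exP x0
    exact (F.R_ln p hr p0).2 (((F.R_ln p hr (F.A0 hg x0)).1 (h _ x0)).add (.inr (.inl rfl)))
  obtain ⟨r, k, hr, p, e⟩ := F.exP p0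
  have Ar : m.A g (m.π r) = m.π r := by rw [e, map_add, AA, add_comm]
  have fx : ∀ q, m.B q (m.π r) = 0 → m.B q (m.π k) = 1 → m.A g q = q := fun q h1 h2 => by_contra fun l =>
    F.n2 p hr h2 h1 (by rw [← Ar, m.B_A F.gp hg, h1]) l (h q fun c => by simp [c] at h2)
  obtain ⟨u, ur, uk⟩ := p.exists_u F.h F.hz
  obtain ⟨xr, xk⟩ := (p.perp_iff F.h hr.d hr.q).1 ((F.R_ln p hr x0).1 (e ▸ F.symm e1))
  have := fx (u + x) (by simp [ur, xr]) (by simp [uk, xk])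
  rw [map_add, fx u ur uk] at this
  exact hx (add_left_cancel this)

theorem root (hs : A1P D Q z s) (hx : x ≠ 0) (e : A1R D m (m.A (ρ s) x) x) : A1R D m x (m.π s) := by
  obtain ⟨k, p⟩ := F.pt s hs.d hs.q hs.n
  have c := F.h.root_comm F.hz hs.d hs.q
  have o := fun x => p.om_fix F.h F.hz hs.d hs.q hs.n (x := x)
  obtain ⟨x', e', b⟩ := F.p1 hx (m.π s)
  by_cases l : m.A (ρ s) x' = x'
  · exact F.trans (F.symm e') ((F.R_ln p hs (F.R0 e').1).2 ((o _).1 l))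
  · exact F.symm (F.p2 (F.trans (F.act c e') e) e' l (by rw [← (o _).2 (.inr (.inl rfl)), m.B_A F.gp c, b]) b (F.ne0 hs))

theorem transp {t : G} (ht : A1P D Q z t) : ∃ b, Commute b z ∧ b ∉ Q z ∧ ∃ x y w, x ≠ 0 ∧ y ≠ 0 ∧ w ≠ 0 ∧ m.A b x = x ∧
    m.A b y = y ∧ m.A b w = w ∧ ¬ A1R D m y x ∧ ¬ A1R D m w x ∧ ¬ A1R D m w y := by
  obtain ⟨_, p⟩ := F.pt t ht.d ht.q ht.n
  obtain ⟨k, p, y, -, yt, yk⟩ := p.exists_par F.h F.hz ht.d ht.q ht.n
  obtain ⟨u, ut, uk⟩ := p.exists_u F.h F.hz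
  obtain ⟨b, hb, bz, e⟩ := p.l5 F.h F.hz ht.d ht.q ht.n ut
  obtain ⟨d, hd, e⟩ := e y yt
  obtain ⟨bt, bk⟩ := p.act_k F.h F.hz ht.d ht.q hb bz
  have t0 := F.ne0 ht
  have tk := (m.symm _ _).trans (p.B_kt F.h ht.d ht.q)
  have bk : m.A b (m.π k) = m.π k + m.π t := bk.resolve_left fun l => by
    have := m.B_A F.gp bz y (m.π k)
    rw [l, e, yk] at this
    simp only [map_add, LinearMap.add_apply, yk, uk, ((p.perp_iff F.h ht.d ht.q).1 hd).2] at this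
    exact absurd this (by decide)
  have bb : m.A b (m.A b u + u) = m.A b u + u := by
    rw [map_add, ← m.A_mul F.gp bz bz, m.A_of_mem F.gp, add_comm]
    rcases (F.h.gp t ht.d).sq b hb with l | l <;> rw [l]
    exacts [one_mem _, ht.q]
  obtain ⟨u, ut, uk, bu⟩ : ∃ u, m.B u (m.π t) = 0 ∧ m.B u (m.π k) = 1 ∧ m.A b u = u := by
    rcases p.act_perp F.h F.hz ht.d ht.q ht.n hb bz ut with l | l | l | l
    · exact ⟨u, ut, uk, eq_of_add_eq_zero_zmod2 l⟩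
    · refine ⟨u + m.π k, by simp [ut, p.B_kt F.h ht.d ht.q], by simp [uk, m.alt], eq_of_add_eq_zero_zmod2 ?_⟩
      rw [map_add, bk, add_add_add_comm, l, add_right_comm, add_self_zmod2, zero_add, add_self_zmod2]
    · rw [l, bk] at bb
      exact absurd (add_eq_left.1 bb) t0
    · rw [l, map_add, bk, bt] at bb
      exact absurd (add_eq_left.1 bb) t0
  have u1 : m.B (u + m.π t) (m.π k) = 1 := by simp [uk, tk]
  exact ⟨b, bz, fun l => t0 (add_eq_left.1 (bk.symm.trans (m.A_of_mem F.gp l _))), _, u, u + m.π t, t0,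
    fun l => by simp [l] at uk, fun l => by simp [l] at u1, bt, bu, by rw [map_add, bt, bu], F.n1 p ht uk, F.n1 p ht u1,
    F.n2 p ht uk ut (by simp [ut, m.alt]) fun l => t0 (add_eq_left.1 l)⟩

end A1

theorem exists_sp (h : Sy D ρ Q) (hw : Wide D ρ Q) (ha : AllD D Q) {z : G} (hz : z ∈ D) : ∃ π l, Sp D Q z π l := by
  obtain ⟨V, _, _, _, ⟨m⟩⟩ := (h.gp z hz).exists_md
  have F : A1 D m := ⟨h, hz, ha, (hw z hz).2 V m⟩
  obtain ⟨t, t1, t2, t3⟩ := (hw z hz).1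
  have ht : A1P D Q z t := ⟨t1, t2, t3⟩
  obtain ⟨l, r, r0, lr, le⟩ := F.label ht
  have c : ∀ g : centralizer ({z} : Set G), Commute g.1 z := fun g => mem_centralizer_singleton_iff.1 g.2
  have key : ∀ (g : centralizer ({z} : Set G)) x, x ≠ 0 → l (m.A g (r (l x))) = l (m.A g x) := fun g x hx =>
    (le _ _ (F.A0 (c g) (r0 _)) (F.A0 (c g) hx)).2 (F.act (c g) ((le _ _ (r0 _) hx).1 (lr _)))
  let f : centralizer ({z} : Set G) →* Function.End (Fin 5) :=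
    { toFun := fun g i => l (m.A g (r i))
      map_one' := funext fun i => (congrArg l (m.A_one _)).trans (lr i)
      map_mul' := fun g g' => funext fun i => (congrArg l (m.A_mul F.gp (c g) (c g') _)).trans
        (key g _ (F.A0 (c g') (r0 i))).symm }
  have pa : ∀ g x, x ≠ 0 → f.toHomPerm g (l x) = l (m.A g x) := key
  have ker : ∀ g, f.toHomPerm g = 1 ↔ g.1 ∈ Q z := fun g =>
    ⟨fun e => F.ker (c g) fun x hx => (le _ _ (F.A0 (c g) hx) hx).1 (by rw [← pa g x hx, e]; rfl),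
      fun e => Equiv.ext fun i => by rw [← lr i, pa g _ (r0 i), m.A_of_mem F.gp e]; rfl⟩
  refine ⟨f.toHomPerm, fun s => l (m.π s), ?_, ker, fun s s1 s2 s3 t t1 t2 t3 => ?_, fun g t t1 t2 t3 => ?_, fun i => ?_⟩
  · have inv : ∀ i, ∃ a ∈ f.toHomPerm.range, a * a = 1 ∧ ∀ x, a x = x ↔ x = i := fun i => by
      obtain ⟨s, k, hs, p, e⟩ := F.exP (r0 i)
      refine ⟨_, ⟨⟨ρ s, mem_centralizer_singleton_iff.2 (h.root_comm hz hs.d hs.q)⟩, rfl⟩, ?_, fun j => ?_⟩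
      · rw [← map_mul, ker]; change ρ s * ρ s ∈ Q z; rw [h.rr s hs.d]; exact hs.q
      · rw [← lr j, pa _ _ (r0 j), ← lr i, le _ _ (r0 j) (r0 i), ← e,
          le _ _ (F.A0 (h.root_comm hz hs.d hs.q) (r0 j)) (r0 j)]
        refine ⟨F.root hs (r0 j), fun l => ?_⟩
        rw [(p.om_fix h hz hs.d hs.q hs.n).2 ((F.R_ln p hs (r0 j)).1 l)]
        exact F.refl (r0 j)
    have : MulAction.IsPretransitive f.toHomPerm.range (Fin 5) := ⟨fun i j => by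
      obtain ⟨a, a1, a2, a3⟩ := inv i
      obtain ⟨b, b1, b2, b3⟩ := inv j
      obtain ⟨k, e⟩ := a1_dec.1 a a2 b b2 i a3 j b3
      exact ⟨⟨_, pow_mem (mul_mem a1 b1) k⟩, e⟩⟩
    obtain ⟨b, bz, bQ, x, y, w, x0, y0, w0, bx, by', bw, n1, n2, n3⟩ := F.transp ht
    classical
    refine MonoidHom.range_eq_top.1 (Perm.subgroup_eq_top_of_swap_mem (τ := f.toHomPerm ⟨b, mem_centralizer_singleton_iff.2 bz⟩)
      (by rw [Fintype.card_fin]; norm_num) ?_ ⟨_, rfl⟩ (Perm.card_support_eq_two.1 (a1_dec.2 _ (mt (ker _).1 bQ)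
        (l x) (by rw [pa _ _ x0, bx]) (l y) (by rw [pa _ _ y0, by']) (l w) (by rw [pa _ _ w0, bw])
        (fun e => n1 ((le _ _ y0 x0).1 e.symm)) (fun e => n2 ((le _ _ w0 x0).1 e.symm))
        fun e => n3 ((le _ _ w0 y0).1 e.symm))))
    rw [← Nat.card_eq_fintype_card, ← Nat.card_eq_fintype_card,
      ← MulAction.index_stabilizer_of_transitive f.toHomPerm.range (0 : Fin 5)]
    exact index_dvd_card _
  · exact (le _ _ (F.ne0 ⟨s1, s2, s3⟩) (F.ne0 ⟨t1, t2, t3⟩)).trans (F.R_iff ⟨s1, s2, s3⟩ ⟨t1, t2, t3⟩)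
  · rw [pa g _ (F.ne0 ⟨t1, t2, t3⟩), m.A_π _ (c g) t t2]
  · obtain ⟨s, hs, e⟩ := F.lift (r0 i)
    exact ⟨s, hs.d, hs.q, hs.n, by simp only [e, lr]⟩

end CL.Styp
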