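/-
Involution centralizers of symplectic type: the quadratic form in case B.
-/
import Cfsg.Agent.Even.Styp2

set_option autoImplicit false

namespace CL.Styp

open Cfsg Subgroup CL.Grp CL.Even

universe u

variable {G : Type u} [Group G] [Finite G] {D : Set G} {ρ : G → G} {Q : G → Subgroup G}

private def b1q (κ a b c d : ZMod 2) : ZMod 2 := b + κ * d + a * c + b * c + b * d + κ * c * d

private def b1f (κ a b c d a' b' c' d' : ZMod 2) : ZMod 2 :=
  a * c' + c * a' + b * c' + c * b' + b * d' + d * b' + κ * (c * d' + d * c')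

private theorem b1q_add (κ a b c d a' b' c' d' : ZMod 2) : b1q κ (a + a') (b + b') (c + c') (d + d') =
    b1q κ a b c d + b1q κ a' b' c' d' + b1f κ a b c d a' b' c' d' := by
  unfold b1q b1f; ring

private theorem b1_comb (κ : ZMod 2) (P : ZMod 2 → ZMod 2 → ZMod 2 → ZMod 2 → Prop)
    (hadd : ∀ a b c d a' b' c' d', P a b c d → P a' b' c' d' → b1f κ a b c d a' b' c' d' = 0 →
      ¬ (a = a' ∧ b = b' ∧ c = c' ∧ d = d') → P (a + a') (b + b') (c + c') (d + d'))
    (h1 : P 1 0 0 0) (h2 : ¬ P 0 1 0 0) (h3 : ¬ P 1 1 0 0) (h4 : P 0 0 1 0) (h5 : P 0 1 1 0)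
    (h6 : P 0 0 1 1) (h7 : P 1 1 1 1) : ∀ a b c d, P a b c d → b1q κ a b c d = 0 := by
  have n1 : ¬ P 1 0 1 0 := fun e => h3 (hadd _ _ _ _ _ _ _ _ e h5 (by generalize κ = r; revert r; decide) (by decide))
  have n2 : ¬ P 1 1 1 0 := fun e => h3 (hadd _ _ _ _ _ _ _ _ e h4 (by generalize κ = r; revert r; decide) (by decide))
  have n3 : ¬ P 0 1 1 1 := fun e => h2 (hadd _ _ _ _ _ _ _ _ e h6 (by generalize κ = r; revert r; decide) (by decide))
  have n4 : ¬ P 1 0 1 1 := fun e => h2 (hadd _ _ _ _ _ _ _ _ e h7 (by generalize κ = r; revert r; decide) (by decide))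
  rcases zmod2_cases κ with rfl | rfl
  · intro a b c d
    rcases zmod2_cases a with rfl | rfl <;> rcases zmod2_cases b with rfl | rfl <;>
      rcases zmod2_cases c with rfl | rfl <;> rcases zmod2_cases d with rfl | rfl <;>
      first | exact fun _ => by decide | exact fun e => absurd e ‹_›
  · have n5 : ¬ P 1 0 0 1 := fun e => n4 (hadd _ _ _ _ _ _ _ _ e h4 (by decide) (by decide))
    have n6 : ¬ P 0 1 0 1 := fun e => n3 (hadd _ _ _ _ _ _ _ _ e h4 (by decide) (by decide))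
    have n7 : ¬ P 0 0 0 1 := fun e => n5 (hadd _ _ _ _ _ _ _ _ e h1 (by decide) (by decide))
    have n8 : ¬ P 1 1 0 1 := fun e => n6 (hadd _ _ _ _ _ _ _ _ e h1 (by decide) (by decide))
    intro a b c d
    rcases zmod2_cases a with rfl | rfl <;> rcases zmod2_cases b with rfl | rfl <;>
      rcases zmod2_cases c with rfl | rfl <;> rcases zmod2_cases d with rfl | rfl <;>
      first | exact fun _ => by decide | exact fun e => absurd e ‹_›

omit [Finite G] in
private theorem b1_sq {z w : G} {P : Subgroup G} (g : GP z w P P) {x y : G} (hx : x ∈ P) (hy : y ∈ P) :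
    x * y * (x * y) = 1 ↔ ((x * x = 1 ↔ y * y = 1) ↔ Commute x y) := by
  by_cases e : Commute x y
  · rw [← e.mul_mul_mul_comm]
    rcases g.sq x hx with a | a <;> rcases g.sq y hy with b | b <;> simp [a, b, e, g.ne, g.zz]
  · have e1 : x * y * (x * y) = x * x * z * (y * y) := by
      rw [mul_assoc x y, ← mul_assoc y, mul_inv_eq_iff_eq_mul.1 (g.cj_of_not_comm hy hx fun k => e k.symm)]
      simp only [mul_assoc]
    rw [e1]
    rcases g.sq x hx with a | a <;> rcases g.sq y hy with b | b <;> simp [a, b, e, g.ne, g.zz]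

theorem cb (h : Sy D ρ Q) (hn : No2 D ρ Q) (hw : Wide D ρ Q) (hp : NoPl D Q) :
    ∀ z ∈ D, ∀ t ∈ D, t ∈ Q z → t ≠ z → CB D ρ Q z t := by
  intro z hz t ht hQ hne
  have g := h.gp z hz
  obtain ⟨V, _, _, _, ⟨m⟩⟩ := g.exists_md
  obtain ⟨k, p⟩ := (hw z hz).2 V m t ht hQ hne
  obtain ⟨k, p, y, hy, yt, yk⟩ := p.exists_par h hz ht hQ hne
  have e2 : ∀ v : V, v + v = 0 := add_self_zmod2
  have kt := p.B_kt h ht hQ
  have vz := h.root_comm hz ht hQ
  have dt : Dl D m (m.π t) := ⟨t, ht, hQ, hne, rfl⟩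
  have N1 : ∀ x, Dl D m x → Ln (m.π t) (m.π k) x → x = m.π t := by
    rintro _ ⟨x, x1, x2, x3, rfl⟩ e
    rcases hp z hz t ht hQ hne x x1 x2 (p.mem_of_ln h ht hQ x2 (h.sq x x1) e) with a | a | a
    · exact absurd a x3
    · rw [a]
    · rw [a, m.π_mul_z g hQ]
  obtain ⟨u, b, hb, bz, ut, uk, eb⟩ : ∃ u b, b ∈ Q t ∧ Commute b z ∧ m.B u (m.π t) = 0 ∧ m.B u (m.π k) = 1 ∧
      m.A b y = y + u := by
    obtain ⟨u, ut, uk⟩ := p.exists_u h hz
    obtain ⟨b, hb, bz, e⟩ := p.l5 h hz ht hQ hne ut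
    obtain ⟨d, hd, e⟩ := e y yt
    have hd' := (p.perp_iff h ht hQ).1 hd
    exact ⟨u + d, b, hb, bz, by simp [ut, hd'.1], by simp [uk, hd'.2], by rw [e, add_assoc]⟩
  have o1 : m.A (ρ t) y = y + m.π k := by
    rw [p.om, yt, yk, one_smul, one_smul, add_assoc, add_comm (m.π k), ← add_assoc (m.π t), e2, zero_add]
  have o2 : m.A (ρ t) (y + u) = y + u + m.π k + m.π t := by
    rw [p.om]
    simp only [map_add, LinearMap.add_apply, yt, yk, ut, uk, zmod2_add_self, zero_smul, add_zero, one_smul,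
      add_assoc]
  let vc : ZMod 2 → ZMod 2 → ZMod 2 → ZMod 2 → V := fun a b c d => a • m.π t + b • m.π k + c • y + d • u
  have vadd : ∀ a b c d a' b' c' d', vc a b c d + vc a' b' c' d' = vc (a + a') (b + b') (c + c') (d + d') :=
    fun a b c d a' b' c' d' => by simp only [vc, add_smul]; abel
  have vB : ∀ a b c d a' b' c' d', m.B (vc a b c d) (vc a' b' c' d') = b1f (m.B y u) a b c d a' b' c' d' :=
    fun a b c d a' b' c' d' => by
      simp only [vc, b1f, map_add, map_smul, LinearMap.add_apply, LinearMap.smul_apply, smul_eq_mul, m.alt,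
        m.symm (m.π t), m.symm (m.π k) y, m.symm (m.π k) u, m.symm u y, kt, yt, yk, ut, uk]
      ring
  have vinj : ∀ a b c d a' b' c' d', vc a b c d = vc a' b' c' d' → a = a' ∧ b = b' ∧ c = c' ∧ d = d' :=
    fun a b c d a' b' c' d' e => by
      have e1 := congrArg (m.B (vc 1 0 0 0)) e
      have e3 := congrArg (m.B (vc 0 1 0 0)) e
      have e4 := congrArg (m.B (vc 0 0 1 0)) e
      have e5 := congrArg (m.B (vc 0 0 0 1)) e
      simp only [vB, b1f, one_mul, zero_mul, add_zero, zero_add, mul_zero] at e1 e3 e4 e5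
      subst e1
      obtain rfl := add_left_cancel e3
      obtain rfl := add_right_cancel e5
      exact ⟨add_right_cancel (add_right_cancel e4), rfl, rfl, rfl⟩
  have vall : ∀ x, ∃ a b c d, x = vc a b c d := fun x => by
    obtain ⟨d, hd, e⟩ := p.decomp yt yk ut uk x
    rcases hd with rfl | rfl | rfl | rfl
    · exact ⟨0, 0, _, _, by rw [e]; simp [vc]; rfl⟩
    · exact ⟨1, 0, _, _, e.trans (by simp only [vc, one_smul, zero_smul, add_zero]; abel)⟩
    · exact ⟨0, 1, _, _, e.trans (by simp only [vc, one_smul, zero_smul, zero_add]; abel)⟩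
    · exact ⟨1, 1, _, _, e.trans (by simp only [vc, one_smul]; abel)⟩
  have dk : Dl D m (y + m.π k) := o1 ▸ h.Dl_act hz hy vz
  have du : Dl D m (y + u) := eb ▸ h.Dl_act hz hy bz
  have hq : ∀ a b c d, Dl D m (vc a b c d) → b1q (m.B y u) a b c d = 0 :=
    b1_comb _ (fun a b c d => Dl D m (vc a b c d)) (fun a b c d a' b' c' d' h1 h2 e n => by
        rw [← vadd]
        exact h.Dl_add hz hn h1 h2 (by rw [vB, e]) fun e => n (vinj _ _ _ _ _ _ _ _ e))
      (by simpa [vc] using dt)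
      (fun e => p.hne (N1 _ (by simpa [vc] using e) (Or.inr (Or.inr (Or.inl rfl)))))
      (fun e => p.h0 (add_eq_right.1 (N1 _ (by simpa [vc, add_comm] using e) (Or.inr (Or.inr (Or.inr rfl))))))
      (by simpa [vc] using hy) (by simpa [vc, add_comm] using dk) (by simpa [vc] using du)
      (by
        have := h.Dl_act hz du vz
        rw [o2] at this
        convert this using 1
        simp only [vc, one_smul]; abel)
  have hF : ∀ x, Dl D m x → m.B x (m.π t) = 1 →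
      x = y ∨ x = y + m.π k ∨ x = y + u ∨ x = y + u + m.π k + m.π t := fun x hx e => by
    obtain ⟨a, b, c, d, rfl⟩ := vall x
    have e1 := hq _ _ _ _ hx
    have e3 := vB a b c d 1 0 0 0
    simp only [vc, b1f, one_smul, zero_smul, add_zero, mul_zero, mul_one, zero_add] at e3
    rw [e] at e3
    subst e3
    have : ∀ κ a b d : ZMod 2, b1q κ a b 1 d = 0 → a = 0 ∧ b = 0 ∧ d = 0 ∨ a = 0 ∧ b = 1 ∧ d = 0 ∨
        a = 0 ∧ b = 0 ∧ d = 1 ∨ a = 1 ∧ b = 1 ∧ d = 1 := by decide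
    rcases this _ _ _ _ e1 with ⟨rfl, rfl, rfl⟩ | ⟨rfl, rfl, rfl⟩ | ⟨rfl, rfl, rfl⟩ | ⟨rfl, rfl, rfl⟩
    · exact Or.inl (by simp [vc])
    · exact Or.inr (Or.inl (by simp [vc, add_comm]))
    · exact Or.inr (Or.inr (Or.inl (by simp [vc])))
    · exact Or.inr (Or.inr (Or.inr (by simp only [vc, one_smul]; abel)))
  let K : Subgroup G :=
    { carrier := {x | x ∈ Q z ∧ ∃ a b c d, m.π x = vc a b c d ∧ (x * x = 1 ↔ b1q (m.B y u) a b c d = 0)}
      one_mem' := ⟨one_mem _, 0, 0, 0, 0, by simp [vc, m.π_one], by simp [b1q]⟩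
      mul_mem' := by
        rintro x x' ⟨hx, a, b, c, d, e, f⟩ ⟨hx', a', b', c', d', e', f'⟩
        refine ⟨mul_mem hx hx', _, _, _, _, by rw [m.π_mul x hx x' hx', e, e', vadd], ?_⟩
        rw [b1_sq g hx hx', f, f', ← m.B_zero x hx x' hx', e, e', vB, b1q_add]
        generalize b1q _ a b c d = r
        generalize b1q _ a' b' c' d' = s
        generalize b1f _ a b c d a' b' c' d' = j
        revert r s j; decide
      inv_mem' := by
        rintro x ⟨hx, a, b, c, d, e, f⟩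
        exact ⟨inv_mem hx, a, b, c, d, by rw [m.π_inv hx, e], by rw [← mul_inv_rev, inv_eq_one, f]⟩ }
  have EK : EE D Q z ≤ K := (closure_le _).2 fun s hs => by
    by_cases e : s = z
    · exact ⟨hs.2, 0, 0, 0, 0, by simp [vc, e, m.π_z g], by simp [b1q, e, g.zz]⟩
    · obtain ⟨a, b, c, d, e'⟩ := vall (m.π s)
      exact ⟨hs.2, a, b, c, d, e', iff_of_true (h.sq s hs.1) (hq _ _ _ _ ⟨s, hs.1, hs.2, e, e'⟩)⟩
  have zE : z ∈ EE D Q z := subset_closure ⟨hz, g.zQ⟩
  refine ⟨fun e => ?_, fun x hx => ?_, fun x hx hx' => ?_, ?_⟩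
  · obtain ⟨-, a, b, c, d, e, f⟩ := EK e
    obtain ⟨rfl, rfl, rfl, rfl⟩ := vinj _ _ _ _ 0 0 0 0 (by rw [← e, m.π_w g]; simp [vc])
    exact g.ne (g.ww ▸ f.2 (by simp [b1q]))
  · let S : V → Prop := fun v => ∃ e ∈ EE D Q z, m.π e = v
    have S0 : ∀ v, Dl D m v → S v := fun v ⟨s, s1, s2, _, e⟩ => ⟨s, subset_closure ⟨s1, s2⟩, e⟩
    have S1 : ∀ v v', S v → S v' → S (v + v') := by
      rintro _ _ ⟨e, he, rfl⟩ ⟨e', he', rfl⟩
      exact ⟨_, mul_mem he he', m.π_mul _ (EK he).1 _ (EK he').1⟩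
    have S2 : ∀ (c : ZMod 2) v, S v → S (c • v) := fun c v hv => by
      rcases zmod2_cases c with rfl | rfl
      · exact ⟨1, one_mem _, by rw [m.π_one, zero_smul]⟩
      · rwa [one_smul]
    have S3 : ∀ v, Dl D m (y + v) → S v := fun v hv => by
      have := S1 _ _ (S0 _ hy) (S0 _ hv)
      rwa [← add_assoc, e2, zero_add] at this
    obtain ⟨a, b, c, d, e⟩ := vall (m.π x)
    obtain ⟨r, hr, e'⟩ : S (m.π x) :=
      e ▸ S1 _ _ (S1 _ _ (S1 _ _ (S2 a _ (S0 _ dt)) (S2 b _ (S3 _ dk))) (S2 c _ (S0 _ hy))) (S2 d _ (S3 _ du))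
    have rw' := (g.cw r (EK hr).1).eq
    rcases g.mem_zp.1 ((m.π_eq hx (EK hr).1).1 e'.symm) with f | f | f | f <;>
      rw [mul_inv_eq_iff_eq_mul.1 f]
    · exact Or.inl (mul_mem (one_mem _) hr)
    · exact Or.inl (mul_mem zE hr)
    · exact Or.inr (by rw [mul_assoc, rw', ← mul_assoc, g.ww]; exact mul_mem zE hr)
    · exact Or.inr (by rwa [mul_assoc, rw', inv_mul_cancel_left])
  · obtain ⟨xQ, a, b, c, d, e, f⟩ := EK hx
    have x2 := h.inf_sq hz ht hne xQ hx'
    have f1 := f.1 x2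
    rcases p.ln_of_mem h hz ht hQ hne xQ hx' with j | j | j | j
    · rcases g.eq_of_sq ((m.π_zero x xQ).1 j) x2 with i | i
      exacts [Or.inl i, Or.inr (Or.inl i)]
    · exact Or.inr (Or.inr (m.eq_of_π g xQ hQ j (by rw [x2, h.sq t ht])))
    · obtain ⟨rfl, rfl, rfl, rfl⟩ := vinj _ _ _ _ 0 1 0 0 (by rw [← e, j]; simp [vc])
      simp [b1q] at f1
    · obtain ⟨rfl, rfl, rfl, rfl⟩ := vinj _ _ _ _ 1 1 0 0 (by rw [← e, j]; simp [vc, add_comm])
      simp [b1q] at f1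
  have St' := fun a => h.mem_St_iff (m := m) hz ht hQ (g := a)
  have dF : ∀ a ∈ St z t, ∀ x, Dl D m x → m.B x (m.π t) = 1 → m.A a x = y ∨ m.A a x = y + m.π k ∨
      m.A a x = y + u ∨ m.A a x = y + u + m.π k + m.π t := fun a ha x hx e =>
    hF _ (h.Dl_act hz hx ha.1) (by rw [← ((St' a).1 ha).2, m.B_A g ha.1, e])
  have s1 : ∀ a ∈ St z t, ∃ b ∈ Q t, Commute b z ∧ a * b ∈ St z t ∧ m.A (a * b) y = y := fun a ha => by
    have g' := h.gp t ht
    obtain ⟨c, c1, c2, c3⟩ : ∃ c ∈ Q t, Commute c z ∧ m.A c y = m.A a⁻¹ y := by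
      rcases dF _ (inv_mem ha) y hy yt with e | e | e | e <;> rw [e]
      · exact ⟨1, one_mem _, Commute.one_left _, m.A_one y⟩
      · exact ⟨_, g'.wP, vz, o1⟩
      · exact ⟨b, hb, bz, eb⟩
      · exact ⟨_, mul_mem g'.wP hb, vz.mul_left bz, by rw [m.A_mul g vz bz, eb, o2]⟩
    exact ⟨c, c1, c2, mul_mem ha ((mem_St g.zz).2 ⟨c2, Or.inl (g'.Qz c c1)⟩),
      by rw [m.A_mul g ha.1 c2, c3, m.A_inv' g ha.1]⟩
  have s2 : ∀ a ∈ St z t, m.A a y = y → m.A a (m.π k) = m.π k := fun a ha e => by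
    have a1 := g.nQ a ha.1 k p.hz
    have a2 : a * k * a⁻¹ ∈ Q t := by
      have a3 := h.qe t ht a k p.ht
      rcases ((mem_St g.zz).1 ha).2 with j | j
      · rwa [j.mul_inv_cancel] at a3
      · have := h.mem_mul hz (h.mul_mem_D hz ht hQ hne) (mul_mem hQ g.zQ)
          (fun i => h.ne t ht (mul_eq_right.1 i)) a1 (j ▸ a3)
        rwa [mul_assoc t, g.zz, mul_one] at this
    have a4 := p.ln_of_mem h hz ht hQ hne a1 a2
    have a5 := m.B_A g ha.1 y (m.π k)
    rw [← m.A_π a ha.1 k p.hz] at a4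
    rw [e, yk] at a5
    rcases a4 with j | j | j | j
    · simp [j] at a5
    · exact absurd (m.A_inj g ha.1 (j.trans ((St' a).1 ha).2.symm)) p.hne
    · exact j
    · rw [j, map_add, yk, yt] at a5
      exact absurd a5 (by decide)
  have s3 : ∀ a ∈ St z t, m.A a y = y →
      m.A a (y + u) = y + u ∨ m.A a (y + u) = y + u + m.π k + m.π t := fun a ha e => by
    rcases dF a ha _ du (by simp [yt, ut]) with j | j | j
    · have := m.A_inj g ha.1 (j.trans e.symm)
      simp [add_eq_left.1 this] at uk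
    · have := m.A_inj g ha.1 (j.trans (by rw [map_add, e, s2 a ha e] : _ = m.A a (y + m.π k)))
      simp [add_left_cancel this, m.alt] at uk
    · exact j
  have s4 : ∀ a ∈ St z t, m.A a y = y → m.A a (y + u) = y + u → a ∈ Q z := fun a ha e e' =>
    m.mem_of_fix g ha.1 fun x => by
      obtain ⟨i, j, c, d, rfl⟩ := vall x
      rw [map_add, e, add_right_inj] at e'
      simp only [vc, map_add, map_smul, e, e', s2 a ha e, ((St' a).1 ha).2]
  by_cases hc : ∃ a ∈ St z t, m.A a y = y ∧ m.A a (y + u) = y + u + m.π k + m.π t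
  · obtain ⟨a, ha, e, e'⟩ := hc
    refine ⟨a, ha, fun c hc => ?_⟩
    obtain ⟨b, b1, b2, b3, b4⟩ := s1 c hc
    refine ⟨b, b1, b2, (s3 _ b3 b4).imp (s4 _ b3 b4) fun j => ?_⟩
    rw [mul_assoc]
    refine s4 _ (mul_mem ha b3) (by rw [m.A_mul g ha.1 b3.1, b4, e]) ?_
    rw [m.A_mul g ha.1 b3.1, j, map_add, map_add, e', s2 a ha e, ((St' a).1 ha).2, add_assoc (y + u),
      add_assoc, add_assoc, e2, add_zero]
  · refine ⟨1, one_mem _, fun c hc' => ?_⟩
    obtain ⟨b, b1, b2, b3, b4⟩ := s1 c hc'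
    exact ⟨b, b1, b2, Or.inl (s4 _ b3 b4 ((s3 _ b3 b4).resolve_right fun j => hc ⟨_, b3, b4, j⟩))⟩

end CL.Styp
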