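/-
Involution centralizers of symplectic type: case B is excluded by transfer.
-/
import Cfsg.Agent.Even.Styp2

set_option autoImplicit false

namespace CL.Styp

open Cfsg Subgroup CL.Grp CL.Even

universe u

variable {G : Type u} [Group G] [Finite G] {D : Set G} {ρ : G → G} {Q : G → Subgroup G}

omit [Finite G] in
private theorem b2_le (z : G) : EE D Q z ≤ Q z := (closure_le _).2 fun _ hx => hx.2

omit [Finite G] in
private theorem b2_mem {z s : G} (hs : s ∈ D) (hQ : s ∈ Q z) : s ∈ EE D Q z := subset_closure ⟨hs, hQ⟩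

omit [Finite G] in
private theorem b2_cj (h : Sy D ρ Q) {z : G} (hz : z ∈ D) {g : G} (hg : Commute g z) {x : G}
    (hx : x ∈ EE D Q z) : g * x * g⁻¹ ∈ EE D Q z := by
  induction hx using closure_induction with
  | mem r hr => exact b2_mem (h.cjm r hr.1 g) ((h.gp z hz).nQ g hg r hr.2)
  | one => simp
  | inv a _ ih => rw [cj_inv]; exact inv_mem ih
  | mul a b _ _ iha ihb => rw [cj_mul]; exact mul_mem iha ihb

omit [Finite G] in
private theorem b2_T (h : Sy D ρ Q) {z : G} (hz : z ∈ D) (t : G) : ∃ T : Subgroup G, ∀ x, x ∈ T ↔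
    ∃ e ∈ EE D Q z, ∃ b ∈ EE D Q t, Commute b z ∧ x = e * b :=
  ⟨{ carrier := {x | ∃ e ∈ EE D Q z, ∃ b ∈ EE D Q t, Commute b z ∧ x = e * b}
     one_mem' := ⟨1, one_mem _, 1, one_mem _, Commute.one_left _, (mul_one _).symm⟩
     mul_mem' := by
      rintro _ _ ⟨e, he, b, hb, bz, rfl⟩ ⟨e', he', b', hb', bz', rfl⟩
      exact ⟨_, mul_mem he (b2_cj h hz bz he'), _, mul_mem hb hb', bz.mul_left bz', by group⟩
     inv_mem' := by
      rintro _ ⟨e, he, b, hb, bz, rfl⟩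
      exact ⟨_, b2_cj h hz bz.inv_left (inv_mem he), _, inv_mem hb, bz.inv_left, by group⟩ }, fun _ => Iff.rfl⟩

omit [Finite G] in
/-- Commutators of `H` lie in `T` when `H / T` is cyclic modulo its centre. -/
private theorem b2_comm {H T : Subgroup G} (hn : ∀ g ∈ H, ∀ x ∈ T, g * x * g⁻¹ ∈ T) :
    ∃ Z : Subgroup G, (∀ g, g ∈ Z ↔ g ∈ H ∧ ∀ a ∈ H, a * g * a⁻¹ * g⁻¹ ∈ T) ∧
      ∀ g₀, (∀ g ∈ H, g ∈ Z ∨ g₀ * g ∈ Z) → ∀ a ∈ H, ∀ b ∈ H, a * b * a⁻¹ * b⁻¹ ∈ T := by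
  let Z : Subgroup G :=
    { carrier := {g | g ∈ H ∧ ∀ a ∈ H, a * g * a⁻¹ * g⁻¹ ∈ T}
      one_mem' := ⟨one_mem _, fun a _ => by simp⟩
      mul_mem' := fun {g k} hg hk => ⟨mul_mem hg.1 hk.1, fun a ha => by
        simpa [mul_assoc] using mul_mem (hg.2 a ha) (hn g hg.1 _ (hk.2 a ha))⟩
      inv_mem' := fun {g} hg => ⟨inv_mem hg.1, fun a ha => by
        simpa [mul_assoc] using hn _ (inv_mem hg.1) _ (inv_mem (hg.2 a ha))⟩ }
  refine ⟨Z, fun _ => Iff.rfl, fun g₀ h0 a ha b hb => ?_⟩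
  rcases h0 b hb with e | e
  · exact e.2 a ha
  rcases h0 a ha with e' | e'
  · simpa [mul_assoc] using inv_mem (e'.2 b hb)
  simpa [mul_assoc] using hn a ha _ ((Z.mul_mem (Z.inv_mem e') e).2 a ha)

theorem caseB (hG : commutator G = ⊤) (h : Sy D ρ Q) (hn : No2 D ρ Q) (hw : Wide D ρ Q) (hp : NoPl D Q)
    (hb : ∀ z ∈ D, ∀ t ∈ D, t ∈ Q z → t ≠ z → CB D ρ Q z t) {z : G} (hz : z ∈ D) : False := by
  obtain ⟨t, ht, hQ, hne⟩ := (hw z hz).1
  have g := h.gp z hz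
  have g' := h.gp t ht
  obtain ⟨V, _, _, _, ⟨m⟩⟩ := g.exists_md
  obtain ⟨k, p⟩ := (hw z hz).2 V m t ht hQ hne
  have zt := h.sym hz ht hQ
  have c := hb z hz t ht hQ hne
  have c' := hb t ht z hz zt hne.symm
  have tz := g.Qz t hQ
  obtain ⟨y, hy, ey⟩ := h.exists_cj hz ht hQ hne
  obtain ⟨T, hT⟩ := b2_T h hz t
  have ET : ∀ e ∈ EE D Q z, e ∈ T := fun e he =>
    (hT e).2 ⟨e, he, 1, one_mem _, Commute.one_left _, (mul_one _).symm⟩
  have BT : ∀ b ∈ EE D Q t, Commute b z → b ∈ T := fun b hb bz =>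
    (hT b).2 ⟨1, one_mem _, b, hb, bz, (one_mul _).symm⟩
  have zE : z ∈ EE D Q z := b2_mem hz g.zQ
  have tE : t ∈ EE D Q z := b2_mem ht hQ
  have vz := h.root_comm hz ht hQ
  have QH : Q z ≤ St z t := fun q hq => (mem_St g.zz).2 ⟨g.Qz q hq, g.cm q hq t hQ⟩
  have cH : ∀ a, Commute a z → Commute a t → a ∈ St z t := fun a a1 a2 => (mem_St g.zz).2 ⟨a1, Or.inl a2⟩
  have vH : ρ t ∈ St z t := cH _ vz (h.rt ht)
  -- (1)
  have s1 : ρ z ∉ T := fun e => by
    obtain ⟨e, he, b, hb, -, e'⟩ := (hT _).1 e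
    have bQ : b ∈ Q z := by
      simpa [e'] using mul_mem (inv_mem (b2_le z he)) g.wP
    refine c.nw (e' ▸ mul_mem he ?_)
    rcases c'.inf b hb bQ with rfl | rfl | rfl | rfl
    exacts [one_mem _, tE, zE, mul_mem zE tE]
  -- (2)
  have s2 : (ρ z)⁻¹ * ρ t ∈ T := by
    have a1 : k * ρ z ∈ EE D Q z := (c.cov k p.hz).resolve_left fun e => by
      rcases c.inf k e p.ht with e | e | e | e
      · exact p.h0 (e ▸ m.π_one)
      · exact p.h0 (by rw [e, m.π_z g])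
      · exact p.hne (by rw [e])
      · exact p.hne (by rw [e, m.π_mul_z g hQ])
    have a2 : k * ρ t ∈ EE D Q t := (c'.cov k p.ht).resolve_left fun e => by
      rcases c'.inf k e p.hz with e | e | e | e
      · exact p.h0 (e ▸ m.π_one)
      · exact p.hne (by rw [e])
      · exact p.h0 (by rw [e, m.π_z g])
      · exact p.hne (by rw [e, ← tz.eq, m.π_mul_z g hQ])
    simpa [mul_assoc] using mul_mem (inv_mem (ET _ a1)) (BT _ a2 ((g.Qz k p.hz).mul_left vz))
  -- (3)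
  have n1 : ∀ a, Commute a z → Commute a t → ∀ x ∈ T, a * x * a⁻¹ ∈ T := fun a a1 a2 x hx => by
    obtain ⟨e, he, b, hb, bz, rfl⟩ := (hT _).1 hx
    rw [cj_mul]
    exact mul_mem (ET _ (b2_cj h hz a1 he)) (BT _ (b2_cj h ht a2 hb) ((a1.mul_left bz).mul_left a1.inv_left))
  have n2 : ∀ q ∈ Q z, ∀ x ∈ T, q * x * q⁻¹ ∈ T := fun q hq x hx => by
    rcases c.cov q hq with e | e
    · exact mul_mem (mul_mem (ET q e) hx) (inv_mem (ET q e))
    · have := n1 _ g.wz.inv_left (g.cw t hQ).symm.inv_left x hx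
      simpa [mul_assoc] using mul_mem (mul_mem (ET _ e) this) (inv_mem (ET _ e))
  have s3 : ∀ a ∈ St z t, ∀ x ∈ T, a * x * a⁻¹ ∈ T := fun a ha x hx => by
    obtain ⟨a1, a2 | a2⟩ := (mem_St g.zz).1 ha
    · exact n1 a a1 a2 x hx
    · have := n2 _ (inv_mem hy) _ (n1 (y * a) ((g.Qz y hy).mul_left a1) (comm_of_cj (by
        rw [show y * a * t * (y * a)⁻¹ = y * (a * t * a⁻¹) * y⁻¹ by group, a2, cj_mul, ey,
          (g.Qz y hy).mul_inv_cancel, mul_assoc, g.zz, mul_one])) x hx)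
      simpa [mul_assoc] using this
  -- (4)
  have s4 : ∀ r ∈ D, r ∈ Q z → r ≠ z → ρ r ∈ St z t → r = t ∨ r = t * z := fun r hr rQ rz e => by
    obtain ⟨k', p'⟩ := (hw z hz).2 V m r hr rQ rz
    have a := p'.mem_of_ln h hr rQ hQ (h.sq t ht)
      ((p'.om_fix h hz hr rQ rz).1 ((h.mem_St_iff (m := m) hz ht hQ).1 e).2)
    rcases hp z hz r hr rQ rz t ht hQ a with b | b | b
    · exact absurd b hne
    · exact Or.inl b.symm
    · exact Or.inr (by rw [b, mul_assoc, g.zz, mul_one])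
  have rH : ∀ s ∈ D, ∀ a, a * ρ s * a⁻¹ ∈ St z t → ρ (a * s * a⁻¹) ∈ St z t := fun s hs a e => by
    rcases h.eqv s hs a with b | b <;> rw [b] at e
    exacts [e, inv_mem_iff.1 e]
  -- (5)
  have s5 : Odd (St z t).index := g.odd_index (fun a ha => ha.1) QH vH (k := 2)
    (by rw [show 2 ^ 2 = 2 * 2 from rfl, pow_mul, pow_two, pow_two, h.rr t ht, h.sq t ht]) fun a az e =>
      inv_mem_iff.1 ((mem_St g.zz).2 ⟨az.inv_left,
        (s4 _ (h.cjm t ht a⁻¹) (g.nQ _ az.inv_left t hQ) (fun b => hne (by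
          simpa using b.trans az.inv_left.mul_inv_cancel.symm)) (rH t ht a⁻¹ (by rwa [inv_inv]))).imp_left
          comm_of_cj⟩)
  refine s1 (transfer4 hG s5 ?_ (QH g.wP) (by rw [g.ww, g.zz]) (fun a e => ?_) fun a e => ?_)
  · obtain ⟨Z, hZ, key⟩ := b2_comm s3
    obtain ⟨g₀, -, h0⟩ := c.idx
    have TZ : ∀ x ∈ T, x ∈ St z t → x ∈ Z := fun x hx hx' =>
      (hZ x).2 ⟨hx', fun a ha => mul_mem (s3 a ha x hx) (inv_mem hx)⟩
    have wZ : ρ z ∈ Z := (hZ _).2 ⟨QH g.wP, fun a ha => by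
      rcases g.nw a ha.1 with e | e
      · rw [e.mul_inv_cancel, mul_inv_cancel]; exact one_mem _
      · rw [e, ← mul_inv_rev, g.ww]; exact inv_mem (ET z zE)⟩
    have vZ : ρ t ∈ Z := by simpa using mul_mem wZ (TZ _ s2 (mul_mem (inv_mem (QH g.wP)) vH))
    have QZ : ∀ q ∈ Q z, q ∈ Z := fun q hq => by
      rcases c.cov q hq with e | e
      · exact TZ q (ET q e) (QH hq)
      · simpa using mul_mem (TZ _ (ET _ e) (QH (mul_mem hq g.wP))) (inv_mem wZ)
    have BZ : ∀ b ∈ Q t, Commute b z → b ∈ Z := fun b hb bz => by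
      have bH := cH b bz (g'.Qz b hb)
      rcases c'.cov b hb with e | e
      · exact TZ b (BT b e bz) bH
      · simpa using mul_mem (TZ _ (BT _ e (bz.mul_left vz)) (mul_mem bH vH)) (inv_mem vZ)
    refine key g₀ fun a ha => ?_
    obtain ⟨b, hb, bz, e⟩ := h0 a ha
    exact e.imp (fun e => by simpa using mul_mem (QZ _ e) (inv_mem (BZ b hb bz)))
      fun e => by simpa using mul_mem (QZ _ e) (inv_mem (BZ b hb bz))
  · have hr := h.cjm z hz a
    have e1 := rH z hz a e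
    have e2 := h.eqv z hz a
    generalize a * z * a⁻¹ = r at hr e1 e2
    have rQ := h.sym hr hz (hn r hr z hz e1.1.symm)
    have rT := ET r (b2_mem hr rQ)
    have key : (ρ z)⁻¹ * ρ r ∈ T := by
      by_cases rz : r = z
      · rw [rz, inv_mul_cancel]; exact one_mem _
      rcases s4 r hr rQ rz e1 with b | b
      · exact b ▸ s2
      have b1 := n2 y hy _ s2
      rw [cj_mul, (g.cw y hy).inv_right.mul_inv_cancel] at b1
      rcases h.eqv t ht y with b2 | b2 <;> rw [b2, ey, ← b] at b1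
      · exact b1
      · rw [h.rinv hr, ← mul_assoc] at b1
        exact (mul_mem_cancel_right rT).1 b1
    rcases e2 with b | b <;> rw [b]
    · exact key
    · rw [h.rinv hr, ← mul_assoc]; exact mul_mem key rT
  · rw [g.ww] at e ⊢
    have hr := h.cjm z hz a
    generalize a * z * a⁻¹ = r at hr e
    by_cases rw' : Commute r (ρ z)
    · exact ET r (b2_mem hr (hn z hz r hr rw'))
    have a1 := (g.nw r e.1).resolve_left rw'
    have a2 : ¬ Commute z (ρ r) := fun b => rw' (h.c0 hz hr b)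
    have a3 : Commute r t := ((mem_St g.zz).1 e).2.resolve_right fun b => a2 (by
      have b1 : Commute r (t * ρ z) := comm_of_cj (by
        rw [cj_mul, b, a1, mul_assoc, mul_inv_eq_iff_eq_mul.2 g.ww.symm])
      have b2 := h.comm_sq hr b1.symm
      rwa [← (g.cw t hQ).mul_mul_mul_comm, h.sq t ht, g.ww, one_mul] at b2)
    by_cases a4 : Commute t (ρ r)
    · exact BT r (b2_mem hr (h.sym hr ht (hn r hr t ht a4))) e.1
    have hD := h.mul_mem_D hz ht hQ hne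
    have a5 := h.sym hr hD (hn r hr _ hD (h.comm_mul hr a3.symm e.1.symm a4 a2))
    have a6 : r = y * (y⁻¹ * r * y) * y⁻¹ := by group
    rw [← ey, a6, h.mem_cj ht] at a5
    rw [a6]
    exact n2 y hy _ (BT _ (b2_mem (h.cjm' hr y) a5) (((g.Qz y hy).inv_left.mul_left e.1).mul_left (g.Qz y hy)))

end CL.Styp
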