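/-
Involution centralizers of symplectic type: the case of a cyclic centre of order at least eight.
-/
import Cfsg.Agent.Even.Styp1

set_option autoImplicit false

namespace CL.Styp

open Cfsg Subgroup CL.Grp CL.Even

universe u

private theorem big_nn {V : Type*} [AddCommGroup V] [Module (ZMod 2) V] (A : V →ₗ[ZMod 2] V) (x : V) :
    A (A x + x) + (A x + x) = A (A x) + x := by
  rw [map_add, add_assoc, ← add_assoc (A x), add_self_zmod2, zero_add]

private theorem big_nil {V : Type*} [AddCommGroup V] (N : V → V) (h0 : N 0 = 0) (ha : ∀ a b, N (a + b) = N a + N b)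
    (h8 : ∀ y, N (N (N (N (N (N (N (N y))))))) = 0)
    (h : ∀ a b, N (N (N (N a))) = 0 → N (N (N (N b))) = 0 → N a = 0 ∨ N b = 0 ∨ N (a + b) = 0) (y : V) :
    N (N y) = 0 := by
  have c : ∀ y, N (N (N y)) = 0 → N (N y) = 0 := fun y e => by
    rcases h y (N y) (by rw [e, h0]) (by rw [e, h0, h0]) with e1 | e1 | e1
    · rw [e1, h0]
    · exact e1
    · have := congrArg N e1
      rwa [ha, ha, e, add_zero, h0] at this
  exact c _ (c _ (c _ (c _ (c _ (c _ (h8 y))))))

variable {G : Type u} [Group G] [Finite G] {D : Set G} {ρ : G → G} {Q : G → Subgroup G}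

theorem big (h : Ro D ρ) (hB : Big D ρ) {z : G} (hz : z ∈ D) {P Q : Subgroup G} (g : GP z (ρ z) P Q) :
    ∀ t ∈ D, Commute t (ρ z) → t = z := fun t ht tw => by_contra fun hne => by
  obtain ⟨V, _, _, _, ⟨m⟩⟩ := g.exists_md
  obtain ⟨u, uu, hu⟩ := hB t ht
  have tt := h.sq t ht
  have ti := h.inv ht
  have tz : Commute t z := h.comm_of_root hz tw
  have vz : Commute (ρ t) z := (h.c0 ht hz tw).symm
  have vQ : ρ t ∉ Q := g.root_not_mem (h.rr t ht) tt (h.ne t ht) hne
  have ut : Commute u t := h.comm_of_root ht (uu ▸ (Commute.refl u).mul_right (Commute.refl u))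
  have uz : Commute u z := by
    refine (comm_of_cj ?_).symm
    rw [← g.ww, show ρ z * ρ z * u * (ρ z * ρ z)⁻¹ = ρ z * (ρ z * u * (ρ z)⁻¹) * (ρ z)⁻¹ by group]
    rcases hu _ tw.symm with e | e | e | e
    · rw [e, e]
    · rw [e, cj_mul, e, tw.symm.mul_inv_cancel, mul_assoc, tt, mul_one]
    · rw [e, cj_inv, e, inv_inv]
    · rw [e, cj_mul, cj_inv, e, tw.symm.mul_inv_cancel, mul_inv_rev, inv_inv, mul_assoc, ut.eq, inv_mul_cancel_left]
  let N : V → V := fun x => m.A u x + x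
  have N0 : N 0 = 0 := by simp [N]
  have Na : ∀ a b, N (a + b) = N a + N b := fun a b => by simp only [N, map_add]; abel
  have N2 : ∀ x, N (N x) = m.A (ρ t) x + x := fun x => by rw [← uu, m.A_mul g uz uz]; exact big_nn _ x
  have N4 : ∀ x, N (N (N (N x))) = m.A t x + x := fun x => by
    rw [N2, N2, big_nn, ← m.A_mul g vz vz, h.rr t ht]
  have N8 : ∀ x, N (N (N (N (N (N (N (N x))))))) = 0 := fun x => by
    rw [N4, N4, big_nn, ← m.A_mul g tz tz, tt, m.A_one, add_self_zmod2]
  refine vQ (m.mem_of_fix g vz fun y => eq_of_add_eq_zero_zmod2 ((N2 y).symm.trans ?_))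
  have k2 : ∀ x ∈ P, Commute x t → N (m.π x) = 0 ∨ (t ∈ P ∧ N (m.π x) = m.π t) := fun x hx xt => by
    have h1 := g.comm_mem uz hx
    have h2 : N (m.π x) = m.π (u * x * u⁻¹ * x⁻¹) := (m.π_comm g uz hx).symm
    rw [h2]
    rw [show u * x * u⁻¹ * x⁻¹ = u * (x * u * x⁻¹)⁻¹ by group] at h1 ⊢
    rcases hu x xt with e | e | e | e <;> rw [e] at h1 ⊢
    · rw [mul_inv_cancel, m.π_one]; exact Or.inl rfl
    · rw [ut.eq, mul_inv_rev, mul_inv_cancel_left, ti] at h1 ⊢
      exact Or.inr ⟨h1, rfl⟩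
    · rw [inv_inv, uu] at h1
      exact absurd (g.PQ h1) vQ
    · rw [mul_inv_rev, inv_inv, ti, ← ut.eq, ← mul_assoc, uu, ← h.rinv ht] at h1
      exact absurd (g.PQ (inv_mem_iff.1 h1)) vQ
  by_cases tP : t ∈ P
  · have Nt : N (m.π t) = 0 := by simp only [N, m.A_fix uz tP ut, add_self_zmod2]
    have k3 : ∀ x, m.B x (m.π t) = 0 → N x = 0 ∨ N x = m.π t := fun x e => by
      obtain ⟨x, hx, rfl⟩ := m.surj x
      exact (k2 x hx ((m.B_zero x hx t tP).1 e)).imp_right And.right
    rcases zmod2_cases (m.B y (m.π t)) with e | e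
    · rcases k3 y e with e1 | e1 <;> rw [e1]
      exacts [N0, Nt]
    · refine (k3 (N y) ?_).resolve_right fun e1 => ?_
      · have := m.B_A g uz y (m.π t)
        rw [m.A_fix uz tP ut] at this
        simp only [N, map_add, LinearMap.add_apply, this, add_self_zmod2]
      · have h1 := m.B_A g uz y (N y)
        have h2 : m.A u (N y) = m.π t + N y := by rw [← e1, add_assoc, add_self_zmod2, add_zero]
        have h3 : m.A u y = N y + y := by rw [add_assoc, add_self_zmod2, add_zero]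
        have h5 := m.B_A g uz y (m.π t)
        rw [m.A_fix uz tP ut] at h5
        rw [h3, map_add, LinearMap.add_apply, add_eq_right] at h5
        rw [h2, h3] at h1
        simp only [map_add, LinearMap.add_apply, h5, e, m.alt, zero_add, add_eq_right] at h1
        exact one_ne_zero h1
  · have k4 : ∀ x ∈ P, N (N (N (N (m.π x)))) = 0 → Commute x t ∨ t * x * t⁻¹ = z * x := fun x hx e => by
      have h1 := (m.A_eq_iff g tz hx).1 (eq_of_add_eq_zero_zmod2 ((N4 _).symm.trans e))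
      have h2 : Commute t (t * x * t⁻¹ * x⁻¹) := by
        obtain ⟨k, hk⟩ := h1
        exact hk ▸ tw.zpow_right k
      have h3 : t * x * t⁻¹ * x⁻¹ * (t * x * t⁻¹ * x⁻¹) = 1 := by
        conv_lhs => lhs; rw [← h2.mul_inv_cancel]
        calc _ = t * t * x * (t * t)⁻¹ * t * (x⁻¹ * (t⁻¹ * t) * x) * t⁻¹ * x⁻¹ := by group
          _ = 1 := by rw [tt]; group
      exact (g.eq_of_sq h1 h3).imp (fun e => (comm_of_cj (mul_inv_eq_one.1 e)).symm) mul_inv_eq_iff_eq_mul.1
    have k5 : ∀ x ∈ P, Commute x t → N (m.π x) = 0 := fun x hx e => (k2 x hx e).resolve_right fun e => tP e.1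
    refine big_nil N N0 Na N8 (fun a b ha hb => ?_) y
    obtain ⟨a, a1, rfl⟩ := m.surj a
    obtain ⟨b, b1, rfl⟩ := m.surj b
    refine (k4 a a1 ha).imp (k5 a a1) fun e1 => (k4 b b1 hb).imp (k5 b b1) fun e2 => ?_
    rw [← m.π_mul a a1 b b1]
    refine k5 _ (mul_mem a1 b1) (comm_of_cj ?_).symm
    rw [cj_mul, e1, e2, ← (g.Qz a (g.PQ a1)).eq, mul_assoc, ← mul_assoc z, g.zz, one_mul]

end CL.Styp
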