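/-
Involution centralizers of symplectic type that are not extraspecial: `Q z` has order 16 or 64.
-/
import Cfsg.Agent.Even.Styp2

set_option autoImplicit false

namespace CL.Styp

open Cfsg Subgroup CL.Grp CL.Even

universe u

variable {G : Type u} [Group G] [Finite G] {D : Set G} {ρ : G → G} {Q : G → Subgroup G}

theorem Md.ln_of_perp {z w : G} {P Q : Subgroup G} {V : Type u} [AddCommGroup V] [Module (ZMod 2) V]
    (m : Md z w P V) (g : GP z w P Q) {t k x : V} (h : ∀ y, m.B y t = 0 → m.B y k = 0 → m.B x y = 0) :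
    Ln t k x := by
  by_cases hu : ∃ u, m.B u t = 0 ∧ m.B u k = 1
  · obtain ⟨u, ut, uk⟩ := hu
    have := m.eq_of_perp g (t := t) (v := x + m.B x u • k) fun y hy => by
      have a := h (y + m.B y k • u) (by simp [ut, m.symm y t, hy]) (by simp [uk, zmod2_add_self])
      simpa [m.symm k y, mul_comm] using a
    rcases zmod2_cases (m.B x u) with e | e <;> rw [e] at this
    · simpa [Ln] using this.imp_right Or.inl
    · rw [one_smul] at this
      refine Or.inr (Or.inr (this.imp eq_of_add_eq_zero_zmod2 fun a => ?_))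
      rw [← a, add_comm x, ← add_assoc, add_self_zmod2, zero_add]
  · exact (m.eq_of_perp g fun y hy => h y ((m.symm _ _).trans hy) ((zmod2_cases _).resolve_right fun e =>
      hu ⟨y, (m.symm _ _).trans hy, e⟩)).imp_right Or.inl

theorem Sy.pt_or (h : Sy D ρ Q) (hn : No2 D ρ Q) {z t y : G} (hz : z ∈ D) (ht : t ∈ D) (hQ : t ∈ Q z)
    (hy : y ∈ D) (hy' : y ∈ Q z) (e : ¬ Commute y t) {V : Type u} [AddCommGroup V] [Module (ZMod 2) V]
    (m : Md z (ρ z) (Q z) V) : Narrow D ρ Q ∨ ∃ k, Pt D ρ Q m t k := by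
  have g := h.gp z hz
  have hne : t ≠ z := fun a => e (a ▸ g.Qz y hy')
  have e' := g.cj_of_not_comm hy' hQ e
  have vz := h.root_comm hz ht hQ
  obtain ⟨k, k1, k2, yk, om⟩ := h.line hz ht hQ hne m hy' e'
  have yt := (m.B_one hy' hQ).2 e
  have yD : Dl D m (m.π y) := ⟨y, hy, hy', fun a => e (a ▸ (g.Qz t hQ).symm), rfl⟩
  let W : V → Prop := fun x => ∃ d ∈ Q z, d ∈ Q t ∧ m.π d = x
  have Wadd : ∀ {a b}, W a → W b → W (a + b) := by
    rintro _ _ ⟨a, a1, a2, rfl⟩ ⟨b, b1, b2, rfl⟩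
    exact ⟨_, mul_mem a1 b1, mul_mem a2 b2, m.π_mul a a1 b b1⟩
  have Wiso : ∀ {a b}, W a → W b → m.B a b = 0 := by
    rintro _ _ ⟨a, a1, a2, rfl⟩ ⟨b, b1, b2, rfl⟩
    exact (m.B_zero a a1 b b1).2 (h.inf_comm hz ht hne a1 a2 b1 b2)
  have Wt : W (m.π t) := ⟨t, hQ, h.self ht, rfl⟩
  have Wk : W (m.π k) := ⟨k, k1, k2, rfl⟩
  have a2 : ∀ q, Dl D m q → m.B q (m.π t) = 0 → m.B q (m.π k) = 0 → W q := by
    rintro _ ⟨r, r1, r2, -, rfl⟩ a b
    refine ⟨r, r2, hn t ht r r1 ((h.nr ht ((m.B_zero r r2 t hQ).1 a)).resolve_right fun c => ?_), rfl⟩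
    have d := om (m.π r)
    rw [a, b, zero_smul, zero_smul, add_zero, add_zero, m.A_π _ vz r r2,
      show ρ t * r * (ρ t)⁻¹ = ρ t * (r * ρ t * r⁻¹)⁻¹ * r by group, c, inv_inv, h.rr t ht, m.π_mul t hQ r r2,
      add_eq_right] at d
    exact h.π_ne hz ht hQ hne d
  have key : ∀ x, m.B x (m.π t) = 0 → m.B x (m.π k) = 0 → W x := fun x a b => by
    obtain ⟨x, hx, rfl⟩ := m.surj x
    obtain ⟨c, -, cz, hc⟩ := h.l5 hz ht hQ hne hx ((m.B_zero x hx t hQ).1 a)
    obtain ⟨d, d1, d2, hd⟩ := hc y hy' e'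
    have Wd : W (m.π d) := ⟨d, d1, d2, rfl⟩
    have s1 := h.Dl_act hz yD cz
    rw [m.A_π c cz y hy', hd, m.π_mul _ (mul_mem hx d1) y hy', m.π_mul x hx d d1] at s1
    suffices W (m.π x + m.π d) by
      have := Wadd this Wd
      rwa [add_assoc, add_self_zmod2, add_zero] at this
    have a' : m.B (m.π x + m.π d) (m.π t) = 0 := by rw [map_add, LinearMap.add_apply, a, Wiso Wd Wt, add_zero]
    have b' : m.B (m.π x + m.π d) (m.π k) = 0 := by rw [map_add, LinearMap.add_apply, b, Wiso Wd Wk, add_zero]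
    generalize m.π x + m.π d = q at s1 a' b'
    rcases zmod2_cases (m.B q (m.π y)) with c | c
    · by_cases q0 : q = 0
      · exact ⟨1, one_mem _, one_mem _, q0 ▸ m.π_one⟩
      have := h.Dl_add hz hn s1 yD (by simp [c, m.alt]) (by simpa using q0)
      rw [add_assoc, add_self_zmod2, add_zero] at this
      exact a2 q this a' b'
    · by_cases q0 : q = m.π k
      · exact q0 ▸ Wk
      have s2 := h.Dl_act hz yD vz
      rw [om, yk, yt, one_smul, one_smul, add_assoc, add_comm (m.π k), ← add_assoc (m.π t), add_self_zmod2,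
        zero_add] at s2
      have := h.Dl_add hz hn s1 s2 (by simp [c, m.alt, b', yk, zmod2_add_self])
        (by rw [add_comm q]; simpa using q0)
      rw [add_assoc, ← add_assoc (m.π y), add_self_zmod2, zero_add] at this
      have := Wadd (a2 _ this (by simp [a', Wiso Wk Wt]) (by simp [b', m.alt])) Wk
      rwa [add_assoc, add_self_zmod2, add_zero] at this
  have perp : ∀ x, m.B x (m.π t) = 0 → m.B x (m.π k) = 0 → Ln (m.π t) (m.π k) x := fun x a b =>
    m.ln_of_perp g fun y c d => Wiso (key x a b) (key y c d)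
  by_cases kt : m.π k = m.π t
  · refine Or.inl ⟨z, hz, t, ht, y, hy, hQ, hy', e, fun x hx a => ?_⟩
    have b := (m.B_zero x hx t hQ).2 a
    rw [← m.π_zero x hx, ← m.π_zero _ (mul_mem hx hQ), m.π_mul x hx t hQ]
    rcases perp _ b (kt ▸ b) with c | c | c | c <;> simp [c, kt, add_self_zmod2]
  refine Or.inr ⟨k, k1, k2, fun a => by simp [a] at yk, kt, perp, fun x hx h2 a b => ?_, om, y, hy, hy', yt⟩
  obtain ⟨d, d1, d2, hd⟩ := key _ a b
  rcases m.eq_of_π g hx d1 hd.symm (by rw [h2, h.inf_sq hz ht hne d1 d2]) with rfl | rfl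
  exacts [d2, mul_mem d2 (h.sym hz ht hQ)]

theorem dim (h : Sy D ρ Q) (hn : No2 D ρ Q) (ha : NonAb D Q) : Narrow D ρ Q ∨ Wide D ρ Q := by
  refine or_iff_not_imp_left.2 fun hN z hz => ?_
  obtain ⟨y, hy, t, ht, hy', hQ, e⟩ := ha z hz
  have g := h.gp z hz
  have hne : t ≠ z := fun a => e (a ▸ g.Qz y hy')
  refine ⟨⟨t, ht, hQ, hne⟩, fun V _ _ _ m s hs hs' sz => ?_⟩
  by_contra hc
  have c : ∀ x, Dl D m x → m.B x (m.π s) = 0 := by
    rintro _ ⟨r, r1, r2, -, rfl⟩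
    by_contra a
    exact (h.pt_or hn hz hs hs' r1 r2 (fun b => a ((m.B_zero r r2 s hs').2 b)) m).elim hN hc
  obtain ⟨k, p⟩ := (h.pt_or hn hz ht hQ hy hy' e m).resolve_left hN
  obtain ⟨k, p, y, yD, yt, yk⟩ := p.exists_par h hz ht hQ hne
  obtain ⟨u, ut, uk⟩ := p.exists_u h hz
  obtain ⟨b, -, bz, hb⟩ := p.l5 h hz ht hQ hne ut
  obtain ⟨d, hd, e1⟩ := hb y yt
  have c1 := c _ ⟨t, ht, hQ, hne, rfl⟩
  have c2 := c _ yD
  have c3 := c _ (h.Dl_act hz yD (h.root_comm hz ht hQ))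
  have c4 := c _ (h.Dl_act hz yD bz)
  simp [p.om, yt, yk, c1, c2] at c3
  have c5 : ∀ d, Ln (m.π t) (m.π k) d → m.B d (m.π s) = 0 := by
    rintro _ (rfl | rfl | rfl | rfl) <;> simp [c1, c3]
  simp [e1, c2, c5 d hd] at c4
  refine h.π_ne (m := m) hz hs hs' sz (m.nondeg g fun x => ?_)
  obtain ⟨d, hd, e2⟩ := p.decomp yt yk ut uk x
  rw [m.symm, e2]
  simp [c2, c4, c5 d hd]

end CL.Styp
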