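/-
Involution centralizers of symplectic type: the centralizer is cyclic, dihedral, semidihedral or quaternion.
-/
import Cfsg.Agent.Even.Styp1
import Cfsg.Agent.Inv.ZStar
import Cfsg.Agent.Inv.BSWPSL

set_option autoImplicit false

namespace CL.Styp

open Cfsg Subgroup CL.Grp CL.Even

universe u

variable {G : Type u} [Group G] [Finite G]

/-- the only involution in the cyclic subgroup of index two -/
theorem dqs_inv {M : Type*} [Group M] {n : ℕ} {a b x : M} (h : DQSGen n a b) (hx : x ∈ zpowers a) (h2 : x ^ 2 = 1)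
    (h1 : x ≠ 1) : x = a ^ 2 ^ (n - 1) :=
  ((mem_zpowers_two h.orderOf_z).1 (mem_zpowers_pow_of_pow_eq_one two_ne_zero
    (by rw [h.ord, Nat.sub_add_cancel (by have := h.two_le; omega)]) hx h2)).resolve_left h1

theorem dqs_cen {M : Type*} [Group M] {n : ℕ} {a b x : M} (h : DQSGen n a b) (hx : ∀ g, g * x = x * g)
    (h1 : x ≠ 1) : x = a ^ 2 ^ (n - 1) :=
  ((mem_zpowers_two h.orderOf_z).1 (h.center_eq ▸ mem_center_iff.2 hx)).resolve_left h1

/-- a subgroup of index two of the semidihedral group that contains all involutions -/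
theorem dqs_sub {M : Type*} [Group M] {n : ℕ} {a b : M} (h : DQSGen n a b) (h1 : b ^ 2 = 1)
    (h2 : b * a * b⁻¹ = a ^ (2 ^ (n - 1) - 1)) : a * b * (a * b) = a ^ 2 ^ (n - 1) ∧ ∃ T : Subgroup M,
      commutator M ≤ T ∧ a * b ∉ T ∧ ∀ x, x ^ 2 = 1 → x ∈ T := by
  have bi : b⁻¹ = b := inv_eq_of_mul_eq_one_right (by rwa [pow_two] at h1)
  have hn := h.two_le
  have k1 : ∀ i : ℤ, a ^ i * b * (a ^ i * b) = (a ^ 2 ^ (n - 1)) ^ i := fun i => by
    calc _ = a ^ i * (b * a * b⁻¹) ^ i := by rw [conj_zpow, bi]; group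
      _ = _ := by
        rw [h2, ← ((Commute.refl a).pow_right _).mul_zpow, ← pow_succ', Nat.sub_add_cancel Nat.one_le_two_pow]
  have hN : (zpowers (a ^ 2)).Normal := h.commutator_eq ▸ inferInstance
  have aT : a ∉ zpowers (a ^ 2) := fun ⟨i, hi⟩ => by
    have : a ^ (2 * i) = a ^ (1 : ℤ) := by rw [zpow_mul, zpow_one, zpow_ofNat]; exact hi
    rw [zpow_eq_zpow_iff_of_orderOf h.ord] at this
    have := (dvd_pow_self 2 (by omega)).trans this
    omega
  refine ⟨by simpa using k1 1, zpowers (a ^ 2) ⊔ zpowers b, h.commutator_eq ▸ le_sup_left, fun k => ?_, fun x hx => ?_⟩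
  · obtain ⟨y, hy, c, hc, e⟩ := mem_sup_of_normal_left.1 k
    rcases (mem_zpowers_two (h.orderOf_eq_two h1)).1 hc with rfl | rfl
    · exact h.zpow_mul_notMem 1 (by rw [zpow_one, ← e, mul_one]; exact zpowers_le.2 (pow_mem (mem_zpowers a) 2) hy)
    · exact aT (mul_right_cancel e ▸ hy)
  · obtain ⟨i, rfl | rfl⟩ := h.elt x
    · by_cases k : a ^ i = 1
      · exact k ▸ one_mem _
      · rw [dqs_inv (x := a ^ i) h ⟨i, rfl⟩ hx k, show n - 1 = n - 2 + 1 by omega, pow_succ' 2, pow_mul]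
        exact mem_sup_left (pow_mem (mem_zpowers _) _)
    · rw [pow_two, k1, ← orderOf_dvd_iff_zpow_eq_one, h.orderOf_z] at hx
      obtain ⟨j, rfl⟩ := hx
      exact mul_mem (mem_sup_left ⟨j, by rw [zpow_mul, zpow_natCast]⟩) (mem_sup_right (mem_zpowers b))

theorem dqs [IsSimpleGroup G] (hG : ¬ IsMulCommutative G) {z : G} (hz : orderOf z = 2)
    (h2 : IsPGroup 2 (centralizer ({z} : Set G))) (hc : IsCyclic (centralizer ({z} : Set G)) ∨
      ∃ (n : ℕ) (a b : centralizer ({z} : Set G)), 3 ≤ n ∧ DQSGen n a b) :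
    ∃ (F : Type) (_ : Field F) (_ : Fintype F), ((∃ n : ℕ, Fintype.card F = 2 ^ n + 1) ∨
      (∃ n : ℕ, Fintype.card F + 1 = 2 ^ n)) ∧ Nonempty (G ≃* Matrix.ProjectiveSpecialLinearGroup (Fin 2) F) := by
  have := Fact.mk Nat.prime_two
  have mc : ∀ {x y : G}, x ∈ centralizer ({y} : Set G) ↔ x * y = y * x := mem_centralizer_singleton_iff
  have hG2 : Nat.card G ≠ 2 := fun e => have := isCyclic_of_prime_card e; hG inferInstance
  have z2 : z ^ 2 = 1 := hz ▸ pow_orderOf_eq_one z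
  have z1 : z ≠ 1 := fun e => by simp [e] at hz
  have c2 : ∀ g : G, (g * z * g⁻¹) ^ 2 = 1 := fun g => by rw [conj_pow, z2]; group
  have c1 : ∀ g : G, g * z * g⁻¹ ≠ 1 := fun g e => z1 (conj_eq_one_iff.1 e)
  obtain ⟨g, hg, gz⟩ := CL.Inv.exists_commuting_conj_of_simple hG2 hz
  have tM : g * z * g⁻¹ ∈ centralizer {z} := mc.2 hg.eq.symm
  have zM : z ∈ centralizer {z} := mc.2 rfl
  rcases hc with hc | ⟨n, a, b, h3, h⟩
  · rcases (mem_zpowers_two hz).1 (CL.Grp.mem_zpowers_of_isCyclic_of_pow_eq_one hc zM hz tM (c2 g)) with e | e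
    exacts [absurd e (c1 g), absurd e gz]
  have za : (⟨z, zM⟩ : centralizer {z}) = a ^ 2 ^ (n - 1) :=
    dqs_cen h (fun g => Subtype.ext (mc.1 g.2)) fun e => z1 (congrArg Subtype.val e)
  have cz : ∀ (g : G) (hg : g * z * g⁻¹ ∈ centralizer {z}), (⟨_, hg⟩ : centralizer {z}) ∈ zpowers a →
      g * z * g⁻¹ = z := fun g hg k => congrArg Subtype.val ((dqs_inv h k (Subtype.ext (c2 g))
        fun e => c1 g (congrArg Subtype.val e)).trans za.symm)
  have odd : Odd (centralizer ({z} : Set G)).index := odd_index h2 le_rfl fun g k => by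
    have k1 : ∀ m ∈ centralizer ({z} : Set G), m * (g * z * g⁻¹) = g * z * g⁻¹ * m := fun m hm => by
      calc _ = g * (g⁻¹ * m * g * z) * g⁻¹ := by group
        _ = _ := by rw [mc.1 (k m hm)]; group
    exact mc.2 (mul_inv_eq_iff_eq_mul.1 (congrArg Subtype.val ((dqs_cen h (x := ⟨_, mc.2 (k1 z zM).symm⟩)
      (fun m => Subtype.ext (k1 m m.2)) fun e => c1 g (congrArg Subtype.val e)).trans za.symm)))
  rcases h.rel with ⟨h1, k⟩ | ⟨h1, k⟩ | ⟨-, h1, k⟩
  · obtain ⟨e⟩ := h.nonempty_dihedral h1 k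
    have hO : ⊥ = (oddCore (centralizer ({z} : Set G))).map (centralizer ({z} : Set G)).subtype := by
      obtain ⟨j, hj⟩ := (h2.to_subgroup (oddCore _)).exists_card_eq
      have := (pPrimeCore_coprime 2 (centralizer ({z} : Set G))).pow_right j
      rw [← hj, Nat.coprime_self, card_eq_one] at this
      rw [oddCore, this, Subgroup.map_bot]
    obtain ⟨r, -, s, -, ho, H⟩ := CL.Inv.BSW.exists_hyp_of_dihedral (CL.Inv.BSW.index_ne_two_of_simple hG2)
      (h2.toSylow (Nat.two_dvd_ne_zero.2 (Nat.odd_iff.1 odd))) (n := 2 ^ n)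
      (Nat.le_self_pow (by omega) 2) e hz zM (fun s hs => mc.1 hs) hO (fun k => absurd rfl k)
      (fun s _ k => absurd (fun y hy => by rw [mem_bot.1 hy, one_mul, mul_one]) k) fun y hy k => absurd (mem_bot.1 hy) k
    obtain ⟨F, _, _, -, k, e'⟩ := H.psl
    rw [bot_sup_eq, Nat.card_zpowers, ho, ← pow_succ'] at k
    exact ⟨F, inferInstance, inferInstance, k.imp (fun k => ⟨_, k⟩) fun k => ⟨_, k⟩, e'⟩
  · refine absurd (cz g tM ?_) gz
    obtain ⟨i, e | e⟩ := h.elt ⟨_, tM⟩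
    · exact ⟨i, e.symm⟩
    · refine absurd ?_ z1
      have k1 : (a ^ i * b) ^ 2 = 1 := e ▸ Subtype.ext (c2 g)
      rw [show (a ^ i * b) ^ 2 = a ^ i * (b * a * b⁻¹) ^ i * b ^ 2 by rw [conj_zpow, pow_two, pow_two]; group, k, h1,
        inv_zpow, mul_inv_cancel, one_mul, ← za] at k1
      exact congrArg Subtype.val k1
  · obtain ⟨k1, T, k2, k3, k4⟩ := dqs_sub h h1 k
    have k5 : ((a * b : centralizer {z}) : G) * (a * b : centralizer {z}) = z := congrArg Subtype.val (k1.trans za.symm)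
    have cm : ∀ x ∈ centralizer ({z} : Set G), ∀ y ∈ centralizer ({z} : Set G),
        x * y * x⁻¹ * y⁻¹ ∈ T.map (Subgroup.subtype _) := fun x hx y hy =>
      ⟨_, k2 (commutator_mem_commutator (mem_top ⟨x, hx⟩) (mem_top ⟨y, hy⟩)), rfl⟩
    obtain ⟨w, hw, e⟩ := transfer4 (perf hG) odd cm (a * b).2 (by rw [k5, ← pow_two, z2]) (fun g hg => by
      have e1 : g * z * g⁻¹ = (g * (a * b : centralizer {z}) * g⁻¹) ^ 2 := by rw [conj_pow, pow_two, k5]
      have := cz g (e1 ▸ pow_mem hg 2) (by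
        have := zpowers_le.2 (pow_mem (mem_zpowers a) 2) (h.commutator_eq ▸ h.sq_mem_commutator ⟨_, hg⟩)
        convert this using 1
        exact Subtype.ext e1)
      simpa only [inv_inv, mul_assoc] using cm _ (inv_mem (a * b).2) g (mc.2 (mul_inv_eq_iff_eq_mul.1 this)))
      fun g hg => by
        rw [k5] at hg ⊢
        exact ⟨⟨_, hg⟩, k4 _ (Subtype.ext (c2 g)), rfl⟩
    exact absurd (Subtype.ext e ▸ hw) k3

end CL.Styp
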