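/-
Involution centralizers of symplectic type (project S1758), part III (helper17): `D ∩ C(w) = {z}` is impossible.
-/
import Cfsg.Agent.Even.Styp1

set_option autoImplicit false

namespace CL.Styp

open Cfsg Subgroup CL.Grp CL.Even

universe u

variable {G : Type u} [Group G] {D : Set G} {ρ : G → G}

/-- The setting of part III. -/
structure T3 (D : Set G) (ρ : G → G) (z t : G) (P Q : Subgroup G) : Prop where
  h : Ro D ρ
  hz : z ∈ D
  g : GP z (ρ z) P Q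
  h3 : ∀ s ∈ D, ∀ t ∈ D, Commute s (ρ t) → s = t
  ht : t ∈ D
  tz : Commute t z
  ne : t ≠ z

namespace T3

variable {z t : G} {P Q : Subgroup G} (F : T3 D ρ z t P Q) {s a b c x y : G}
include F

theorem lemF (hs : s ∈ D) (ha : Commute a s) (hb : Commute b s) (a1 : a ≠ 1) (b1 : b ≠ 1) (ab : a * b ≠ 1)
    (h1 : s * a ∈ D) (h2 : s * b ∈ D) (h4 : s * (a * b) ∈ D) : False := by
  have k : ∀ {a}, a ≠ 1 → s * a ∈ D → ¬ Commute a (ρ s) := fun a1 h1 c =>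
    a1 (mul_eq_left.1 (F.h3 _ h1 s hs ((F.h.rt hs).symm.mul_left c)))
  exact k ab h4 (F.h.comm_mul hs ha hb (k a1 h1) (k b1 h2))

theorem invw (hs : s ∈ D) (hc : Commute s z) (hn : s ≠ z) : s * ρ z * s⁻¹ = (ρ z)⁻¹ :=
  (F.h.nr F.hz hc).resolve_left fun k => hn (F.h3 s hs z F.hz k)

theorem tw : t * ρ z * t⁻¹ = (ρ z)⁻¹ := F.invw F.ht F.tz F.ne

theorem ntw : ¬ Commute t (ρ z) := F.h.not_comm_of_inv F.hz F.tw

theorem tinv : t⁻¹ = t := F.h.inv F.ht

theorem dz (hc : c ∈ P) (hs : t * c ∈ D) : t * c * z ∈ D := by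
  have e : ρ z * t = t * (ρ z)⁻¹ := by
    rw [← F.tw, F.tinv, ← mul_assoc, ← mul_assoc, F.h.sq t F.ht, one_mul]
  have := F.h.cjm _ hs (ρ z)
  rwa [← mul_assoc, e, mul_assoc t, ← (F.g.cw c hc).inv_right.eq, mul_assoc, mul_assoc, ← mul_inv_rev, F.g.ww, F.g.zinv,
    ← mul_assoc] at this

theorem tzD : t * z ∈ D := by simpa using F.dz (one_mem _) (by simpa using F.ht)

theorem sq1 (hx : x ∈ P) (hc : Commute x t) : x * x = 1 :=
  (F.g.sq x hx).resolve_right fun e => F.ne (F.h3 z F.hz t F.ht (e ▸ F.h.comm_sq F.ht hc)).symm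

theorem tα (y : G) : t * (t * y * t⁻¹ * y⁻¹) = y * t * y⁻¹ := by
  rw [← mul_assoc, ← mul_assoc, ← mul_assoc, F.h.sq t F.ht, one_mul, F.tinv]

theorem αinv (y : G) : t * (t * y * t⁻¹ * y⁻¹) * t⁻¹ = (t * y * t⁻¹ * y⁻¹)⁻¹ := by rw [F.tα]; group

theorem α1 (hy : y ∈ P) (h2 : t * y * t⁻¹ * y⁻¹ * (t * y * t⁻¹ * y⁻¹) = 1) :
    t * y * t⁻¹ * y⁻¹ ∈ zpowers (ρ z) := by
  by_contra hn
  have hD : t * (t * y * t⁻¹ * y⁻¹) ∈ D := F.tα y ▸ F.h.cjm t F.ht y
  exact F.lemF F.ht (comm_of_cj ((F.αinv y).trans (inv_of_sq h2))).symm F.tz.symm (fun k => hn (k ▸ one_mem _)) F.g.ne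
    (fun k => hn (eq_inv_of_mul_eq_one_left k ▸ inv_mem F.g.z_zp)) hD F.tzD
    (mul_assoc t _ z ▸ F.dz (F.g.comm_mem F.tz hy) hD)

variable {V : Type u} [AddCommGroup V] [Module (ZMod 2) V] (m : Md z (ρ z) P V) {k k' : V}

theorem c2 (hc : c ∈ P) (h2 : c * c = 1) (e : m.A t (m.π c) = m.π c) : Commute c t := by
  have g := F.g
  rcases m.eq_of_π g (g.nP t F.tz c hc) hc (by rw [← m.A_π t F.tz c hc, e]) (by rw [← cj_mul, h2]; group) with k | k
  · exact (comm_of_cj k).symm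
  · have := F.sq1 (mul_mem hc g.wP) (comm_of_cj (by
      rw [cj_mul, k, F.tw, g.winv, mul_assoc, ← mul_assoc z, ← g.wz.eq, mul_assoc, g.zz, mul_one])).symm
    rw [← (g.cw c hc).mul_mul_mul_comm, h2, g.ww, one_mul] at this
    exact absurd this g.ne

theorem iso (e : m.A t k = k) (e' : m.A t k' = k') : m.B k k' = 0 := by
  obtain ⟨c, hc, c1, rfl⟩ := m.exists_inv F.g k
  obtain ⟨d, hd, d1, rfl⟩ := m.exists_inv F.g k'
  have := F.sq1 (mul_mem hc hd) ((F.c2 m hc c1 e).mul_left (F.c2 m hd d1 e'))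
  refine (m.B_zero c hc d hd).2 ?_
  rw [Commute, SemiconjBy, ← inv_of_sq this, mul_inv_rev, inv_of_sq c1, inv_of_sq d1]

theorem Nfix (v : V) : m.A t (m.A t v + v) = m.A t v + v := by
  rw [map_add, ← m.A_mul F.g F.tz F.tz, F.h.sq t F.ht, m.A_one, add_comm]

theorem αsq (hy : y ∈ P) (e : m.A t (m.π y) ≠ m.π y) : t * y * t⁻¹ * y⁻¹ * (t * y * t⁻¹ * y⁻¹) = z :=
  (F.g.sq _ (F.g.comm_mem F.tz hy)).resolve_left fun k => e ((m.A_eq_iff F.g F.tz hy).2 (F.α1 hy k))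

theorem two (e : m.A t k ≠ k) (e' : m.A t k' ≠ k') : m.A t (k + k') = k + k' := by
  have g := F.g
  obtain ⟨x, hx, rfl⟩ := m.surj k
  obtain ⟨y, hy, rfl⟩ := m.surj k'
  rw [← m.π_mul x hx y hy]
  refine (m.A_eq_iff g F.tz (mul_mem hx hy)).2 (F.α1 (mul_mem hx hy) ?_)
  have xz := g.Qz x (g.PQ hx)
  have c : Commute (t * x * t⁻¹ * x⁻¹) (x * (t * y * t⁻¹ * y⁻¹) * x⁻¹) := by
    rw [← m.B_zero _ (g.comm_mem F.tz hx) _ (g.nP x xz _ (g.comm_mem F.tz hy)), ← m.A_π x xz _ (g.comm_mem F.tz hy),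
      m.A_of_mem g (g.PQ hx), m.π_comm g F.tz hx, m.π_comm g F.tz hy]
    exact F.iso m (F.Nfix m _) (F.Nfix m _)
  rw [show t * (x * y) * t⁻¹ * (x * y)⁻¹ = t * x * t⁻¹ * x⁻¹ * (x * (t * y * t⁻¹ * y⁻¹) * x⁻¹) by group,
    ← c.mul_mul_mul_comm, F.αsq m hx e, ← cj_mul, F.αsq m hy e', xz.mul_inv_cancel, g.zz]

theorem α0 (hy : y ∈ P) (e : m.A t (m.π y) = m.π y) : t * y * t⁻¹ * y⁻¹ = 1 ∨ t * y * t⁻¹ * y⁻¹ = z := by
  have g := F.g
  obtain ⟨c, hc, c1, k⟩ := m.exists_inv g (m.π y)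
  have ct := F.c2 m hc c1 (k ▸ e)
  have e1 : t * y * t⁻¹ * y⁻¹ = t * (y * c⁻¹) * t⁻¹ * (y * c⁻¹)⁻¹ := by
    calc _ = t * (y * c⁻¹) * (c * t⁻¹) * y⁻¹ := by group
      _ = _ := by rw [ct.inv_right.eq]; group
  rw [e1]
  rcases g.mem_zp.1 ((m.π_eq hy hc).1 k.symm) with l | l | l | l <;> rw [l]
  · exact .inl (by group)
  · exact .inl (by rw [F.tz.mul_inv_cancel, mul_inv_cancel])
  · exact .inr (by rw [F.tw, ← mul_inv_rev, g.ww, g.zinv])
  · exact .inr (by rw [cj_inv, F.tw, inv_inv, g.ww])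

theorem ker (e : m.A t k ≠ k) (e' : m.A t k' = k') : k' = 0 ∨ k' = m.A t k + k := by
  have z0 : ∀ {v}, m.A t v = v → m.B v k = 0 → v = 0 := fun {v} hv h0 => m.nondeg F.g fun x => by
    by_cases hx : m.A t x = x
    · exact F.iso m hv hx
    · have := F.iso m hv (F.two m hx e)
      rwa [map_add, h0, add_zero] at this
  refine or_iff_not_imp_left.2 fun h0 => eq_of_add_eq_zero_zmod2 (z0 (by rw [map_add, e', F.Nfix]) ?_)
  rw [map_add, LinearMap.add_apply, zmod2_eq_one_of_ne_zero (mt (z0 e') h0),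
    zmod2_eq_one_of_ne_zero (mt (z0 (F.Nfix m k)) fun l => e (eq_of_add_eq_zero_zmod2 l))]
  rfl

end T3

/-- The configuration of steps (4) and (5). -/
structure T4 (D : Set G) (ρ : G → G) (z t : G) (P Q : Subgroup G) {V : Type u} [AddCommGroup V] [Module (ZMod 2) V]
    (m : Md z (ρ z) P V) (y a : G) : Prop extends T3 D ρ z t P Q where
  yP : y ∈ P
  ha : a = t * y * t⁻¹ * y⁻¹
  mv : m.A t (m.π y) ≠ m.π y

namespace T4

variable {z t : G} {P Q : Subgroup G} {V : Type u} [AddCommGroup V] [Module (ZMod 2) V] {m : Md z (ρ z) P V} {y a : G}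
  (F : T4 D ρ z t P Q m y a) {q : G}
include F

theorem aP : a ∈ P := F.ha ▸ F.g.comm_mem F.tz F.yP

theorem aa : a * a = z := F.ha ▸ F.toT3.αsq m F.yP F.mv

theorem πa : m.π a = m.A t (m.π y) + m.π y := F.ha ▸ m.π_comm F.g F.tz F.yP

theorem a0 : m.π a ≠ 0 := fun k => F.mv (eq_of_add_eq_zero_zmod2 (F.πa ▸ k))

theorem afix : m.A t (m.π a) = m.π a := F.πa ▸ F.toT3.Nfix m _

theorem kr {k : V} (e : m.A t k = k) : k = 0 ∨ k = m.π a := F.πa ▸ F.toT3.ker m F.mv e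

theorem cP : a * (ρ z)⁻¹ ∈ P := mul_mem F.aP (inv_mem F.g.wP)

theorem πc : m.π (a * (ρ z)⁻¹) = m.π a := by
  rw [m.π_mul _ F.aP _ (inv_mem F.g.wP), m.π_inv F.g.wP, m.π_w F.g, add_zero]

theorem cc : a * (ρ z)⁻¹ * (a * (ρ z)⁻¹) = 1 := by
  rw [← (F.g.cw a F.aP).inv_right.mul_mul_mul_comm, F.aa, ← mul_inv_rev, F.g.ww, mul_inv_cancel]

theorem ct : Commute (a * (ρ z)⁻¹) t := F.toT3.c2 m F.cP F.cc (F.πc ▸ F.afix)

theorem c1 : a * (ρ z)⁻¹ ≠ 1 := fun k => F.a0 (by rw [← F.πc, k, m.π_one])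

theorem c1' : a * (ρ z)⁻¹ * z ≠ 1 := fun k => F.a0 (by rw [← F.πc, ← m.π_mul_z F.g F.cP, k, m.π_one])

theorem n1 : t * ρ z ∉ D := fun h => by
  have g := F.g
  have e : t * ρ z * (a * (ρ z)⁻¹) = t * a := by rw [mul_assoc, ← mul_assoc (ρ z), (g.cw a F.aP).symm.mul_inv_cancel]
  have hD : t * a ∈ D := by rw [F.ha, F.toT3.tα]; exact F.h.cjm t F.ht y
  exact F.toT3.lemF h (F.ct.mul_right (g.cw _ F.cP)) (F.tz.symm.mul_right g.wz.symm) F.c1 g.ne F.c1' (e ▸ hD)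
    (F.toT3.dz g.wP h) (by rw [← mul_assoc, e]; exact F.toT3.dz F.aP hD)

theorem n2 : t * (ρ z)⁻¹ ∉ D := fun h => F.n1 (by
  have := F.toT3.dz (inv_mem F.g.wP) h
  rwa [F.g.winv, mul_assoc, mul_assoc, F.g.zz, mul_one] at this)

theorem n3 : t * (a * (ρ z)⁻¹) ∉ D := fun h =>
  F.toT3.lemF F.ht F.ct F.tz.symm F.c1 F.g.ne F.c1' h F.toT3.tzD (mul_assoc t _ z ▸ F.toT3.dz F.cP h)

theorem n4 : t * (a * (ρ z)⁻¹ * z) ∉ D := fun h => F.n3 (by
  have := F.toT3.dz (mul_mem F.cP F.g.zP) h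
  rwa [mul_assoc, mul_assoc, F.g.zz, mul_one] at this)

theorem big (hB : Big D ρ) : False := by
  obtain ⟨u, uu, hu⟩ := hB z F.hz
  have g := F.g
  have uw : Commute u (ρ z) := uu ▸ (Commute.refl u).mul_right (Commute.refl u)
  have uz : Commute u z := F.h.comm_of_root F.hz uw
  have e : u⁻¹ * t * u = t * (t * u * t⁻¹)⁻¹ * u := by
    rw [← cj_inv, ← mul_assoc, ← mul_assoc, F.h.sq t F.ht, one_mul, F.toT3.tinv]
  have hD := e ▸ F.h.cjm' F.ht u
  rcases hu t F.tz with k | k | k | k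
  · exact F.toT3.ntw (uu ▸ (comm_of_cj k).mul_right (comm_of_cj k))
  · exact F.toT3.ntw (comm_of_cj (by rw [← uu, cj_mul, k, ← uz.mul_mul_mul_comm, g.zz, mul_one]))
  · exact F.n1 (by rwa [k, inv_inv, mul_assoc, uu] at hD)
  · exact F.n2 (by rwa [k, mul_inv_rev, inv_inv, g.zinv, mul_assoc, mul_assoc, uu, ← g.wz.eq, ← g.winv] at hD)

theorem zZ : z ∈ zpowers a := F.aa ▸ mul_mem (mem_zpowers a) (mem_zpowers a)

theorem memZ (hq : q ∈ P) (e : m.π q = m.π a) (h2 : q * q = z) : q ∈ zpowers a := by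
  rcases m.eq_of_π F.g hq F.aP e (h2.trans F.aa.symm) with k | k <;> rw [k]
  exacts [mem_zpowers a, mul_mem (mem_zpowers a) F.zZ]

theorem αZ (hq : q ∈ P) : t * q * t⁻¹ * q⁻¹ ∈ zpowers a := by
  by_cases e : m.A t (m.π q) = m.π q
  · rcases F.toT3.α0 m hq e with k | k <;> rw [k]
    exacts [one_mem _, F.zZ]
  · refine F.memZ (F.g.comm_mem F.tz hq) ?_ (F.toT3.αsq m hq e)
    rw [m.π_comm F.g F.tz hq]
    exact (F.kr (F.toT3.Nfix m _)).resolve_left fun l => e (eq_of_add_eq_zero_zmod2 l)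

theorem DZ (hq : q ∈ P) (hD : t * q ∈ D) : q ∈ zpowers a := by
  have g := F.g
  have e : t * q * t⁻¹ = q⁻¹ := by rw [F.toT3.tinv, eq_inv_iff_mul_eq_one, mul_assoc, F.h.sq _ hD]
  rcases F.kr (k := m.π q) (by rw [m.A_π t F.tz q hq, e, m.π_inv hq]) with k | k
  · rcases g.mem_zp.1 ((m.π_zero q hq).1 k) with l | l | l | l <;> rw [l] at hD ⊢
    exacts [one_mem _, F.zZ, absurd hD F.n1, absurd hD F.n2]
  · refine F.memZ hq k ((g.sq q hq).resolve_left fun l => ?_)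
    rcases m.eq_of_π g hq F.cP (k.trans F.πc.symm) (l.trans F.cc.symm) with l | l <;> rw [l] at hD
    exacts [F.n3 hD, F.n4 hD]

theorem nZ {c j : G} (hc : Commute c z) (e : m.A c (m.π a) = m.π a) (hj : j ∈ zpowers a) : c * j * c⁻¹ ∈ zpowers a := by
  obtain ⟨k, rfl⟩ := hj
  rw [← conj_zpow]
  exact zpow_mem (F.memZ (F.g.nP c hc a F.aP) (by rw [← m.A_π c hc a F.aP, e])
    (by rw [← cj_mul, F.aa, hc.mul_inv_cancel])) k

theorem memQ {c : G} (hc : Commute c z) (e : m.A c (m.π a) = m.π a) : c ∈ Q ∨ c * t ∈ Q := by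
  have g := F.g
  have hV : ∀ v, (v = 0 ∨ v = m.π a) ∨ v = m.π y ∨ v = m.π a + m.π y := fun v => by
    by_cases hv : m.A t v = v
    · exact .inl (F.kr hv)
    · refine .inr ((F.kr (F.toT3.two m hv F.mv)).imp eq_of_add_eq_zero_zmod2 fun l => ?_)
      rw [← l, add_assoc, add_self_zmod2, add_zero]
  have k : ∀ {c}, Commute c z → m.A c (m.π a) = m.π a → m.A c (m.π y) = m.π y → c ∈ Q := fun hc e e' =>
    m.mem_of_fix g hc fun v => by
      rcases hV v with (rfl | rfl) | rfl | rfl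
      exacts [map_zero _, e, e', by rw [map_add, e, e']]
  rcases hV (m.A c (m.π y)) with (l | l) | l | l
  · exact absurd (by rw [m.A_inj g hc (l.trans (map_zero _).symm), map_zero]) F.mv
  · exact absurd (by rw [m.A_inj g hc (l.trans e.symm), F.afix]) F.mv
  · exact .inl (k hc e l)
  · refine .inr (k (hc.mul_left F.tz) (by rw [m.A_mul g hc F.tz, F.afix, e]) ?_)
    rw [m.A_mul g hc F.tz, show m.A t (m.π y) = m.π a + m.π y by rw [F.πa, add_assoc, add_self_zmod2, add_zero],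
      map_add, e, l, ← add_assoc, add_self_zmod2, zero_add]

end T4

theorem T4.eq [Finite G] (hG : commutator G = ⊤) {z t : G} {Q : Subgroup G} {V : Type u} [AddCommGroup V]
    [Module (ZMod 2) V] {m : Md z (ρ z) Q V} {y a : G} (F : T4 D ρ z t Q Q m y a) : False := by
  have g := F.g
  have ti := F.toT3.tinv
  have tt := F.h.sq t F.ht
  let H : Subgroup G :=
    { carrier := {c | Commute c z ∧ m.A c (m.π a) = m.π a}
      one_mem' := ⟨Commute.one_left _, m.A_one _⟩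
      mul_mem' := fun ha hb => ⟨ha.1.mul_left hb.1, by rw [m.A_mul g ha.1 hb.1, hb.2, ha.2]⟩
      inv_mem' := fun {c} hc => ⟨hc.1.inv_left, by conv_lhs => rw [← hc.2, m.A_inv g hc.1]⟩ }
  have QH : Q ≤ H := fun q hq => ⟨g.Qz q hq, m.A_of_mem g hq _⟩
  have tH : t ∈ H := ⟨F.tz, F.afix⟩
  have nt : ∀ {j}, j ∈ zpowers a → t * j * t ∈ zpowers a := fun hj => by
    simpa only [ti] using F.nZ F.tz F.afix hj
  let T : Subgroup G :=
    { carrier := {x | x ∈ zpowers a ∨ x * t ∈ zpowers a}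
      one_mem' := .inl (one_mem _)
      mul_mem' := by
        rintro x x' (h1 | h1) (h2 | h2)
        · exact .inl (mul_mem h1 h2)
        · exact .inr (mul_assoc x x' t ▸ mul_mem h1 h2)
        · refine .inr ?_
          have := mul_mem h1 (nt h2)
          rwa [← mul_assoc, ← mul_assoc, mul_assoc x, tt, mul_one] at this
        · refine .inl ?_
          have := mul_mem h1 (nt h2)
          rwa [mul_assoc t, mul_assoc x', tt, mul_one, ← mul_assoc, mul_assoc x, tt, mul_one] at this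
      inv_mem' := by
        rintro x (h1 | h1)
        · exact .inl (inv_mem h1)
        · refine .inr ?_
          have := nt (inv_mem h1)
          rwa [mul_inv_rev, mul_inv_cancel_left] at this }
  have odd : Odd H.index := g.odd_index (fun _ h => h.1) QH tH (k := 1) (by rw [pow_one, pow_two, tt]) fun c hc h => by
    have e := congrArg (m.A c) h.2
    rw [m.A_mul g (hc.inv_left.mul_left F.tz) hc, m.A_mul g hc.inv_left F.tz, m.A_inv' g hc] at e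
    exact ⟨hc, (F.kr e).resolve_left fun l => F.a0 (m.A_inj g hc (l.trans (map_zero _).symm))⟩
  have cm : ∀ {x x' r}, x ∈ H → x * r * x⁻¹ * r⁻¹ ∈ zpowers a → x' * r * x'⁻¹ * r⁻¹ ∈ zpowers a →
      x * x' * r * (x * x')⁻¹ * r⁻¹ ∈ zpowers a := fun {x x' r} hx h1 h2 => by
    simpa [mul_assoc] using mul_mem (F.nZ hx.1 hx.2 h2) h1
  have cs : ∀ {x r}, x * r * x⁻¹ * r⁻¹ ∈ zpowers a → r * x * r⁻¹ * x⁻¹ ∈ zpowers a := fun h => by
    simpa [mul_assoc] using inv_mem h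
  have ext : ∀ {r}, (∀ q ∈ Q, q * r * q⁻¹ * r⁻¹ ∈ zpowers a) → t * r * t⁻¹ * r⁻¹ ∈ zpowers a →
      ∀ x ∈ H, x * r * x⁻¹ * r⁻¹ ∈ zpowers a := fun h1 h2 x hx => by
    rcases F.memQ hx.1 hx.2 with k | k
    · exact h1 x k
    · have := cm (QH k) (h1 _ k) h2
      rwa [mul_assoc x, tt, mul_one] at this
  have hw := transfer4 hG (T := T) odd (fun x hx r hr => .inl (ext (fun q hq => cs (ext (fun p hp => by
      rcases g.cm p hp q hq with k | k
      · rw [k.mul_inv_cancel, mul_inv_cancel]; exact one_mem _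
      · rw [k, (g.Qz q hq).eq, mul_inv_cancel_right]; exact F.zZ) (F.αZ hq) r hr))
      (cs (ext (fun q hq => cs (F.αZ hq)) (by simp) r hr)) x hx)) (QH g.wP) (by rw [g.ww, g.zz])
    (fun c hc => by
      have e := F.h3 z F.hz _ (F.h.cjm z F.hz c) ((F.h.comm_root F.hz c).1 hc.1.symm)
      rcases g.nw c (comm_of_cj e.symm) with k | k
      · rw [k.mul_inv_cancel, inv_mul_cancel]; exact one_mem _
      · rw [k, ← mul_inv_rev, g.ww, g.zinv]; exact .inl F.zZ)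
    (fun c hc => by
      rw [g.ww] at hc ⊢
      have hD := F.h.cjm z F.hz c
      generalize c * z * c⁻¹ = s at hc hD
      by_cases e : s = z
      · exact .inl (e ▸ F.zZ)
      · refine .inr (F.DZ ((F.memQ hc.1 hc.2).resolve_left fun k => e (F.h3 s hD z F.hz (g.cw s k))) ?_)
        have := F.h.cjm s hD t
        rwa [ti, mul_assoc] at this)
  rcases hw with k | k
  · rcases (mem_zp4 g.zz F.aa).1 k with l | l | l | l
    · exact F.toT3.ntw (l ▸ Commute.one_right _)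
    · exact F.toT3.ntw (by rw [l]; exact F.tz)
    · exact F.a0 (l ▸ m.π_w g)
    · exact F.a0 (by rw [← m.π_inv F.aP, ← l, m.π_w g])
  · exact F.toT3.ntw (g.cw t ((mul_mem_cancel_left g.wP).1 (zpowers_le.2 F.aP k)))

theorem three [Finite G] (hG : commutator G = ⊤) (h : Ro D ρ) {z t : G} (hz : z ∈ D) {P Q : Subgroup G}
    (g : GP z (ρ z) P Q) (hB : P = Q ∨ Big D ρ) (hx : ∃ x ∈ P, x ∉ zpowers (ρ z))
    (h3 : ∀ s ∈ D, ∀ t ∈ D, Commute s (ρ t) → s = t) (ht : t ∈ D) (htz : Commute t z) (hne : t ≠ z) : False := by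
  have F : T3 D ρ z t P Q := ⟨h, hz, g, h3, ht, htz, hne⟩
  obtain ⟨V, _, _, _, ⟨m⟩⟩ := g.exists_md
  obtain ⟨y, hy, e⟩ : ∃ y ∈ P, m.A t (m.π y) ≠ m.π y := by
    by_contra hn
    push Not at hn
    obtain ⟨x, hx, k⟩ := hx
    refine k ((m.π_zero x hx).1 (m.nondeg g fun v => ?_))
    obtain ⟨y, hy, rfl⟩ := m.surj v
    exact F.iso m (hn x hx) (hn y hy)
  have F4 : T4 D ρ z t P Q m y _ := ⟨F, hy, rfl, e⟩
  rcases hB with rfl | hB
  exacts [F4.eq hG, F4.big hB]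

end CL.Styp
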