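/-
Involution centralizers of symplectic type that are not extraspecial: the members of `D` in `Q z` do not
all commute.
-/
import Cfsg.Agent.Even.Styp1

set_option autoImplicit false

namespace CL.Styp

open Cfsg Subgroup CL.Grp CL.Even

universe u

variable {G : Type u} [Group G] [Finite G] {D : Set G} {ρ : G → G} {Q : G → Subgroup G}

/-- The members of `D` in each `Q x` commute. -/
private def IsoAb (D : Set G) (Q : G → Subgroup G) : Prop :=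
  ∀ x ∈ D, ∀ a ∈ D, ∀ b ∈ D, a ∈ Q x → b ∈ Q x → Commute a b

/-- `{1} ∪ (D ∩ Q x)` -/
private def IsoJ (D : Set G) (Q : G → Subgroup G) (x a : G) : Prop := a = 1 ∨ a ∈ D ∧ a ∈ Q x

omit [Finite G] in
private theorem iso_mul (h : Sy D ρ Q) (hn : No2 D ρ Q) (ab : IsoAb D Q) {x a b : G} (hx : x ∈ D)
    (ha : IsoJ D Q x a) (hb : IsoJ D Q x b) : IsoJ D Q x (a * b) := by
  rcases ha with rfl | ha
  · rwa [one_mul]
  rcases hb with rfl | hb
  · rw [mul_one]; exact Or.inr ha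
  by_cases e : a = b
  · exact Or.inl (e ▸ h.sq a ha.1)
  · exact Or.inr ⟨h.adj hn ha.1 hb.1 (ab x hx a ha.1 b hb.1 ha.2 hb.2) e, mul_mem ha.2 hb.2⟩

omit [Finite G] in
private theorem iso_cjJ (h : Sy D ρ Q) {x a : G} (hx : x ∈ D) (c : G) (ha : IsoJ D Q x a) :
    IsoJ D Q (c * x * c⁻¹) (c * a * c⁻¹) :=
  ha.imp (fun e => by simp [e]) fun e => ⟨h.cjm a e.1 c, h.qe x hx c a e.2⟩

omit [Finite G] in
private theorem iso_cj (h : Sy D ρ Q) {a c x : G} (ha : a ∈ D) (hc : Commute c a) :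
    Commute (c * x * c⁻¹) (ρ a) ↔ Commute x (ρ a) := by
  have := h.comm_root (c := c * x * c⁻¹) ha c
  rw [hc.mul_inv_cancel] at this
  exact this.symm.trans ⟨fun e => by simpa [mul_assoc] using comm_cj c⁻¹ e, comm_cj c⟩

omit [Finite G] in
private theorem iso_cm (h : Sy D ρ Q) {z a b : G} (hz : z ∈ D) (ha : Commute a z) (hb : Commute b z) :
    Commute (a * b * a⁻¹ * b⁻¹) (ρ z) := by
  by_cases e : Commute b (ρ z)
  · exact ((iso_cj h hz ha).2 e).mul_left e.inv_left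
  · exact h.comm_mul hz ((ha.mul_left hb).mul_left ha.inv_left) hb.inv_left (fun k => e ((iso_cj h hz ha).1 k))
      fun k => e (Commute.inv_left_iff.1 k)

omit [Finite G] in
private theorem iso_ne {c t x : G} (hc : Commute c x) (hne : t ≠ x) : c * t * c⁻¹ ≠ x := fun e =>
  hne (by simpa using e.trans hc.mul_inv_cancel.symm)

/-- Step 1. -/
private theorem iso_1 (h : Sy D ρ Q) {x t : G} (hx : x ∈ D) (ht : t ∈ D) (hQ : t ∈ Q x) (hne : t ≠ x) :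
    ∃ s ∈ D, s ∈ Q x ∧ ¬ Commute s (ρ t) := by
  by_contra hc
  push Not at hc
  have g := h.gp x hx
  refine h.root_not_mem hx ht hne (h.nrm_set hx (S := {r | ∃ t ∈ D, t ∈ Q x ∧ t ≠ x ∧ (r = ρ t ∨ r = (ρ t)⁻¹) ∧
    ∀ s ∈ D, s ∈ Q x → Commute s (ρ t)}) ?_ ?_ ?_ ?_ _ ⟨t, ht, hQ, hne, Or.inl rfl, hc⟩)
  · rintro r ⟨t, -, -, -, rfl | rfl, a⟩
    exacts [(a x hx g.zQ).symm, (a x hx g.zQ).symm.inv_left]
  · rintro c hc r ⟨t, a1, a2, a3, a4, a5⟩
    refine ⟨_, h.cjm t a1 c, g.nQ c hc t a2, iso_ne hc a3, ?_, fun s hs hs' => (h.comm_root a1 c).1 ?_⟩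
    · rcases a4 with rfl | rfl
      · exact h.eqv t a1 c
      · rw [cj_inv]
        rcases h.eqv t a1 c with e | e <;> rw [e]
        exacts [Or.inr rfl, Or.inl (inv_inv _)]
    · simpa [mul_assoc] using comm_cj c (a5 _ (h.cjm s hs c⁻¹) (g.nQ _ hc.inv_left s hs'))
  · rintro r ⟨t, a1, a2, -, rfl | rfl, -⟩
    · rwa [h.rr t a1]
    · rw [← mul_inv_rev, h.rr t a1]; exact inv_mem a2
  · rintro r ⟨t, a1, a2, -, a3, -⟩ r' ⟨t', b1, -, -, b3, b4⟩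
    have e := h.c0' a1 b1 (b4 t a1 a2)
    have : Commute r r' := by
      rcases a3 with rfl | rfl <;> rcases b3 with rfl | rfl
      exacts [e, e.inv_right, e.inv_left, e.inv_inv]
    rw [this.mul_inv_cancel, mul_inv_cancel]
    exact one_mem _

/-- An element of `J z` centralizing the roots of all points that centralize the root of `t`. -/
private theorem iso_k (h : Sy D ρ Q) (hn : No2 D ρ Q) (ab : IsoAb D Q) {z t k : G} (hz : z ∈ D) (ht : t ∈ D)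
    (hQ : t ∈ Q z) (hk : IsoJ D Q z k) (hβ : ∀ a ∈ D, a ∈ Q z → Commute a (ρ t) → Commute k (ρ a)) :
    (k = 1 ∨ k = z) ∨ k * t = 1 ∨ k * t = z := by
  by_contra hc
  push Not at hc
  obtain ⟨⟨h1, h2⟩, h3, h4⟩ := hc
  obtain ⟨kD, kQ⟩ := hk.resolve_left h1
  obtain ⟨a0, aD, aQ, ha⟩ := iso_1 h hz kD kQ h2
  have ha' : ¬ Commute a0 (ρ t) := fun e => ha (h.c0 kD aD (hβ a0 aD aQ e))
  obtain ⟨lD, lQ⟩ := (iso_mul h hn ab hz hk (Or.inr ⟨ht, hQ⟩)).resolve_left h3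
  obtain ⟨b, bD, bQ, hb⟩ := iso_1 h hz lD lQ h4
  refine hb (h.c0 lD bD ?_)
  by_cases e : Commute b (ρ t)
  · exact (hβ b bD bQ e).mul_left (h.c0 bD ht e)
  have e1 : ¬ Commute b (ρ k) := fun e1 => by
    have hne : b ≠ a0 := fun e2 => ha (e2 ▸ e1)
    have c1 := h.adj hn bD aD (ab z hz b bD a0 aD bQ aQ) hne
    have c2 := h.c0 kD c1 (hβ _ c1 (mul_mem bQ aQ)
      (h.comm_mul ht (ab z hz b bD t ht bQ hQ) (ab z hz a0 aD t ht aQ hQ) e ha'))
    exact ha (by simpa using e1.inv_left.mul_left c2)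
  exact h.comm_mul bD (ab z hz k kD b bD kQ bQ) (ab z hz t ht b bD hQ bQ) (fun k' => e1 (h.c0 kD bD k'))
    fun k' => e (h.c0 ht bD k')

/-- The set used in the last step. -/
private def IsoS (D : Set G) (ρ : G → G) (Q : G → Subgroup G) (z : G) : Set G :=
  {r | Commute r z ∧ r * r ∈ Q z ∧ (∀ b ∈ D, b ∈ Q z → Commute r b ∨ r * b * r⁻¹ = b * z) ∧
    ∃ t ∈ D, t ∈ Q z ∧ t ≠ z ∧ ∃ j u, IsoJ D Q t j ∧ (u = 1 ∨ u = ρ t ∨ u = (ρ t)⁻¹) ∧ r = j * u}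

/-- Step 2. -/
private theorem iso_2 (h : Sy D ρ Q) (hn : No2 D ρ Q) (ab : IsoAb D Q) {z t : G} (hz : z ∈ D) (ht : t ∈ D)
    (hQ : t ∈ Q z) (hne : t ≠ z) : ∃ r ∈ IsoS D ρ Q z, ¬ Commute r (ρ z) := by
  have g := h.gp z hz
  have g' := h.gp t ht
  have zt := h.sym hz ht hQ
  obtain ⟨s, sD, sQ, hs⟩ := iso_1 h hz ht hQ hne
  obtain ⟨s', sD', sQ', hs'⟩ := iso_1 h ht hz zt hne.symm
  have s'z : Commute s' z := ab t ht s' sD' z hz sQ' zt
  have st : Commute s t := ab z hz s sD t ht sQ hQ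
  have vz : Commute (ρ t) z := (h.c0 ht hz (g.cw t hQ)).symm
  have vw : Commute (ρ t) (ρ z) := h.c0' ht hz (g.cw t hQ)
  have s1D := h.cjm s sD s'
  have s1Q := g.nQ s' s'z s sQ
  have s'a : ∀ a ∈ D, Commute a (ρ t) → Commute s' a := fun a ha e => ab t ht s' sD' a ha sQ' (hn t ht a ha e)
  have hk := iso_k h hn ab hz ht hQ (iso_mul h hn ab hz (Or.inr ⟨sD, sQ⟩) (Or.inr ⟨s1D, s1Q⟩)) fun a ha aQ e => by
    have e1 := iso_cj h (x := s) ha (s'a a ha e)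
    by_cases e2 : Commute s (ρ a)
    · exact e2.mul_left (e1.2 e2)
    · exact h.comm_mul ha (ab z hz s sD a ha sQ aQ) (ab z hz _ s1D a ha s1Q aQ) e2 fun k => e2 (e1.1 k)
  have ss : ∀ y, s * (s * y) = y := fun y => by rw [← mul_assoc, h.sq s sD, one_mul]
  have key : ∀ r, (Commute r s ∨ r * s * r⁻¹ = s * z) → (∀ a ∈ D, Commute a (ρ t) → Commute r a) →
      ∀ b ∈ D, b ∈ Q z → Commute r b ∨ r * b * r⁻¹ = b * z := fun r r1 r2 b bD bQ => by
    by_cases e : Commute b (ρ t)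
    · exact Or.inl (r2 b bD e)
    by_cases e' : b = s
    · exact e' ▸ r1
    have c := r2 _ (h.adj hn bD sD (ab z hz b bD s sD bQ sQ) e')
      (h.comm_mul ht (ab z hz b bD t ht bQ hQ) st e hs)
    have eb : b * s * s = b := by rw [mul_assoc, h.sq s sD, mul_one]
    refine r1.imp (fun k => eb ▸ c.mul_right k) fun k => ?_
    conv_lhs => rw [← eb, cj_mul, c.mul_inv_cancel, k, ← mul_assoc, eb]
  rcases hk with hk | hk
  · refine ⟨s', ⟨s'z, h.sq s' sD' ▸ one_mem _, key s' (hk.imp (fun e => comm_of_cj ?_) fun e => ?_) s'a,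
      t, ht, hQ, hne, s', 1, Or.inr ⟨sD', sQ'⟩, Or.inl rfl, (mul_one _).symm⟩, hs'⟩
    · rw [← ss (s' * s * s'⁻¹), e, mul_one]
    · rw [← ss (s' * s * s'⁻¹), e]
  · have e0 : ρ t * s * (ρ t)⁻¹ = s * t := by
      have := (h.nr ht st.inv_left).resolve_left fun k => hs (Commute.inv_left_iff.1 k)
      rw [show ρ t * s * (ρ t)⁻¹ = s * (s⁻¹ * ρ t * s⁻¹⁻¹ * (ρ t)⁻¹) by group, this, ← mul_inv_rev, h.rr t ht, h.inv ht]
    have e1 : s' * ρ t * s * (s' * ρ t)⁻¹ = s * (s * (s' * s * s'⁻¹) * t) := by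
      rw [show s' * ρ t * s * (s' * ρ t)⁻¹ = s' * (ρ t * s * (ρ t)⁻¹) * s'⁻¹ by group, e0, cj_mul,
        (g'.Qz s' sQ').mul_inv_cancel, mul_assoc s, ss]
    refine ⟨s' * ρ t, ⟨s'z.mul_left vz, ?_, key _ (hk.imp (fun e => comm_of_cj ?_) fun e => ?_)
      fun a ha e => (s'a a ha e).mul_left e.symm, t, ht, hQ, hne, s', ρ t, Or.inr ⟨sD', sQ'⟩,
      Or.inr (Or.inl rfl), rfl⟩, fun e => hs' (by simpa using e.mul_left vw.inv_left)⟩
    · rwa [← (g'.cw s' sQ').mul_mul_mul_comm, h.sq s' sD', h.rr t ht, one_mul]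
    · rw [e1, e, mul_one]
    · rw [e1, e]

/-- Step 3. -/
private theorem iso_3 (h : Sy D ρ Q) (hn : No2 D ρ Q) (ab : IsoAb D Q) {z : G} (hz : z ∈ D) :
    ∀ r ∈ IsoS D ρ Q z, r ∈ Q z := by
  have g := h.gp z hz
  refine h.nrm_set hz (fun r hr => hr.1) ?_ (fun r hr => hr.2.1) ?_
  · rintro c hc r ⟨a1, a2, a3, t, tD, tQ, tz, j, u, hj, hu, e⟩
    refine ⟨(hc.mul_left a1).mul_left hc.inv_left, cj_mul c r r ▸ g.nQ c hc _ a2, fun b bD bQ => ?_,
      _, h.cjm t tD c, g.nQ c hc t tQ, iso_ne hc tz, _, c * u * c⁻¹, iso_cjJ h tD c hj, ?_, by rw [e, cj_mul]⟩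
    · refine (a3 _ (h.cjm b bD c⁻¹) (g.nQ _ hc.inv_left b bQ)).imp (fun k => ?_) fun k => ?_
      · simpa [mul_assoc] using comm_cj c k
      · rw [show c * r * c⁻¹ * b * (c * r * c⁻¹)⁻¹ = c * (r * (c⁻¹ * b * c⁻¹⁻¹) * r⁻¹) * c⁻¹ by group, k, cj_mul,
          hc.mul_inv_cancel]
        group
    · rcases hu with rfl | rfl | rfl
      · exact Or.inl (by simp)
      · exact Or.inr (h.eqv t tD c)
      · rw [cj_inv]
        rcases h.eqv t tD c with e | e <;> rw [e]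
        exacts [Or.inr (Or.inr rfl), Or.inr (Or.inl (inv_inv _))]
  · rintro r1 ⟨a1, -, a3, -⟩ r2 ⟨b1, -, -, t, tD, tQ, tz, j, u, hj, hu, e⟩
    obtain ⟨q, qQ, hq⟩ : ∃ q ∈ Q z, Commute (r1 * q) t := by
      rcases a3 t tD tQ with k | k
      · exact ⟨1, one_mem _, by rwa [mul_one]⟩
      · obtain ⟨q, qQ, hq⟩ := h.exists_cj hz tD tQ tz
        refine ⟨q, qQ, comm_of_cj ?_⟩
        rw [show r1 * q * t * (r1 * q)⁻¹ = r1 * (q * t * q⁻¹) * r1⁻¹ by group, hq, cj_mul, k, a1.mul_inv_cancel,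
          mul_assoc, g.zz, mul_one]
    have gz : Commute (r1 * q) z := a1.mul_left (g.Qz q qQ)
    set c := r1 * q with hc
    have tJ : IsoJ D Q t t := Or.inr ⟨tD, h.self tD⟩
    have j1 : IsoJ D Q t (c * j * c⁻¹) := by
      have := iso_cjJ h tD c hj
      rwa [hq.mul_inv_cancel] at this
    have j2 : IsoJ D Q t j⁻¹ := hj.imp (fun k => by simp [k]) fun k => by rwa [h.inv k.1]
    have j3 : IsoJ D Q t (c * u * c⁻¹ * u⁻¹) := by
      rcases h.nr tD hq with k | k <;> rcases hu with rfl | rfl | rfl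
      · exact Or.inl (by simp)
      · exact Or.inl (by rw [k.mul_inv_cancel, mul_inv_cancel])
      · exact Or.inl (by rw [k.inv_right.mul_inv_cancel, mul_inv_cancel])
      · exact Or.inl (by simp)
      · rwa [k, ← mul_inv_rev, h.rr t tD, h.inv tD]
      · rwa [cj_inv, k, inv_inv, h.rr t tD]
    have n1 : IsoJ D Q t (c * r2 * c⁻¹ * r2⁻¹) := by
      have := iso_mul h hn ab tD (iso_mul h hn ab tD j1 j3) j2
      rwa [show c * j * c⁻¹ * (c * u * c⁻¹ * u⁻¹) * j⁻¹ = c * (j * u) * c⁻¹ * (j * u)⁻¹ by group, ← e] at this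
    have n2 : c * r2 * c⁻¹ * r2⁻¹ ∈ Q z :=
      n1.elim (fun k => k ▸ one_mem _) fun k => hn z hz _ k.1 (iso_cm h hz gz b1)
    have := mul_mem (g.nQ c gz _ (mul_mem (inv_mem qQ) (g.nQ r2 b1 q qQ))) n2
    rwa [show c * (q⁻¹ * (r2 * q * r2⁻¹)) * c⁻¹ * (c * r2 * c⁻¹ * r2⁻¹) = r1 * r2 * r1⁻¹ * r2⁻¹ by
      rw [hc]; group] at this

theorem nonAb (h : Sy D ρ Q) (hn : No2 D ρ Q) {z t : G} (hz : z ∈ D) (ht : t ∈ D) (hQ : t ∈ Q z) (hne : t ≠ z) :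
    NonAb D Q := fun z' hz' => by
  by_contra hc
  push Not at hc
  have ab : IsoAb D Q := fun x hx a ha b hb ax bx => by
    obtain ⟨g, rfl⟩ := h.tr x hx z' hz'
    simpa [mul_assoc] using comm_cj g⁻¹ (hc _ (h.cjm a ha g) _ (h.cjm b hb g) (h.qe x hx g a ax) (h.qe x hx g b bx))
  obtain ⟨r, hr, hw⟩ := iso_2 h hn ab hz ht hQ hne
  exact hw ((h.gp z hz).cw r (iso_3 h hn ab hz r hr))

end CL.Styp
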