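/-
Involution centralizers of symplectic type: a member of `D` centralizing the root of `z` lies in `Q z`.
-/
import Cfsg.Agent.Even.Styp1

set_option autoImplicit false

namespace CL.Styp

open Cfsg Subgroup CL.Grp CL.Even

universe u

variable {G : Type u} [Group G] [Finite G] {D : Set G} {ρ : G → G} {Q : G → Subgroup G}

theorem no2_s (h : Sy D ρ Q) {z t : G} (hz : z ∈ D) (ht : t ∈ D) (hc : Commute t (ρ z)) (hn : t ∉ Q z) :
    ∃ f ∈ Q z, f * t * f⁻¹ = t * z ∧ ∃ x ∈ Q z, x * t * x⁻¹ = t * ((ρ t)⁻¹ * (f * ρ t * f⁻¹) * ρ z) ∨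
      x * t * x⁻¹ = t * ((ρ t)⁻¹ * (f * ρ t * f⁻¹) * ρ z * z) := by
  have g := h.gp z hz
  obtain ⟨V, _, _, _, ⟨m⟩⟩ := g.exists_md
  have vz : Commute (ρ t) z := (h.c0 ht hz hc).symm
  have tz : Commute t z := h.comm_of_root hz hc
  have ti := h.inv ht
  have tw : ∀ j ∈ zpowers (ρ z), Commute t j := by
    rintro _ ⟨n, rfl⟩
    exact hc.zpow_right n
  have N2 : ∀ u, m.A (ρ t) (m.A (ρ t) u + u) + (m.A (ρ t) u + u) = m.A t u + u := fun u => by
    rw [map_add, ← m.A_mul g vz vz, h.rr t ht, add_assoc, ← add_assoc (m.A (ρ t) u), add_self_zmod2, zero_add]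
  obtain ⟨u, u1, u2⟩ : ∃ u, m.A t u ≠ u ∧ m.A t (m.A (ρ t) u + u) = m.A (ρ t) u + u := by
    obtain ⟨u, hu⟩ := not_forall.1 (mt (m.mem_of_fix g tz) hn)
    by_cases e : m.A t (m.A (ρ t) u + u) = m.A (ρ t) u + u
    · exact ⟨u, hu, e⟩
    · exact ⟨_, e, by rw [N2, map_add, ← m.A_mul g tz tz, h.sq t ht, m.A_one, add_comm]⟩
  obtain ⟨f, hf, e1⟩ := m.surj (m.A (ρ t) u + u)
  obtain ⟨x, hx, rfl⟩ := m.surj u
  have j1 := (m.A_eq_iff g tz hf).1 (by rwa [e1])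
  have e : f * t * f⁻¹ = t * z := by
    refine (g.eq_of_sq j1 ?_).elim (fun e => ?_) fun e => ?_
    · nth_rw 1 [← (tw _ j1).mul_inv_cancel]
      simp [ti, mul_assoc, ← mul_assoc t t, h.sq t ht]
    · rcases h.nr ht (comm_of_cj (mul_inv_eq_one.1 e)).symm with b | b
      · have := m.A_fix vz hf b.symm
        rw [e1] at this
        exact (u1 (eq_of_add_eq_zero_zmod2 (by rw [← N2, this, add_self_zmod2]))).elim
      · have := g.comm_mem vz hf
        rw [show ρ t * f * (ρ t)⁻¹ * f⁻¹ = ρ t * (f * ρ t * f⁻¹)⁻¹ by group, b, inv_inv, h.rr t ht] at this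
        exact (hn this).elim
    · rw [← e, ti]
      simp [mul_assoc, ← mul_assoc t t, h.sq t ht]
  obtain ⟨-, ab, -, k1, k2, -, k4, -⟩ := h.tri hz ht hc hf e rfl rfl
  refine ⟨f, hf, e, x, hx, ?_⟩
  set k := (ρ t)⁻¹ * (f * ρ t * f⁻¹) * ρ z with hk
  have a1 := g.comm_mem tz hx
  have a2 : m.π (t * x * t⁻¹ * x⁻¹) = m.π k := by
    have a := g.comm_mem vz hf
    rw [m.π_comm g tz hx, ← N2, ← e1, ← m.π_comm g vz hf, ← m.π_inv a, ← m.π_mul_w g (inv_mem a), hk, ab.inv_left.eq]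
    congr 2; group
  have a3 : Commute t (t * x * t⁻¹ * x⁻¹) := by
    simpa using (tw _ ((m.π_eq a1 k1).1 a2)).mul_right (h.comm_of_root ht k4).symm
  have a4 : x * t * x⁻¹ = t * (t * x * t⁻¹ * x⁻¹) := by simp [ti, mul_assoc, ← mul_assoc t t, h.sq t ht]
  rw [a4]
  refine (m.eq_of_π g a1 k1 a2 ?_).imp (congrArg _) (congrArg _)
  rw [k2]
  nth_rw 1 [← a3.mul_inv_cancel]
  simp [ti, mul_assoc, ← mul_assoc t t, h.sq t ht]

theorem no2 (h : Sy D ρ Q) : No2 D ρ Q := fun z hz t ht hc => by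
  by_contra hn
  have g := h.gp z hz
  have tz : Commute t z := h.comm_of_root hz hc
  obtain ⟨f, hf, e, x, hx, ex⟩ := no2_s h hz ht hc hn
  obtain ⟨f', hf', e', -⟩ := no2_s h ht hz (h.c0 ht hz hc) (mt (h.sym ht hz) hn)
  obtain ⟨-, -, -, k1, -, k3, k4, k5⟩ := h.tri hz ht hc hf e rfl rfl
  generalize (ρ t)⁻¹ * (f * ρ t * f⁻¹) * ρ z = k at *
  have hD : t * z ∈ D := e ▸ h.cjm t ht f
  have d1 : t * k ∈ D ∧ t * (k * z) ∈ D := by
    have b1 := h.cjm t ht x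
    have b2 := h.cjm _ hD x
    rw [cj_mul, (g.Qz x hx).mul_inv_cancel] at b2
    rcases ex with ex | ex <;> rw [ex] at b1 b2
    · exact ⟨b1, by rwa [← mul_assoc]⟩
    · exact ⟨by rwa [mul_assoc, mul_assoc, g.zz, mul_one] at b2, b1⟩
  obtain ⟨d, b1, b2, b3, b4, b5⟩ : ∃ d ∈ Q z, d ∈ Q t ∧ f * d * f⁻¹ = d * z ∧ Commute d t ∧ t * d ∈ D := by
    rcases k5 f' hf' e' with b | b
    · exact ⟨k, k1, b, k3, h.comm_of_root ht k4, d1.1⟩
    · exact ⟨_, mul_mem k1 g.zQ, b, by rw [cj_mul, k3, (g.Qz f hf).mul_inv_cancel],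
        (h.comm_of_root ht k4).mul_left tz.symm, d1.2⟩
  have dD : d ∈ D := by
    have := h.mul_mem_D ht b5 (mul_mem (h.self ht) b2) fun e => g.not_comm_of_cj b3 (by simp [mul_eq_left.1 e])
    rwa [← b4.eq, mul_assoc, h.sq t ht, mul_one] at this
  have c1 : d ∈ Q (t * z) := h.sym dD hD (mul_mem (h.sym ht dD b2) (h.sym hz dD b1))
  have c2 := h.qe t ht f d b2
  rw [e, b3] at c2
  exact hn (by simpa using mul_mem (h.sym hD hz (by simpa using mul_mem (inv_mem c1) c2)) (inv_mem g.zQ))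

end CL.Styp
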