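/-
Involution centralizers of symplectic type that are not extraspecial: the data given by P. Hall's theorem.
-/
import Cfsg.Agent.Even.Styp2

set_option autoImplicit false

namespace CL.Styp

open Cfsg Subgroup CL.Grp CL.Even

universe u

variable {G : Type u} [Group G] [Finite G]

theorem hall_data (hQ : IsOfSymplecticType G) {z : G} (hz : orderOf z = 2) (hc : z ∈ center G) :
    IsExtraspecial 2 G ∨ (∀ x : G, x = 1 ∨ x = z) ∨ ∃ (a b : G) (n : ℕ) (E : Subgroup G), HD z a b n E ⊤ ∧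
      ((∀ e ∈ E, e = 1 ∨ e = z) → IsCyclic G ∨ ∃ (n : ℕ) (a b : G), 3 ≤ n ∧ DQSGen n a b) := by
  have : Fact (Nat.Prime 2) := ⟨Nat.prime_two⟩
  have z1 : ∀ x ∈ center G, x ^ 2 = 1 → x = 1 ∨ x = z := fun x hx h2 => (mem_zpowers_two hz).1
    (mem_zpowers_of_isCyclic_of_pow_eq_one (hQ.2 (center G) inferInstance inferInstance) hc hz hx h2)
  obtain ⟨E, hEn, htop, hE, hR⟩ := symplectic_type_structure hQ.1 hQ.2
  set R := centralizer (E : Set G) with hRd
  have elt : ∀ x, ∃ e ∈ E, ∃ r ∈ R, e * r = x := fun x => mem_sup_of_normal_left.mp (htop ▸ mem_top x)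
  have cen : ∀ y ∈ R, (∀ r ∈ R, Commute r y) → y ∈ center G := fun y h1 h2 => mem_center_iff.2 fun x => by
    obtain ⟨e, he, r, hr, rfl⟩ := elt x
    exact Commute.mul_left (h1 e he) (h2 r hr)
  have zR : z ∈ R := center_le_centralizer _ hc
  have inf : ∀ e ∈ E ⊓ R, e = 1 ∨ e = z := fun e he => by
    refine z1 e (cen e he.2 fun r hr => (hr e he.1).symm) ?_
    rcases hE with rfl | hE
    · rw [mem_bot.1 he.1, one_pow]
    · exact extra_pow_eq_one_of_mem_inf hE he
  have last : (IsCyclic R ∨ ∃ (n : ℕ) (a b : R), 3 ≤ n ∧ DQSGen n a b) → (∀ e ∈ E, e = 1 ∨ e = z) →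
      IsCyclic G ∨ ∃ (n : ℕ) (a b : G), 3 ≤ n ∧ DQSGen n a b := fun h h' => by
    have : R = ⊤ := eq_top_iff.2 fun x _ e he => by
      rcases h' e he with rfl | rfl
      exacts [by simp, (mem_center_iff.1 hc x).symm]
    let φ : R ≃* G := (MulEquiv.subgroupCongr this).trans topEquiv
    exact h.imp (fun k => φ.isCyclic.1 k) fun ⟨n, a, b, h1, h2⟩ =>
      ⟨n, _, _, h1, h2.map_equiv φ⟩
  have mk : ∀ (a b : R) (n : ℕ), orderOf a = 2 ^ (n + 2) → (∀ r : R, Commute r (a ^ 2 ^ (n + 1))) →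
      (∀ r : R, ∃ i : ℤ, r = a ^ i ∨ r = a ^ i * b) → (b = 1 ∨ 1 ≤ n ∧ b * (a * a) * b⁻¹ = (a * a)⁻¹ ∧
        ∀ i : ℤ, (a ^ i * b) ^ 2 ∈ zpowers (a ^ 2 ^ (n + 1))) → HD z a b n E ⊤ := fun a b n h1 h2 h3 h4 => by
    have o2 : orderOf (a ^ 2 ^ (n + 1)) = 2 := by
      rw [orderOf_pow_prime_pow two_ne_zero h1 (by omega)]; simp
    have az : (a : G) ^ 2 ^ (n + 1) = z := (z1 _ (cen _ (pow_mem a.2 _) fun r hr =>
      congrArg Subtype.val (h2 ⟨r, hr⟩)) (congrArg Subtype.val (orderOf_dvd_iff_pow_eq_one.1 o2.dvd :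
        (a ^ 2 ^ (n + 1)) ^ 2 = 1))).resolve_left fun e => by
          simp [show a ^ 2 ^ (n + 1) = 1 from Subtype.ext e] at o2
    refine ⟨by rw [orderOf_coe, h1], az, le_top, mem_top _, mem_top _, fun e he => a.2 e he, fun e he => b.2 e he,
      fun e he => ?_, fun e he e' he' => ?_, fun e he h => inf e ⟨he, fun e' he' => (h e' he').symm⟩,
      fun x _ => ?_, h4.imp (congrArg Subtype.val) fun ⟨k1, k2, k3⟩ => ⟨k1, congrArg Subtype.val k2, fun i => ?_⟩,
      fun x _ => mem_center_iff.1 hc x, fun _ _ _ _ => mem_top _, fun _ _ _ => mem_top _,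
      fun _ _ _ _ => le_top, hQ.1.to_subgroup ⊤⟩
    · rcases hE with rfl | hE
      · simp [mem_bot.1 he]
      · exact pow_two e ▸ inf _ (extra_pow_mem_inf hE he)
    · rcases hE with rfl | hE
      · simp [mem_bot.1 he]
      · exact (inf _ (extra_comm_mem_inf hE he he')).imp commutatorElement_eq_one_iff_mul_comm.1 fun k => by
          rw [mem_center_iff.1 hc, ← k, commutatorElement_def]; group
    · obtain ⟨e, he, r, hr, rfl⟩ := elt x
      obtain ⟨i, k⟩ := h3 ⟨r, hr⟩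
      refine ⟨e, he, i, k.imp (fun k => ?_) fun k => ?_⟩ <;> rw [show r = _ from congrArg Subtype.val k] <;>
        simp [mul_assoc]
    · have := ((mem_zpowers_two o2).1 (k3 i)).imp (congrArg Subtype.val) (congrArg Subtype.val)
      simpa [pow_two, az] using this
  rcases hR with hR | ⟨-, N, a, b, hN, h⟩
  · obtain ⟨a, ha⟩ := IsCyclic.exists_generator (α := R)
    have cm : ∀ x y : R, Commute x y := fun x y => by
      obtain ⟨i, rfl⟩ := ha x
      obtain ⟨j, rfl⟩ := ha y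
      exact Commute.zpow_zpow_self _ _ _
    obtain ⟨j, hj⟩ := IsPGroup.iff_orderOf.1 (hQ.1.to_subgroup R) a
    rcases j with _ | _ | n
    · obtain ⟨k, hk⟩ := ha ⟨z, zR⟩
      rw [pow_zero, orderOf_eq_one_iff] at hj
      simp [← show ((1 : R) : G) = z by rw [← one_zpow k, ← hj]; exact congrArg Subtype.val hk] at hz
    · have RZ : ∀ r ∈ R, r = 1 ∨ r = z := fun r hr => z1 r (cen r hr fun r' hr' => congrArg Subtype.val
        (cm ⟨r', hr'⟩ ⟨r, hr⟩)) (by
          obtain ⟨k, hk⟩ := ha ⟨r, hr⟩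
          have : (a ^ k) ^ 2 = 1 := by
            rw [← zpow_natCast, ← zpow_mul, mul_comm, zpow_mul, zpow_natCast, ← pow_one 2, ← hj,
              pow_orderOf_eq_one, one_zpow]
          exact congrArg Subtype.val (hk ▸ this : (⟨r, hr⟩ : R) ^ 2 = 1))
      rcases hE with rfl | hE
      · refine .inr (.inl fun x => ?_)
        obtain ⟨e, he, r, hr, rfl⟩ := elt x
        simpa [mem_bot.1 he] using RZ r hr
      · have zE : z ∈ E := by
          by_contra hn
          have : E ⊓ R = ⊥ := eq_bot_iff.2 fun e he => (inf e he).resolve_right fun k => hn (k ▸ he.1)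
          simpa [← hRd, this] using extra_card_inf_centralizer hE
        have : E = ⊤ := eq_top_iff.2 (htop ▸ sup_le le_rfl fun r hr => by
          rcases RZ r hr with rfl | rfl
          exacts [one_mem _, zE])
        subst this
        exact .inl (extra_of_mulEquiv hE topEquiv)
    · exact .inr (.inr ⟨a, (1 : R), n, E, mk a 1 n hj (fun r => cm _ _)
        (fun r => (ha r).imp fun i hi => .inl hi.symm) (.inl rfl), last (.inl hR)⟩)
  · obtain ⟨n, rfl⟩ : ∃ n, N = n + 2 := ⟨N - 2, by omega⟩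
    refine .inr (.inr ⟨a, b, n, E, mk a b n h.ord (fun r => mem_center_iff.1 (h.center_eq ▸ mem_zpowers _) r)
      h.elt (.inr ⟨by omega, ?_, fun i => h.sq_mem_of_notMem (h.zpow_mul_notMem i)⟩), last (.inr ⟨_, a, b, hN, h⟩)⟩)
    simpa [pow_two] using h.conj_sq 1

theorem red1 {z : G} (hz : orderOf z = 2)
    (hQ : IsOfSymplecticType (generalizedFittingSubgroup (centralizer ({z} : Set G)))) :
    IsExtraspecial 2 (generalizedFittingSubgroup (centralizer ({z} : Set G))) ∨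
      (IsPGroup 2 (centralizer ({z} : Set G)) ∧ IsCyclic (centralizer ({z} : Set G))) ∨
      ∃ (a b : G) (n : ℕ) (E Q : Subgroup G), HD z a b n E Q ∧
        ((∀ e ∈ E, e = 1 ∨ e = z) → IsCyclic Q ∨ ∃ (n : ℕ) (a b : Q), 3 ≤ n ∧ DQSGen n a b) := by
  set M := centralizer ({z} : Set G)
  have hzC : z ∈ M := mem_cent_singleton.2 rfl
  let ζ : generalizedFittingSubgroup M := ⟨⟨z, hzC⟩, CL.Loc.fitting_le_fstar (center_le_fittingSubgroup
    (mem_center_iff.2 fun c => Subtype.ext (mem_cent_singleton.1 c.2)))⟩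
  let φ := (generalizedFittingSubgroup M).equivMapOfInjective M.subtype M.subtype_injective
  let f := M.subtype.comp (generalizedFittingSubgroup M).subtype
  have hf : Function.Injective f := fun a b e => Subtype.ext (Subtype.ext e)
  have mQ : ∀ x ∈ CL.Loc.fstarOf M, ∃ y, f y = x := fun x ⟨y, hy, e⟩ => ⟨⟨y, hy⟩, e⟩
  have mQ' : ∀ y, f y ∈ CL.Loc.fstarOf M := fun y => ⟨y, y.2, rfl⟩
  have hcQ : ∀ c, Commute c z → (∀ x ∈ CL.Loc.fstarOf M, Commute c x) → c ∈ CL.Loc.fstarOf M :=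
    fun c hc hc' => CL.Loc.fittingOf_le_fstarOf _ (CL.Loc.inf_centralizer_fstarOf_le _
      ⟨mem_cent_singleton.2 hc, fun x hx => (hc' x hx).symm⟩)
  rcases hall_data hQ (z := ζ) (by rw [← orderOf_injective f hf]; exact hz) (mem_center_iff.2 fun c =>
    hf (mem_cent_singleton.1 c.1.2)) with h | h | ⟨a, b, n, E, h, h'⟩
  · exact .inl h
  · have : M = zpowers z := le_antisymm (fun c hc => by
      obtain ⟨y, rfl⟩ := mQ c (hcQ c (mem_cent_singleton.1 hc) fun x hx => by
        obtain ⟨y, rfl⟩ := mQ x hx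
        rcases h y with rfl | rfl
        exacts [map_one f ▸ Commute.one_right _, mem_cent_singleton.1 hc])
      rcases h y with rfl | rfl
      exacts [map_one f ▸ one_mem _, mem_zpowers z]) (zpowers_le.2 hzC)
    rw [this]
    exact .inr (.inl ⟨IsPGroup.of_card (n := 1) (by rw [Nat.card_zpowers, hz]; rfl), inferInstance⟩)
  have s : ∀ {p : G → Prop}, (∀ x ∈ E.map f, p x) ↔ ∀ x ∈ E, p (f x) := Set.forall_mem_image
  have c : ∀ {a b}, Commute (f a) (f b) ↔ Commute a b := fun {a b} => by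
    simp only [Commute, SemiconjBy, ← map_mul, hf.eq_iff]
  have one : ∀ {a}, f a = 1 ↔ a = 1 := map_eq_one_iff f hf
  refine .inr (.inr ⟨f a, f b, n, E.map f, CL.Loc.fstarOf M, (?_ : HD (f ζ) _ _ _ _ _), fun k => ?_⟩)
  · refine ⟨by rw [orderOf_injective f hf, h.ord], by rw [← map_pow, h.az], s.2 fun x _ => mQ' x, mQ' a, mQ' b,
      ?_, ?_, ?_, ?_, ?_, fun x hx => ?_, ?_, fun x hx => mem_cent_singleton.1 (CL.Loc.fstarOf_le _ hx),
      fun c hc x hx => (mem_normalizer_iff.1 (CL.Loc.le_normalizer_fstarOf M (mem_cent_singleton.2 hc)) x).1 hx,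
      hcQ, fun K k1 k2 k3 => (le_pCoreOf (fun k hk => mem_cent_singleton.2 (k1 k hk)) (fun c hc => ?_) k3).trans
        (map_mono (CL.Loc.pCore_le_fstar 2)), hQ.1.of_equiv φ⟩
    any_goals simp only [s, c, one, ← map_mul, ← map_inv, ← map_zpow, hf.eq_iff]
    exacts [h.Ea, h.Eb, h.Esq, h.Ecm, h.Ecen, by
      obtain ⟨y, rfl⟩ := mQ x hx
      obtain ⟨e, he, i, k⟩ := h.elt y (mem_top y)
      exact ⟨_, mem_map_of_mem f he, i, k.imp (fun k => by simp [k]) fun k => by simp [k]⟩, h.rel,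
      mem_normalizer_iff.2 fun x => ⟨k2 c (mem_cent_singleton.1 hc) x, fun hx => by
        simpa [mul_assoc] using k2 c⁻¹ (Commute.inv_left (mem_cent_singleton.1 hc)) _ hx⟩]
  · exact (h' fun e he => (k _ (mem_map_of_mem f he)).imp one.1 fun k => hf k).imp
      (fun k => φ.isCyclic.1 k) fun ⟨n, a, b, h1, h2⟩ =>
        ⟨n, _, _, h1, h2.map_equiv φ⟩

end CL.Styp
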