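/-
Involution centralizers of symplectic type that are not extraspecial: from Hall's structure to `GP`.
-/
import Cfsg.Agent.Even.Styp2

set_option autoImplicit false

namespace CL.Styp

open Cfsg Subgroup CL.Grp CL.Even

universe u

variable {G : Type u} [Group G]

theorem zp_comm {a x y : G} (hx : x ∈ zpowers a) (hy : y ∈ zpowers a) : Commute x y := by
  obtain ⟨i, rfl⟩ := hx
  obtain ⟨j, rfl⟩ := hy
  exact Commute.zpow_zpow_self _ _ _

theorem comm_zp {a x y : G} (h : Commute x a) (hy : y ∈ zpowers a) : Commute x y := by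
  obtain ⟨j, rfl⟩ := hy
  exact h.zpow_right j

theorem comm_pow_of {c x : G} {N : ℕ} (hc : Commute c (c * x * c⁻¹ * x⁻¹)) (hN : (c * x * c⁻¹ * x⁻¹) ^ N = 1) :
    Commute (c ^ N) x := by
  have : ∀ i : ℕ, c ^ i * x * (c ^ i)⁻¹ = (c * x * c⁻¹ * x⁻¹) ^ i * x := fun i => by
    induction i with
    | zero => simp
    | succ i ih =>
      rw [pow_succ', show c * c ^ i * x * (c * c ^ i)⁻¹ = c * (c ^ i * x * (c ^ i)⁻¹) * c⁻¹ by group, ih,
        cj_mul, (hc.pow_right i).mul_inv_cancel, pow_succ]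
      group
  exact comm_of_cj (by rw [this, hN, one_mul])

namespace HD

variable {z a b : G} {n : ℕ} {E Q : Subgroup G} (h : HD z a b n E Q) {x c : G}
include h

theorem ww : a ^ 2 ^ n * a ^ 2 ^ n = z := by rw [← pow_add, ← two_mul, ← pow_succ', h.az]

theorem oz : orderOf z = 2 := by
  rw [← h.az, orderOf_pow_prime_pow two_ne_zero h.ord (by omega)]; simp

theorem zz : z * z = 1 := mul_self_of_orderOf_two h.oz

theorem ne : z ≠ 1 := fun e => by simpa [e] using h.oz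

theorem za : z ∈ zpowers a := h.az ▸ pow_mem (mem_zpowers a) _

theorem z1 (hx : x ∈ zpowers a) (e : x * x = 1) : x = 1 ∨ x = z := by
  have := mem_zpowers_pow_of_pow_eq_one two_ne_zero h.ord hx (by rw [pow_two, e])
  rwa [h.az, mem_zpowers_two h.oz] at this

theorem z2 (hx : x ∈ zpowers a) (e : x * x = 1 ∨ x * x = z) : x ∈ zpowers (a ^ 2 ^ n) := by
  have wa : a ^ 2 ^ n ∈ zpowers a := pow_mem (mem_zpowers a) _
  have zw : z ∈ zpowers (a ^ 2 ^ n) := h.ww ▸ mul_mem (mem_zpowers _) (mem_zpowers _)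
  rcases e with e | e
  · rcases h.z1 hx e with rfl | rfl
    exacts [one_mem _, zw]
  · have := h.z1 (mul_mem hx wa) (by rw [(zp_comm wa hx).mul_mul_mul_comm, e, h.ww, h.zz])
    rw [← mul_mem_cancel_right (mem_zpowers (a ^ 2 ^ n))]
    rcases this with k | k <;> rw [k]
    exacts [one_mem _, zw]

theorem bw (hb : b ≠ 1) : b * a ^ 2 ^ n * b⁻¹ = (a ^ 2 ^ n)⁻¹ := by
  obtain ⟨h1, h2, -⟩ := h.rel.resolve_left hb
  obtain ⟨k, rfl⟩ := Nat.exists_eq_add_of_le' h1
  rw [pow_succ', pow_mul, pow_two, ← conj_pow, h2, inv_pow]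

theorem elt0 (hx : x ∈ Q) (e : Commute x (a ^ 2 ^ n)) : ∃ e ∈ E, ∃ j ∈ zpowers a, x = e * j := by
  obtain ⟨e, he, i, k | k⟩ := h.elt x hx
  · exact ⟨e, he, _, ⟨i, rfl⟩, k⟩
  by_cases hb : b = 1
  · exact ⟨e, he, _, ⟨i, rfl⟩, by rw [k, hb, mul_one]⟩
  have := (((h.Ea e he).mul_left ((Commute.refl a).zpow_left i)).pow_right (2 ^ n)).inv_left.mul_left
    (k ▸ ‹Commute x _›)
  rw [inv_mul_cancel_left] at this
  refine absurd ?_ h.ne
  rw [← h.ww]
  nth_rewrite 1 [← this.mul_inv_cancel]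
  rw [h.bw hb, inv_mul_cancel]

theorem cen0 (hx : x ∈ Q) (e0 : Commute x (a ^ 2 ^ n)) (hE : ∀ e ∈ E, Commute x e) : x ∈ zpowers a := by
  obtain ⟨e, he, j, hj, rfl⟩ := h.elt0 hx e0
  refine mul_mem ?_ hj
  rcases h.Ecen e he fun e' he' => by
    simpa using (hE e' he').mul_left (comm_zp (h.Ea e' he') hj).symm.inv_left with rfl | rfl
  exacts [one_mem _, h.za]

theorem sq_mem (hx : x ∈ Q) : x * x ∈ zpowers a := by
  have a1 : ∀ e ∈ E, e * e ∈ zpowers a := fun e he => by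
    rcases h.Esq e he with k | k <;> rw [k]
    exacts [one_mem _, h.za]
  have a2 : ∀ e ∈ E, ∀ i : ℤ, e * a ^ i * (e * a ^ i) ∈ zpowers a := fun e he i => by
    rw [((h.Ea e he).zpow_right i).symm.mul_mul_mul_comm]
    exact mul_mem (a1 e he) (mul_mem ⟨i, rfl⟩ ⟨i, rfl⟩)
  obtain ⟨e, he, i, rfl | rfl⟩ := h.elt x hx
  · exact a2 e he i
  rcases h.rel with hb | ⟨-, -, hb⟩
  · rw [hb, mul_one]; exact a2 e he i
  rw [mul_assoc e, (((h.Ea e he).zpow_right i).mul_right (h.Eb e he)).symm.mul_mul_mul_comm]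
  refine mul_mem (a1 e he) ?_
  rcases hb i with k | k <;> rw [k]
  exacts [one_mem _, h.za]

theorem cj_a (hc : Commute c z) (hw : ∀ x ∈ Q, Commute x (a ^ 2 ^ n) → Commute (c⁻¹ * x * c) (a ^ 2 ^ n)) :
    c * a * c⁻¹ ∈ zpowers a := by
  have : ∀ x ∈ Q, Commute x (a ^ 2 ^ n) → Commute (c * a * c⁻¹) x := fun x hx e => by
    obtain ⟨e, he, j, hj, k⟩ := h.elt0 (by simpa using h.nQ _ hc.inv_left x hx) (hw x hx e)
    have := comm_cj c (k ▸ (h.Ea e he).symm.mul_right (zp_comm (mem_zpowers a) hj))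
    simpa [mul_assoc] using this
  exact h.cen0 (h.nQ c hc a h.aQ) (this _ (pow_mem h.aQ _) (Commute.refl _)) fun e he =>
    this e (h.EQ he) ((h.Ea e he).pow_right _)

theorem nw (hc : Commute c z) : Commute c (a ^ 2 ^ n) ∨ c * a ^ 2 ^ n * c⁻¹ = (a ^ 2 ^ n)⁻¹ := by
  have a1 : c * a ^ 2 ^ n * c⁻¹ ∈ zpowers a := by
    rcases h.rel with hb | ⟨h1, -⟩
    · rw [← conj_pow]
      refine pow_mem (h.cj_a hc fun x hx _ => ?_) _
      obtain ⟨e, he, i, k | k⟩ := h.elt (c⁻¹ * x * c) (by simpa using h.nQ _ hc.inv_left x hx) <;> rw [k]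
      · exact ((h.Ea e he).mul_left ((Commute.refl a).zpow_left i)).pow_right _
      · rw [hb, mul_one]; exact ((h.Ea e he).mul_left ((Commute.refl a).zpow_left i)).pow_right _
    · obtain ⟨k, rfl⟩ := Nat.exists_eq_add_of_le' h1
      rw [pow_succ', pow_mul, pow_two, ← conj_pow, cj_mul]
      exact pow_mem (h.sq_mem (h.nQ c hc a h.aQ)) _
  have a2 : c * a ^ 2 ^ n * c⁻¹ * (c * a ^ 2 ^ n * c⁻¹) = z := by rw [← cj_mul, h.ww, hc.mul_inv_cancel]
  rcases (mem_zp4 h.zz h.ww).1 (h.z2 a1 (Or.inr a2)) with k | k | k | k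
  · exact absurd (by rw [← a2, k, mul_one]) h.ne
  · exact absurd (by rw [← a2, k, h.zz]) h.ne
  exacts [Or.inl (comm_of_cj k), Or.inr k]

theorem comm_w (hc : Commute c z) (e : Commute x (a ^ 2 ^ n)) : Commute (c * x * c⁻¹) (a ^ 2 ^ n) := by
  have := comm_cj c e
  rcases h.nw hc with k | k
  · rwa [k.mul_inv_cancel] at this
  · rwa [k, Commute.inv_right_iff] at this

theorem na (hc : Commute c z) : c * a * c⁻¹ ∈ zpowers a :=
  h.cj_a hc fun x _ e => by simpa using h.comm_w hc.inv_left e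

theorem good_a (hc : Commute c z) : ∃ s, Commute (c ^ 2 ^ s) a := by
  have : ∀ i ≤ n + 2, ∃ s, Commute (c ^ 2 ^ s) (a ^ 2 ^ i) := fun i hi => by
    induction hi using Nat.decreasingInduction with
    | self => exact ⟨0, by rw [← h.ord, pow_orderOf_eq_one]; exact Commute.one_right _⟩
    | of_succ i _ ih =>
      obtain ⟨s, hs⟩ := ih
      have a0 : a ^ 2 ^ i ∈ zpowers a := pow_mem (mem_zpowers a) _
      have a1 : c ^ 2 ^ s * a ^ 2 ^ i * (c ^ 2 ^ s)⁻¹ ∈ zpowers a := by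
        rw [← conj_pow]; exact pow_mem (h.na (hc.pow_left _)) _
      have a2 := (zp_comm (inv_mem a0) a1).mul_mul_mul_comm (c ^ 2 ^ s * a ^ 2 ^ i * (c ^ 2 ^ s)⁻¹) (a ^ 2 ^ i)⁻¹
      rw [← cj_mul, ← mul_inv_rev, ← pow_add, ← two_mul, ← pow_succ', hs.mul_inv_cancel, mul_inv_cancel] at a2
      refine ⟨s + 1, ?_⟩
      rw [pow_succ, pow_mul]
      refine comm_pow_of ?_ (by rw [pow_two, a2])
      rcases h.z1 (mul_mem a1 (inv_mem a0)) a2 with k | k <;> rw [k]
      exacts [Commute.one_right _, hc.pow_left _]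
  simpa using this 0 (Nat.zero_le _)

end HD

theorem red2 {z a b : G} {n : ℕ} {E Q : Subgroup G} (h : HD z a b n E Q) :
    ∃ P : Subgroup G, GP z (a ^ 2 ^ n) P Q ∧ E ≤ P ∧ (n = 0 → P = Q) ∧
      ∀ c, Commute c z → c * a * c⁻¹ ∈ zpowers a := by
  set w := a ^ 2 ^ n with hw
  have wa : zpowers w ≤ zpowers a := zpowers_le.2 (pow_mem (mem_zpowers a) _)
  have Ej : ∀ e ∈ E, ∀ j ∈ zpowers w, Commute e j := fun e he j hj => comm_zp (h.Ea e he) (wa hj)
  have wz : w⁻¹ = w * z := inv_eq_of_mul_eq_one_right (by rw [← mul_assoc, h.ww, h.zz])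
  let P : Subgroup G :=
    { carrier := {x | ∃ e ∈ E, ∃ j ∈ zpowers w, x = e * j}
      one_mem' := ⟨1, one_mem _, 1, one_mem _, by simp⟩
      mul_mem' := by
        rintro _ _ ⟨e, he, j, hj, rfl⟩ ⟨e', he', j', hj', rfl⟩
        exact ⟨_, mul_mem he he', _, mul_mem hj hj', (Ej e' he' j hj).symm.mul_mul_mul_comm _ _⟩
      inv_mem' := by
        rintro _ ⟨e, he, j, hj, rfl⟩
        exact ⟨_, inv_mem he, _, inv_mem hj, by rw [(Ej e he j hj).eq, mul_inv_rev]⟩ }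
  have two : ∀ {x y : G}, Commute x y → (x * x = 1 ∨ x * x = z) → (y * y = 1 ∨ y * y = z) →
      x * y * (x * y) = 1 ∨ x * y * (x * y) = z := fun e a b => by
    rw [e.symm.mul_mul_mul_comm]
    rcases a with a | a <;> rcases b with b | b <;> simp [a, b, h.zz]
  have mP : ∀ x, x ∈ P ↔ x ∈ Q ∧ Commute x w ∧ (x * x = 1 ∨ x * x = z) := fun x => ⟨by
      rintro ⟨e, he, j, hj, rfl⟩
      refine ⟨mul_mem (h.EQ he) (zpowers_le.2 h.aQ (wa hj)), (Ej e he w (mem_zpowers w)).mul_left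
        (zp_comm hj (mem_zpowers w)), two (Ej e he j hj) (h.Esq e he) ?_⟩
      rcases (mem_zp4 h.zz h.ww).1 hj with k | k | k | k <;> rw [k]
      exacts [Or.inl (mul_one 1), Or.inl h.zz, Or.inr h.ww,
        Or.inr (by rw [← mul_inv_rev, h.ww, inv_of_sq h.zz])], by
      rintro ⟨h1, h2, h3⟩
      obtain ⟨e, he, j, hj, rfl⟩ := h.elt0 h1 h2
      refine ⟨e, he, j, h.z2 hj ?_, rfl⟩
      simpa using two ((Commute.refl e).mul_right (comm_zp (h.Ea e he) hj)).inv_left (h.Esq _ (inv_mem he)) h3⟩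
  have EP : E ≤ P := fun e he => ⟨e, he, 1, one_mem _, by simp⟩
  have wP : w ∈ P := ⟨1, one_mem _, w, mem_zpowers w, by simp⟩
  have nP : ∀ c, Commute c z → ∀ x ∈ P, c * x * c⁻¹ ∈ P := fun c hc x hx => by
    obtain ⟨h1, h2, h3⟩ := (mP x).1 hx
    refine (mP _).2 ⟨h.nQ c hc x h1, h.comm_w hc h2, ?_⟩
    rw [← cj_mul]
    exact h3.imp (fun k => by simp [k]) fun k => by rw [k, hc.mul_inv_cancel]
  have nj : ∀ c, Commute c z → ∀ j ∈ zpowers w, Commute c j ∨ c * j * c⁻¹ = j * z := fun c hc j hj => by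
    rcases h.nw hc with e | e
    · exact Or.inl (comm_zp e hj)
    rcases (mem_zp4 h.zz h.ww).1 hj with k | k | k | k <;> rw [k]
    exacts [Or.inl (Commute.one_right _), Or.inl hc, Or.inr (e.trans wz),
      Or.inr (by rw [cj_inv, e, inv_inv, wz, mul_assoc, h.zz, mul_one])]
  have zw : z ∈ zpowers w := h.ww ▸ mul_mem (mem_zpowers _) (mem_zpowers _)
  have nj' : ∀ c, Commute c z → ∀ j ∈ zpowers w, c * j * c⁻¹ ∈ zpowers w := fun c hc j hj => by
    rcases nj c hc j hj with e | e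
    · rwa [e.mul_inv_cancel]
    · exact e ▸ mul_mem hj zw
  refine ⟨P, ⟨h.ne, h.zz, h.ww, wP, fun x hx => ((mP x).1 hx).1, h.Qz, nP, h.nQ, fun c => h.nw,
    fun x hx => ((mP x).1 hx).2.1, fun x hx => ((mP x).1 hx).2.2, fun y hy => ?_, ?_, fun c hc hc' => ?_,
    fun x hx h2 e => (mP x).2 ⟨hx, e, Or.inl h2⟩, fun x hx => h.z1 (h.sq_mem hx), h.two⟩, EP, fun e => ?_,
    fun c => h.na⟩
  · rintro _ ⟨e, he, j, hj, rfl⟩
    have a1 : Commute y e ∨ y * e * y⁻¹ = e * z := by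
      have : ∀ e' ∈ E, ∀ r, Commute e r → Commute (e' * r) e ∨ e' * r * e * (e' * r)⁻¹ = e * z :=
        fun e' he' r hr => (h.Ecm e' he' e he).imp (·.mul_left hr.symm) fun k => by
          rw [← k, mul_assoc e', ← hr.eq]; group
      obtain ⟨e', he', i, rfl | rfl⟩ := h.elt y hy
      · exact this e' he' _ ((h.Ea e he).zpow_right i)
      · rw [mul_assoc e']; exact this e' he' _ (((h.Ea e he).zpow_right i).mul_right (h.Eb e he))
    have jz : Commute j z := zp_comm hj zw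
    rcases a1 with k | k <;> rcases nj y (h.Qz y hy) j hj with k' | k'
    · exact Or.inl (k.mul_right k')
    · exact Or.inr (by rw [cj_mul, k.mul_inv_cancel, k', mul_assoc])
    · exact Or.inr (by rw [cj_mul, k'.mul_inv_cancel, k, mul_assoc, mul_assoc, jz.eq])
    · exact Or.inl (comm_of_cj (by rw [cj_mul, k, k', jz.eq, mul_assoc, ← mul_assoc z, h.zz, one_mul]))
  · rintro _ ⟨e, he, j, hj, rfl⟩ k
    refine mul_mem ?_ hj
    rcases h.Ecen e he fun e' he' => by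
      simpa using (k e' (EP he')).mul_left (Ej e' he' j hj).symm.inv_left with rfl | rfl
    exacts [one_mem _, zw]
  · let K : Subgroup G :=
      { carrier := {c | Commute c z ∧ ∀ x ∈ P, c * x * c⁻¹ * x⁻¹ ∈ zpowers w}
        one_mem' := ⟨Commute.one_left _, fun x _ => by simpa using one_mem _⟩
        mul_mem' := fun {a b} ha hb => ⟨ha.1.mul_left hb.1, fun x hx => by
          simpa [mul_assoc] using mul_mem (nj' a ha.1 _ (hb.2 x hx)) (ha.2 x hx)⟩
        inv_mem' := fun {a} ha => ⟨ha.1.inv_left, fun x hx => by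
          simpa [mul_assoc] using nj' _ ha.1.inv_left _ (inv_mem (ha.2 x hx))⟩ }
    refine h.nrm K (fun k hk => hk.1) (fun g hg k hk => ⟨by simpa [hg.mul_inv_cancel] using comm_cj g hk.1,
      fun x hx => by simpa [mul_assoc] using nj' g hg _ (hk.2 _ (nP _ hg.inv_left x hx))⟩) ?_ ⟨hc, hc'⟩
    rintro ⟨c, hc⟩
    have c2 : Commute (c ^ 2) w := by
      rcases h.nw hc.1 with e | e
      · exact e.pow_left 2
      · exact comm_of_cj (by
          rw [show c ^ 2 * w * (c ^ 2)⁻¹ = c * (c * w * c⁻¹) * c⁻¹ by rw [pow_two]; group, e, cj_inv, e, inv_inv])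
    have c8 : ∀ x ∈ P, Commute (c ^ 2 ^ 3) x := fun x hx => by
      have a := (pow_mem hc 2).2 x hx
      rw [show 2 ^ 3 = 2 * 4 from rfl, pow_mul]
      refine comm_pow_of (comm_zp c2 a) ?_
      obtain ⟨i, hi⟩ := a
      rw [← hi, ← zpow_natCast, ← zpow_mul, mul_comm, zpow_mul, zpow_natCast,
        show 4 = 2 * 2 from rfl, pow_mul, pow_two w, h.ww, pow_two, h.zz, one_zpow]
    obtain ⟨s, hs⟩ := h.good_a (hc.1.pow_left (2 ^ 3))
    set c1 := (c ^ 2 ^ 3) ^ 2 ^ s with hc1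
    have c1z : Commute c1 z := (hc.1.pow_left _).pow_left _
    have c1E : ∀ e ∈ E, Commute c1 e := fun e he => (c8 e (EP he)).pow_left _
    have a1 : c1 * b * c1⁻¹ * b⁻¹ ∈ Q := mul_mem (h.nQ c1 c1z b h.bQ) (inv_mem h.bQ)
    obtain ⟨e, he, j, hj, k⟩ := h.elt0 a1 (by
      have := (hs.pow_right (2 ^ n)).mul_left (h.comm_w (h.Qz b h.bQ) (hs.pow_right (2 ^ n)).inv_left)
      simpa [mul_assoc] using this)
    obtain ⟨r, hr⟩ := h.two ⟨_, a1⟩
    have a2 : Commute (c1 ^ 2 ^ r) b := comm_pow_of (k ▸ (c1E e he).mul_right (comm_zp hs hj))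
      (congrArg Subtype.val hr)
    obtain ⟨m, hm⟩ := h.two ⟨_, h.cen _ (c1z.pow_left (2 ^ r)) fun x hx => by
      obtain ⟨e, he, i, rfl | rfl⟩ := h.elt x hx
      · exact ((c1E e he).mul_right (hs.zpow_right i)).pow_left _
      · exact (((c1E e he).mul_right (hs.zpow_right i)).pow_left _).mul_right a2⟩
    exact ⟨3 + s + r + m, Subtype.ext (by simpa [hc1, pow_add, pow_mul] using congrArg Subtype.val hm)⟩
  · subst e
    refine le_antisymm (fun x hx => ((mP x).1 hx).1) fun x hx => ?_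
    have hb : b = 1 := h.rel.resolve_right fun k => by simpa using k.1
    obtain ⟨e, he, i, rfl | rfl⟩ := h.elt x hx
    · exact ⟨e, he, _, ⟨i, by simp [hw]⟩, rfl⟩
    · exact ⟨e, he, a ^ i, ⟨i, by simp [hw]⟩, by rw [hb, mul_one]⟩

end CL.Styp
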