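/-
Large extraspecial `2`-groups, the weakly closed case (helper75), big pairs: definitions.
-/
import Cfsg.Agent.Even.WCU

set_option autoImplicit false

namespace CL.WC

open Cfsg Subgroup CL.Even CL.Grp

variable {G : Type*} [Group G]

/-- `c` and `u` lie in the line of a unitary pair -/
def Lin (z c u : G) : Prop := ∃ d, U z d ∧ c ∈ W z d ∧ u ∈ W z d
/-- opposite quads -/
def Opp (z t s : G) : Prop := A z t ⊓ A z s ≤ zpowers z

theorem Opp.symm {z t s : G} (h : Opp z t s) : Opp z s t := (inf_comm _ _).le.trans h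

universe u

/-- the facts on big pairs used to identify `C(z) / Q` -/
structure BF (z : G) : Prop where
  cm : ∀ t s, Big z t → Big z s → ¬ Opp z t s → t * s * t * s ∈ QQ z
  ncm : ∀ t s, Big z t → Big z s → Opp z t s → t * s * t * s ∉ QQ z
  br : ∀ t s, Big z t → Big z s → Opp z t s → t * s * t * (s * t * s) ∈ QQ z
  symp : ∀ a b c, Big z a → Big z b → Big z c → Opp z a b → Opp z c a → Opp z c b → ¬ Opp z c (a * b * a)
  trans : ∀ a b c, Big z a → Big z b → Big z c → Opp z a b → Opp z c b → ∃ g ∈ A b z, g * a * g⁻¹ * c ∈ QQ z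
  free : ∀ a b, Big z a → Big z b → Opp z a b → ∀ g ∈ A b z, Opp z (g * a * g⁻¹) b ∧ (g * a * g⁻¹ * a ∈ QQ z → g = 1)
  sum : ∀ p q, Big z p → Big z q → ¬ Opp z p q → p * q ∉ QQ z → ∃ y, Big z y ∧ ∀ c, Big z c →
    (¬ Opp z c p ∨ ¬ Opp z c q ∨ ¬ Opp z c y) ∧ (¬ Opp z c p → ¬ Opp z c q → ¬ Opp z c y) ∧
      (¬ Opp z c p → ¬ Opp z c y → ¬ Opp z c q) ∧ (¬ Opp z c q → ¬ Opp z c y → ¬ Opp z c p)
  faith : ∀ a b, Big z a → Big z b → Opp z a b → ∀ g, Commute g z → (∀ t, Big z t → g * t * g⁻¹ * t ∈ QQ z) → g ∈ QQ z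

end CL.WC
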