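/-
Large extraspecial `2`-groups, the weakly closed case, big pairs: points, lines and quads (helper93).
-/
import Cfsg.Agent.Even.WCB0

set_option autoImplicit false

namespace CL.WC

open Cfsg Subgroup CL.Even CL.Grp

variable {G : Type*} [Group G] [Finite G]

/-- `ph t` is injective modulo `z` on the cosets of `C(t)` -/
theorem Pr.card_ph {z t : G} (h : Pr z t) (p : P z t) {S T : Subgroup G} (hS : S ≤ QQ z) (hz : z ∈ T)
    (hf : ∀ b ∈ S, ph t b ∈ T) :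
    Nat.card S * 2 ≤ Nat.card T * Nat.card (S ⊓ centralizer ({t} : Set G) : Subgroup G) := by
  have := card_le_of_map (S := S) (K := centralizer {t}) (T := T) (N := zpowers z) (zpowers_le.mpr hz) (ph t) hf
    fun b hb b' hb' e => cm_iff.mpr (ph_eq_ph.mp ((h.xe.mem_Z.mp e).elim inv_mul_eq_one.mp fun e =>
      absurd (by rw [← (h.xe.cz (h.ph_mem (hS hb))).eq, ← e, mul_inv_cancel_left]) (h.p_val p (hS hb') (hS hb))))
  rwa [Nat.card_zpowers, h.xe.ord] at this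

theorem cover3 {D W₁ W₂ W₃ : Subgroup G} (hD : Nat.card D ≤ 16) (c₁ : Nat.card W₁ = 8) (c₂ : Nat.card W₂ = 8)
    (c₃ : Nat.card W₃ = 8) (l₁ : W₁ ≤ D) (l₂ : W₂ ≤ D) (l₃ : W₃ ≤ D) (n₁ : W₁ ≠ W₂) (n₂ : W₃ ≠ W₁) (n₃ : W₃ ≠ W₂)
    {z c : G} (zz : z * z = 1) (cc : c * c = 1) (z1 : z ≠ 1) (c1 : c ≠ 1) (cz : c ≠ z) (a₁ : z ∈ W₁) (a₂ : z ∈ W₂)
    (a₃ : z ∈ W₃) (b₁ : c ∈ W₁) (b₂ : c ∈ W₂) (b₃ : c ∈ W₃) {u : G} (hu : u ∈ D) : u ∈ W₁ ∨ u ∈ W₂ ∨ u ∈ W₃ := by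
  have k : ∀ {X Y Z : Subgroup G}, Nat.card X = 8 → Nat.card Y = 8 → X ≠ Y → z ∈ X → z ∈ Y → z ∈ Z → c ∈ X → c ∈ Y →
      c ∈ Z → X ⊓ Y ≤ Z ∧ ¬ X ≤ Y := fun {X Y Z} cX cY n zX zY zZ bX bY bZ => by
    have l : ¬ X ≤ Y := fun l => n (eq_of_le_of_card_ge l (by omega))
    obtain ⟨w, hw, hw'⟩ := SetLike.not_le_iff_exists.mp l
    have := two_mul_card_le (inf_le_left (a := X) (b := Y)) hw fun e => hw' e.2
    refine ⟨fun g hg => ?_, l⟩
    rcases four_cases (D := X ⊓ Y) (by omega) ⟨zX, zY⟩ ⟨bX, bY⟩ zz cc z1 c1 cz hg with rfl | rfl | rfl | rfl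
    exacts [one_mem _, zZ, bZ, mul_mem zZ bZ]
  by_contra! hn
  obtain ⟨w, hw, w1, w2⟩ : ∃ w ∈ W₃, w ∉ W₁ ∧ w ∉ W₂ := by
    by_contra! l
    exact (SubgroupClass.subset_union.mp (show (W₃ : Set G) ⊆ W₁ ∪ W₂ from fun w hw =>
      or_iff_not_imp_left.mpr (l w hw))).elim (k c₃ c₁ n₂ a₃ a₁ a₁ b₃ b₁ b₁).2 (k c₃ c₂ n₃ a₃ a₂ a₂ b₃ b₂ b₂).2
  exact hn.2.2 ((mul_mem_cancel_right hw).mp ((k c₁ c₂ n₁ a₁ a₂ a₃ b₁ b₂ b₃).1
    ⟨idx2 l₁ (by omega) hu (l₃ hw) hn.1 w1, idx2 l₂ (by omega) hu (l₃ hw) hn.2.1 w2⟩))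

omit [Finite G] in
theorem Lin.symm {z c u : G} (h : Lin z c u) : Lin z u c := h.imp fun _ h => ⟨h.1, h.2.2, h.2.1⟩

theorem Lin.conj {z c u g : G} (h : Lin z c u) (hg : Commute g z) : Lin z (g * c * g⁻¹) (g * u * g⁻¹) := by
  obtain ⟨d, hd, h1, h2⟩ := h
  refine ⟨_, hd.cjr hg, ?_, ?_⟩ <;> rw [← cfix hg, conj_mem_W (g := g)] <;> assumption

theorem Lin.cm {z c u v : G} (cl : Cl z) (h : Lin z c u) (h' : Lin z c v) (c1 : c ∉ zpowers z) : Commute u v := by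
  obtain ⟨d, hd, h1, h2⟩ := h
  obtain ⟨d', hd', h3, h4⟩ := h'
  exact hd'.A_cm (hd.W_le h2) (hd.perp hd' cl h1 h3 c1 h2) h4

theorem Lin.mul {z c u v : G} (cl : Cl z) (h : Lin z c u) (h' : Lin z c v) (c1 : c ∉ zpowers z) :
    Lin z c (u * v) := by
  have uv := h.cm cl h' c1
  obtain ⟨d, hd, h1, h2⟩ := h
  obtain ⟨d', hd', h3, h4⟩ := h'
  by_cases n : u ∈ W z d'
  · exact ⟨d', hd', h3, mul_mem n h4⟩
  have k : ∀ e ∈ E z d', ∃ r, U z r ∧ c ∈ W z r ∧ e * u ∈ W z r := fun e he => by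
    obtain ⟨a, ha, e1⟩ := hd'.symm.rank4 ⟨hd.W_le h2, cm_iff.mpr (hd.perp hd' cl h1 h3 c1 h2)⟩ n (E_comm z d' ▸ he)
    have az := cm_iff.mp ha.2
    have k2 : ∀ f ∈ E z d', Commute a f := fun f hf => hd'.symm.A_cm_E ha.1 az (E_comm z d' ▸ hf)
    have ac : Commute a c := (hd'.mem_W'.mp h3).elim (k2 c) fun l => by
      simpa [← mul_assoc, hd.zz] using az.mul_right (k2 _ l)
    obtain ⟨r, hr, l1, l2⟩ := Lin.conj ⟨d, hd, h1, h2⟩ az
    exact ⟨r, hr, cfix ac ▸ l1, by rwa [← e1, inv_mul_cancel_right]⟩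
  rw [uv.eq]
  rcases hd'.mem_W'.mp h4 with l | l
  · exact k v l
  · obtain ⟨r, hr, l1, l2⟩ := k _ l
    exact ⟨r, hr, l1, by rwa [mul_assoc, mul_mem_cancel_left (mem_WW _ z r)] at l2⟩

namespace Big

variable {z t s : G} (h : Big z t)
include h

omit [Finite G] in
theorem one {x : G} (h1 : x ∈ QQ z) (h2 : x ∈ QQ t) : x = 1 := mem_bot.mp (h.bot ▸ ⟨h1, h2⟩)

theorem ab {a b : G} (ha : a ∈ A z t) (hb : b ∈ A t z) : Commute a b :=
  cmt_eq_one.mp (mem_bot.mp (h.bot ▸ h.cmt_mem ha hb))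

theorem aa {a b : G} (ha : a ∈ A z t) (hb : b ∈ A z t) : Commute a b := h.W_cm (h.aw ▸ ha) (h.aw ▸ hb)

theorem asq {a : G} (ha : a ∈ A z t) : a * a = 1 := h.W_sq h.p (h.aw ▸ ha)

theorem memA {x : G} (hx : x ∈ QQ z) (hc : ∀ a ∈ A z t, Commute a x) : x ∈ A z t :=
  h.aw ▸ h.mem_W_of h.p hx fun a ha ha' => hc a ⟨ha, cm_iff.2 ha'⟩

theorem phA {x : G} (hx : x ∈ QQ z) : ph t x ∈ A z t := h.aw ▸ h.ph_W hx

theorem exA {c : G} (hc : c ∈ A z t) : ∃ x ∈ QQ z, c = ph t x ∨ c = z * ph t x := h.mem_W.mp (h.aw ▸ hc)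

theorem phZ {x : G} (hx : x ∈ QQ z) (n : ¬ Commute x t) : ph t x ∉ zpowers z := fun e =>
  (h.xe.mem_Z.mp e).elim (mt (WC.ph_eq_one h.tt).mp n) (h.p x hx)

theorem c16 {x : G} (hx : x ∈ QQ z) (n : x ∉ A z t) :
    Nat.card (A z t ⊓ centralizer ({x} : Set G) : Subgroup G) = 16 := by
  obtain ⟨a, ha, n'⟩ : ∃ a ∈ A z t, ¬ Commute a x := by
    by_contra! k
    exact n (h.memA hx k)
  have := h.xe.card_inf (X := A z t) inf_le_left hx ha n'
  rw [h.cA] at this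
  omega

theorem cmtA {x b : G} (hx : x ∈ QQ z) (hb : ∀ a ∈ A z t, Commute a b) : x * b * x⁻¹ * b⁻¹ ∈ A z t :=
  have bz := (hb z h.u_zA).symm
  h.memA (h.xe.cmt_mem bz hx) fun a ha => h.xe.cm_cmt bz ha.1 hx (hb a ha)

theorem u_cj {x : G} (hx : x ∈ QQ z) (n : ¬ Commute x t) :
    U t (x * t * x⁻¹) ∧ A t z ⊓ centralizer {x} = E t (x * t * x⁻¹) := by
  have h1 := h.cjt h.p hx n
  have h2 : A t z ⊓ centralizer {x} ≤ E t (x * t * x⁻¹) := fun b hb =>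
    ⟨hb.1.1, cfix (cm_iff.mp hb.2).symm ▸ conj_mem_QQ.mpr hb.1.1⟩
  have h3 := card_le_of_map' (S := A t z) (K := centralizer {x}) (T := A z t ⊓ centralizer {x})
    (fun b => x * b * x⁻¹ * b⁻¹) (fun b hb =>
      have k := h.cmtA hx fun a ha => h.ab ha hb
      ⟨k, cm_iff.mpr (h.xe.cm_cmt_self (cm_iff.mp hb.2) hx (h.asq k)).symm⟩)
    fun b _ b' _ e => cm_iff.mpr (cmt_eq_cmt e).symm
  rw [h.symm.cA, h.c16 hx fun e => n (cm_iff.mp e.2)] at h3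
  refine ⟨h1.u fun e => ?_, le_antisymm h2 fun e he => ?_⟩
  · have := card_le_of_le h2
    rw [e, card_bot] at this
    omega
  have h4 : e ∈ A t z := h.symm.memA he.1 fun b hb => h1.A_cm_E hb.1
    (ph_mul_t t x h.tt ▸ (h.ab (h.phA hx) hb).symm.mul_right (h.symm.xe.cz hb.1)) he
  refine ⟨h4, cm_iff.mpr (cmt_eq_one.mp (h.one (h.xe.cmt_mem (cm_iff.mp h4.2) hx) (mul_mem ?_ (inv_mem he.1)))).symm⟩
  have := (conj_mem_QQ (g := x)).mpr he.2
  rwa [h.s_back hx] at this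

theorem cases {g : G} (hg : g ∈ A t z) : g = 1 ∨ g = t ∨ U z (g * z) ∨ U z (g * t * z) := by
  obtain ⟨y, hy, e⟩ := h.symm.exA hg
  by_cases n : Commute y z
  · rw [(WC.ph_eq_one h.zz).mpr n, mul_one] at e
    exact e.imp_right Or.inl
  have := (h.symm.u_cj hy n).1
  rw [← ph_mul_t z y h.zz] at this
  rcases e with rfl | rfl
  · exact Or.inr (Or.inr (Or.inl this))
  · refine Or.inr (Or.inr (Or.inr ?_))
    rwa [← (h.symm.xe.cz (h.symm.ph_mem hy)).eq, mul_assoc _ t t, h.tt, mul_one]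

theorem pt (_cl : Cl z) {e : G} (he : e ∈ A t z) (hu : U z (e * z)) : W z (e * z) ≤ A z t ∧
    (∀ x ∈ A z (e * z), ph t x ∈ W z (e * z)) ∧ ∀ x ∈ QQ z, ph t x ∈ W z (e * z) → x ∈ A z (e * z) := by
  have h1 : W z (e * z) ≤ A z t := fun w hw => h.memA (hu.W_le hw) fun a ha =>
    hu.A_cm ha.1 ((h.ab ha he).mul_right (h.xe.cz ha.1)) hw
  have h2 : ∀ x ∈ A z (e * z), Commute x e := fun x hx => by
    simpa [mul_assoc, h.zz] using (cm_iff.mp hx.2).mul_right (h.xe.cz hx.1)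
  have e1 : e ∉ zpowers t := fun l => (h.symm.xe.mem_Z.mp l).elim (fun l => hu.ne (by rw [l, one_mul])) fun l =>
    hu.not_ic (by rw [l, ← h.cm.eq, ← mul_assoc, h.zz, one_mul]; exact h.ic)
  have h3 : ∀ x ∈ A z (e * z), ph t x ∈ W z (e * z) := fun x hx => hu.mem_W_of hu.p (h.ph_mem hx.1) fun y hy c => by
    by_contra n
    have hy' : y ∈ A z (e * z) := ⟨hy, cm_iff.mpr c⟩
    have k : ∀ v ∈ A z (e * z), ¬ Commute v t → e ∈ W t (v * t * v⁻¹) := fun v hv nv =>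
      (h.u_cj hv.1 nv).1.E_le_W (h.u_cj hv.1 nv).1.p ((h.u_cj hv.1 nv).2.le ⟨he, cm_iff.mpr (h2 v hv).symm⟩)
    have nx : ¬ Commute x t := fun l => n ((WC.ph_eq_one h.tt).mpr l ▸ Commute.one_right y)
    have k1 : t ∈ W t (x * t * x⁻¹) ⊓ A t z := ⟨mem_WW _ _ _, h.symm.u_zA⟩
    have k2 : e ∈ W t (x * t * x⁻¹) ⊓ A t z := ⟨k x hx nx, he⟩
    have k3 : ∀ b ∈ QQ t ⊓ centralizer ({e} : Set G), ∀ v ∈ A z (e * z),
        b * ph t v * b⁻¹ * (ph t v)⁻¹ ∈ W t (x * t * x⁻¹) ⊓ A t z := fun b hb v hv => by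
      by_cases nv : Commute v t
      · rw [(WC.ph_eq_one h.tt).mpr nv]; simp
      have l : b * ph t v * b⁻¹ * (ph t v)⁻¹ = ph (v * t * v⁻¹) b := by
        rw [ph.eq_def (v * t * v⁻¹), ← ph_mul_t t v h.tt, inv_eq' (h.asq (h.phA hv.1)), ← conj_mul,
          cfix (h.symm.xe.cz hb.1), (cm_iff.mp (h.phA hv.1).2).eq, mul_assoc _ t, ← mul_assoc t, h.tt, one_mul]
      rw [l]
      rcases (h.u_cj hv.1 nv).1.ph_of_cm (k v hv nv) e1 hb.1 (cm_iff.mp hb.2) with l | l | l <;> rw [l]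
      exacts [one_mem _, k2, mul_mem k1 k2]
    have k4 := h.symm.card_ph h.p' (S := QQ t ⊓ centralizer {e}) inf_le_left k1 fun b hb => by
      have l := ((h.ph_mul' hy hx.1).resolve_left fun l => n l.1).2
      have l2 : z = ph t (y * x) * (ph t y * ph t x) := by
        rw [l, (h.aa (h.phA hy) (h.phA hx.1)).eq, mul_assoc, h.asq (mul_mem (h.phA hx.1) (h.phA hy)), mul_one]
      have l3 : ∀ {a g : G}, a ∈ A z t → g ∈ W t (x * t * x⁻¹) ⊓ A t z → a * g * a⁻¹ ∈ W t (x * t * x⁻¹) ⊓ A t z :=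
        fun ha hg => by rwa [cfix (h.ab ha hg.2)]
      have l4 := mul_mem (k3 b hb _ (mul_mem hy' hx)) (l3 (h.phA (mul_mem hy hx.1))
        (mul_mem (k3 b hb y hy') (l3 (h.phA hy) (k3 b hb x hx))))
      rwa [← cmt_mul', ← cmt_mul', ← l2, inv_eq' h.zz] at l4
    have k5 := u_half h.symm.xe le_rfl he.1
    have k6 : Nat.card (W t (x * t * x⁻¹) ⊓ A t z : Subgroup G) ≤ 8 :=
      (card_le_of_le inf_le_left).trans (h.u_cj hx.1 nx).1.cW.le
    have k7 : Nat.card (QQ t ⊓ centralizer ({e} : Set G) ⊓ centralizer ({z} : Set G) : Subgroup G) ≤ 32 :=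
      (card_le_of_le (inf_le_inf_right _ inf_le_left)).trans h.symm.cA.le
    have := k4.trans (Nat.mul_le_mul k6 k7)
    rw [h.symm.cQ] at k5
    omega
  refine ⟨h1, h3, fun x hx hw => ⟨hx, cm_iff.mpr (hu.cm_of_W hu.p hx fun w hw' => cm_iff.mp ?_)⟩⟩
  have k1 := h.card_ph h.p (S := A z (e * z)) (T := W z (e * z) ⊓ centralizer {x}) inf_le_left
    ⟨mem_WW _ _ _, cm_iff.mpr (h.xe.cz hx).symm⟩ fun v hv =>
      ⟨h3 v hv, cm_iff.mpr ((h.cm_ph hx hv.1).mp (hu.A_cm hv.1 (cm_iff.mp hv.2) hw)).symm⟩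
  have k2 : Nat.card (A z (e * z) ⊓ centralizer ({t} : Set G) : Subgroup G) ≤ 32 :=
    (card_le_of_le (inf_le_inf_right _ inf_le_left)).trans h.cA.le
  have k3 := k1.trans (Nat.mul_le_mul_left _ k2)
  have k4 := hu.cA
  rw [h.cQ] at k4
  exact ((eq_of_le_of_card_ge (inf_le_left (a := W z (e * z)) (b := centralizer {x})) (by rw [hu.cW]; omega)).ge hw').2

theorem lin (cl : Cl z) {x u : G} (hx : x ∈ QQ z) (n : ¬ Commute x t) (hu : u ∈ A z t) (c : Commute x u) :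
    ∃ e ∈ A t z, U z (e * z) ∧ Commute x e ∧ ph t x ∈ W z (e * z) ∧ u ∈ W z (e * z) := by
  obtain ⟨h1, h2⟩ := h.u_cj hx n
  have k : ∀ e ∈ E t (x * t * x⁻¹), e ≠ 1 → e ∈ A t z ∧ U z (e * z) ∧ Commute x e ∧ ph t x ∈ W z (e * z) ∧
      W z (e * z) ≤ A z t ⊓ centralizer {x} := fun e he e1 => by
    obtain ⟨he, c⟩ := h2.ge he
    replace c := (cm_iff.mp c).symm
    obtain ⟨y, hy, rfl⟩ := h.ex x hx n e he c
    have l := (h.symm.u_cj hy (mt (WC.ph_eq_one h.zz).mpr e1)).1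
    rw [← ph_mul_t z y h.zz] at l
    have l2 := c.mul_right (h.xe.cz hx)
    exact ⟨he, l, c, (h.pt cl he l).2.1 x ⟨hx, cm_iff.mpr l2⟩, fun w hw =>
      ⟨(h.pt cl he l).1 hw, cm_iff.mpr (l.A_cm hx l2 hw).symm⟩⟩
  have k2 : ∀ e ∈ E t (x * t * x⁻¹), e ≠ 1 → ∀ f ∈ E t (x * t * x⁻¹), f ≠ 1 → e ≠ f → W z (e * z) ≠ W z (f * z) :=
    fun e he e1 f hf f1 ne l => by
      obtain ⟨-, l1, -⟩ := k e he e1
      obtain ⟨l3, l2, -⟩ := k f hf f1
      have := l2.W_le (l2.duad (l2.mem_Li_of_W l1.toPr l) U.right_mem l1.ne l2.ne)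
      rw [(cm_iff.mp l3.2).eq, mul_assoc, ← mul_assoc z, h.zz, one_mul] at this
      exact ne (eq_of_mul (h1.E_sq hf) (h.one this (mul_mem he hf).1))
  obtain ⟨a, ha, a1, -⟩ := h1.exists_E (one_mul 1)
  obtain ⟨b, hb, b1, ba⟩ := h1.exists_E (h1.E_sq ha)
  have ab : a * b ≠ 1 := fun e => ba (eq_of_mul (h1.E_sq hb) e).symm
  obtain ⟨p1, p2, p3, p4, p5⟩ := k a ha a1
  obtain ⟨q1, q2, q3, q4, q5⟩ := k b hb b1
  obtain ⟨r1, r2, r3, r4, r5⟩ := k _ (mul_mem ha hb) ab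
  rcases cover3 (h.c16 hx fun e => n (cm_iff.mp e.2)).le p2.cW q2.cW r2.cW p5 q5 r5 (k2 a ha a1 b hb b1 ba.symm)
    (k2 _ (mul_mem ha hb) ab a ha a1 (by simpa using b1)) (k2 _ (mul_mem ha hb) ab b hb b1 (by simpa using a1))
    h.zz (h.asq (h.phA hx)) h.xe.ne_one (mt (WC.ph_eq_one h.tt).mp n) (h.p x hx) (mem_WW _ _ _) (mem_WW _ _ _)
    (mem_WW _ _ _) p4 q4 r4 ⟨hu, cm_iff.mpr c.symm⟩ with l | l | l
  exacts [⟨_, p1, p2, p3, p4, l⟩, ⟨_, q1, q2, q3, q4, l⟩, ⟨_, r1, r2, r3, r4, l⟩]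

theorem notA {x c : G} (e : c = ph t x ∨ c = z * ph t x) (c1 : c ∉ zpowers z) : ¬ Commute x t := fun n => c1 (by
  rw [(WC.ph_eq_one h.tt).mpr n, mul_one] at e
  exact h.xe.mem_Z.mpr e)

theorem linP (cl : Cl z) {x c u : G} (hx : x ∈ QQ z) (e : c = ph t x ∨ c = z * ph t x) (c1 : c ∉ zpowers z)
    (hu : u ∈ A z t) (cm : Commute x u) : Lin z c u := by
  obtain ⟨d, -, h1, -, h2, h3⟩ := h.lin cl hx (h.notA e c1) hu cm
  refine ⟨_, h1, ?_, h3⟩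
  rcases e with rfl | rfl
  exacts [h2, mul_mem (mem_WW _ _ _) h2]

theorem cm_of {x y c : G} (hx : x ∈ QQ z) (hy : y ∈ QQ z) (e : c = ph t x ∨ c = z * ph t x)
    (cm : Commute x (ph t y)) : Commute y c := by
  have := (h.cm_ph hx hy).mpr cm
  rcases e with rfl | rfl
  exacts [this, (h.xe.cz hy).mul_right this]

/-- the preimage of `L` under `ph t` -/
def Y {L : Subgroup G} (hz : z ∈ L) : Subgroup G where
  carrier := {x | x ∈ QQ z ∧ ph t x ∈ L}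
  one_mem' := ⟨one_mem _, by rw [(WC.ph_eq_one h.tt).mpr (Commute.one_left t)]; exact one_mem _⟩
  mul_mem' {a b} ha hb := ⟨mul_mem ha.1 hb.1, by
    rcases h.ph_mul' ha.1 hb.1 with e | e <;> rw [e.2]
    exacts [mul_mem hb.2 ha.2, mul_mem hz (mul_mem hb.2 ha.2)]⟩
  inv_mem' {a} ha := ⟨inv_mem ha.1, by
    have : Commute (a * a) t := by
      rcases h.xe.sq_cases ha.1 with e | e <;> rw [e]
      exacts [Commute.one_left t, h.cm]
    rw [ph_eq_ph.mpr (by rwa [inv_inv])]; exact ha.2⟩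

theorem mul_Z {x y : G} (hx : x ∈ QQ z) (hy : y ∈ QQ z) (c : Commute (x * y) t) : ph t y * ph t x ∈ zpowers z := by
  have := (WC.ph_eq_one h.tt).mpr c
  rcases h.ph_mul' hx hy with e | e <;> rw [e.2] at this
  · exact this ▸ one_mem _
  · exact (mul_mem_cancel_left (mem_zpowers z)).mp (this ▸ one_mem _)

theorem sim {x c : G} (hx : x ∈ QQ z) (e : c = ph t x ∨ c = z * ph t x) : c * ph t x ∈ zpowers z := by
  rcases e with rfl | rfl
  · rw [h.asq (h.phA hx)]; exact one_mem _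
  · rw [mul_assoc, h.asq (h.phA hx), mul_one]; exact mem_zpowers z

theorem zmul {a b c : G} (hb : b ∈ A z t) (h1 : a * b ∈ zpowers z) (h2 : b * c ∈ zpowers z) : a * c ∈ zpowers z := by
  have := mul_mem h1 h2
  rwa [mul_assoc, ← mul_assoc b, h.asq hb, one_mul] at this

theorem le8 {L : Subgroup G} (hL : L ≤ A z t) (hz : z ∈ L) (H : ∀ y ∈ QQ z, ph t y ∈ L → ∀ l ∈ L, Commute l y) :
    Nat.card L ≤ 8 ∧ (Nat.card L = 8 → ∀ y ∈ QQ z, (∀ l ∈ L, Commute l y) → ph t y ∈ L) := by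
  classical
  choose! g g1 g2 using fun c (hc : c ∈ L) => h.exA (hL hc)
  have h1 := card_le_of_map (S := L) (K := zpowers z) (T := h.Y hz) (N := A z t)
    (fun a ha => ⟨ha.1, (WC.ph_eq_one h.tt).mpr (cm_iff.mp ha.2) ▸ one_mem _⟩) g
    (fun c hc => ⟨g1 c hc, (g2 c hc).elim (· ▸ hc) fun e => (mul_mem_cancel_left hz).mp (e ▸ hc)⟩)
    fun b hb c hc e => by
      have l := ph_eq_ph.mpr (cm_iff.mp e.2)
      have l1 := h.sim (g1 b hb) (g2 b hb)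
      have l2 := h.sim (g1 c hc) (g2 c hc)
      rw [(h.aa (hL hc) (h.phA (g1 c hc))).eq, ← l] at l2
      rw [inv_eq' (h.asq (hL hb))]
      exact h.zmul (h.phA (g1 b hb)) l1 l2
  have h2 : Nat.card (L ⊓ zpowers z : Subgroup G) ≤ 2 :=
    (card_le_of_le inf_le_right).trans (by rw [Nat.card_zpowers, h.xe.ord])
  have h3 := h1.trans (Nat.mul_le_mul_left _ h2)
  have h4 : h.Y hz ≤ QQ z ⊓ 𝒞(L) := fun y hy => ⟨hy.1, H y hy.1 hy.2⟩
  have h5 := card_le_of_le h4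
  have h6 := h.xe.card_cent (hL.trans inf_le_left) hz
  rw [h.cA] at h3
  rw [h.cQ] at h6
  refine ⟨by nlinarith, fun e y hy hc => ((eq_of_le_of_card_ge h4 (by rw [e] at h3 h6; omega)).ge ⟨hy, hc⟩).2⟩

theorem perpP (h' : Big z s) (cl : Cl z) {x y c u v : G} (hx : x ∈ QQ z) (hy : y ∈ QQ z)
    (e : c = ph t x ∨ c = z * ph t x) (e' : c = ph s y ∨ c = z * ph s y) (c1 : c ∉ zpowers z)
    (hu : u ∈ A z t ⊓ centralizer {x}) (hv : v ∈ A z s ⊓ centralizer {y}) : Commute u v :=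
  (h.linP cl hx e c1 hu.1 (cm_iff.mp hu.2).symm).cm cl (h'.linP cl hy e' c1 hv.1 (cm_iff.mp hv.2).symm) c1

theorem c16' {x c : G} (hx : x ∈ QQ z) (e : c = ph t x ∨ c = z * ph t x) (c1 : c ∉ zpowers z) :
    Nat.card (A z t ⊓ centralizer ({x} : Set G) : Subgroup G) = 16 := h.c16 hx fun l => h.notA e c1 (cm_iff.mp l.2)

theorem int (h' : Big z s) (cl : Cl z) (ne : A z t ≠ A z s) {x u : G} (hx : x ∈ QQ z) (h1 : ph t x ∈ A z s)
    (hu : u ∈ A z t) (hu' : u ∈ A z s) : Commute x u := by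
  by_contra n
  have c1 := h.phZ hx fun c => n (h.aa ⟨hx, cm_iff.mpr c⟩ hu)
  obtain ⟨y, hy, e⟩ := h'.exA h1
  have h2 : A z s ⊓ centralizer {y} ≤ A z t ⊓ A z s := fun v hv => ⟨h.memA hv.1.1 fun a ha => by
    by_cases c : Commute a x
    · exact h.perpP h' cl hx hy (Or.inl rfl) e c1 ⟨ha, cm_iff.mpr c⟩ hv
    · simpa using (h.perpP h' cl hx hy (Or.inl rfl) e c1 ⟨mul_mem ha hu, cm_iff.mpr
        (h.xe.cm_mul ha.1 hu.1 hx c fun l => n l.symm)⟩ hv).mul_left (h'.aa hu' hv.1).inv_left, hv.1⟩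
  have h3 := card_le_of_le h2
  rw [h'.c16' hy e c1] at h3
  have hz : z ∈ A z t ⊓ A z s := ⟨h.u_zA, h'.u_zA⟩
  have h4 : ((A z t ⊓ A z s : Subgroup G) : Set G) ⊆ 𝒞(h.Y hz) ∪ 𝒞(h'.Y hz) := fun c hc => by
    by_cases c2 : c ∈ zpowers z
    · refine Or.inl fun v hv => ?_
      rcases h.xe.mem_Z.mp c2 with rfl | rfl
      exacts [Commute.one_right v, h.xe.cz hv.1]
    obtain ⟨a, ha, ea⟩ := h.exA hc.1
    obtain ⟨b, hb, eb⟩ := h'.exA hc.2
    by_cases l : A z t ⊓ centralizer {a} ≤ A z s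
    · have l1 : A z t ⊓ A z s ≤ A z t ⊓ centralizer {a} := by
        by_contra l1
        obtain ⟨w, hw, hw'⟩ := SetLike.not_le_iff_exists.mp l1
        have l2 := two_mul_card_le (le_inf inf_le_left l) hw hw'
        rw [h.c16' ha ea c2] at l2
        have l3 := eq_of_le_of_card_ge (inf_le_left (a := A z t) (b := A z s)) (by rw [h.cA]; exact l2)
        exact ne (eq_of_le_of_card_ge (inf_eq_left.mp l3) (by rw [h.cA, h'.cA]))
      exact Or.inl fun v hv => h.cm_of ha hv.1 ea (cm_iff.mp (l1 hv.2).2).symm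
    obtain ⟨w, hw, hw'⟩ := SetLike.not_le_iff_exists.mp l
    have l1 := h'.c16 hw.1.1 hw'
    have l2 : A z t ⊓ A z s = A z s ⊓ centralizer {w} :=
      eq_of_le_of_card_ge (fun v hv => ⟨hv.2, cm_iff.mpr (h.aa hv.1 hw.1)⟩) (by omega)
    have l3 : A z s ⊓ centralizer {b} = A z s ⊓ centralizer {w} := eq_of_le_of_card_ge
      (fun v hv => ⟨hv.1, cm_iff.mpr (h.perpP h' cl ha hb ea eb c2 hw hv).symm⟩) (by rw [l1, h'.c16' hb eb c2])
    exact Or.inr fun v hv => h'.cm_of hb hv.1 eb (cm_iff.mp ((l2.trans l3.symm).le hv.2).2).symm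
  rcases SubgroupClass.subset_union.mp h4 with l | l
  · have := (h.le8 inf_le_left hz fun y hy e c hc => (l hc y ⟨hy, e⟩).symm).1
    omega
  · have := (h'.le8 inf_le_right hz fun y hy e c hc => (l hc y ⟨hy, e⟩).symm).1
    omega

theorem meet (h' : Big z s) (cl : Cl z) (ne : A z t ≠ A z s) (n : ¬ Opp z t s) :
    Nat.card (A z t ⊓ A z s : Subgroup G) = 8 ∧
      ∀ y ∈ QQ z, (∀ l ∈ A z t ⊓ A z s, Commute y l) → ph s y ∈ A z t := by
  obtain ⟨c, hc, c1⟩ := SetLike.not_le_iff_exists.mp n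
  have hz : z ∈ A z t ⊓ A z s := ⟨h.u_zA, h'.u_zA⟩
  obtain ⟨h1, h2⟩ := h'.le8 inf_le_right hz fun y hy e l hl => (h'.int h cl ne.symm hy e.1 hl.2 hl.1).symm
  obtain ⟨a, ha, ea⟩ := h.exA hc.1
  obtain ⟨b, hb, eb⟩ := h'.exA hc.2
  have h3 : Nat.card (A z t ⊓ A z s : Subgroup G) = 8 := by
    refine le_antisymm h1 ?_
    have l1 := card_le_of_map (S := A z t ⊓ centralizer {a}) (N := A z s ⊓ centralizer {b}) (K := A z s)
      (T := A z t ⊓ centralizer {a} ⊔ A z s ⊓ centralizer {b}) le_sup_right id (fun _ hv => mem_sup_left hv)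
      fun _ _ _ _ e => e.1
    have l2 : A z t ⊓ centralizer {a} ⊔ A z s ⊓ centralizer {b} ≤ QQ z :=
      sup_le (inf_le_left.trans inf_le_left) (inf_le_left.trans inf_le_left)
    have l3 := h.xe.card_cent l2 (mem_sup_left ⟨h.u_zA, cm_iff.mpr (h.xe.cz ha).symm⟩)
    have l4 := card_le_of_le (le_inf l2 (show _ ≤ 𝒞(A z t ⊓ centralizer {a} ⊔ A z s ⊓ centralizer {b}) from
      sup_le (le_centralizer_iff.mp (sup_le (fun u hu v hv => h.aa hv.1 hu.1) fun u hu v hv =>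
        h.perpP h' cl ha hb ea eb c1 hv hu)) (le_centralizer_iff.mp (sup_le (fun u hu v hv =>
          (h.perpP h' cl ha hb ea eb c1 hu hv).symm) fun u hu v hv => h'.aa hv.1 hu.1))))
    have l5 := card_le_of_le (inf_le_inf_right (A z s) (inf_le_left (a := A z t) (b := centralizer {a})))
    rw [h.c16' ha ea c1, h'.c16' hb eb c1] at l1
    rw [h.cQ] at l3
    have l6 : Nat.card (A z t ⊓ centralizer {a} ⊔ A z s ⊓ centralizer {b} : Subgroup G) ≤ 32 := by nlinarith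
    have := l1.trans (Nat.mul_le_mul l6 l5)
    omega
  exact ⟨h3, fun y hy l => (h2 h3 y hy fun v hv => (l v hv).symm).1⟩

theorem full_of (cl : Cl z) {x c v : G} (hx : x ∈ QQ z) (e : c = ph t x ∨ c = z * ph t x) (c1 : c ∉ zpowers z)
    (hv : v ∈ A z t) (n : ¬ Commute x v) (l : Lin z c v) {u : G} (hu : u ∈ A z t) : Lin z c u := by
  by_cases m : Commute x u
  · exact h.linP cl hx e c1 hu m
  have := (h.linP cl hx e c1 (mul_mem hu hv) (h.xe.cm_mul hu.1 hv.1 hx (fun a => m a.symm)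
    fun a => n a.symm).symm).mul cl l c1
  rwa [mul_assoc, h.asq hv, mul_one] at this

theorem full (h' : Big z s) (cl : Cl z) (e : A z t = A z s) (n : t * s ∉ QQ z) {c u : G} (hc : c ∈ A z t)
    (c1 : c ∉ zpowers z) (hu : u ∈ A z t) : Lin z c u := by
  have k : ∀ y ∈ QQ z, y ∉ K1 h.xe (t * s) → ph t y ∉ zpowers z ∧ ∀ v ∈ A z t, Lin z (ph t y) v := fun y hy ny => by
    have l1 : ph t y * ph s y ∉ zpowers z := fun l => ny ⟨hy, by
      rw [cmt_mul', inv_eq' h'.tt, ← ph, cfix (cm_iff.mp (e.ge (h'.phA hy)).2).symm, inv_eq' h.tt]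
      exact l⟩
    have l2 : y ∉ A z t := fun l => l1 (by
      rw [(WC.ph_eq_one h.tt).mpr (cm_iff.mp l.2), (WC.ph_eq_one h'.tt).mpr (cm_iff.mp (e.le l).2), one_mul]
      exact one_mem _)
    have l3 := h.phZ hy fun l => l2 ⟨hy, cm_iff.mpr l⟩
    obtain ⟨x, hx, ex⟩ := h'.exA (e.le (h.phA hy))
    refine ⟨l3, fun v hv => ?_⟩
    by_cases l4 : A z t ⊓ centralizer {x} ≤ A z t ⊓ centralizer {y}
    · have l5 := eq_of_le_of_card_ge l4 (by rw [h.c16 hy l2, e, h'.c16' hx ex l3])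
      have l6 : y * x ∈ A z s := e.le (h.memA (mul_mem hy hx) fun a ha => by
        by_cases c : Commute a x
        · exact (cm_iff.mp (l4 ⟨ha, cm_iff.mpr c⟩).2).mul_right c
        · exact (h.xe.cm_mul hy hx ha.1 (fun l => c (cm_iff.mp (l5.ge ⟨ha, cm_iff.mpr l.symm⟩).2))
            fun l => c l.symm).symm)
      exact absurd (h'.zmul (h'.phA hx) (h'.sim hx ex) (h'.mul_Z hy hx (cm_iff.mp l6.2))) l1
    obtain ⟨w, hw, hw'⟩ := SetLike.not_le_iff_exists.mp l4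
    exact h.full_of cl hy (Or.inl rfl) l3 hw.1 (fun l => hw' ⟨hw.1, cm_iff.mpr l.symm⟩)
      (h'.linP cl hx ex l3 (e.le hw.1) (cm_iff.mp hw.2).symm) hv
  obtain ⟨x, hx, ex⟩ := h.exA hc
  by_contra m
  rcases SubgroupClass.subset_union.mp (show (QQ z : Set G) ⊆ K1 h.xe (t * s) ∪ centralizer {c} from fun y hy =>
    or_iff_not_imp_left.mpr fun ny => cm_iff.mpr (h.cm_of hx hy ex (by_contra fun l =>
      m (h.full_of cl hx ex c1 (h.phA hy) l ((k y hy ny).2 c hc).symm hu)))) with l | l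
  · exact n (mem_of_K1 h.xe (h.cm.symm.mul_left h'.cm.symm) l)
  · exact c1 (h.xe.mem_Z.mpr (h.xe.central hc.1 fun y hy => cm_iff.mp (l hy)))

theorem uniq (h' : Big z s) (cl : Cl z) (e : A z t = A z s) : t * s ∈ QQ z := by
  by_contra n
  have k1 : ∀ g, Commute g z → ∀ c ∈ cj g (A z t), c ∉ zpowers z → ∀ u ∈ cj g (A z t), Lin z c u := by
    rintro g hg _ ⟨c, hc, rfl⟩ c1 _ ⟨u, hu, rfl⟩
    refine (h.full h' cl e n hc (fun l => c1 ?_) hu).conj hg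
    rcases h.xe.mem_Z.mp l with rfl | rfl
    · simp
    · exact h.xe.mem_Z.mpr (Or.inr (cfix hg))
  have k0 : ∀ g, Commute g z → cj g (A z t) = A z (g * t * g⁻¹) := fun g hg => by rw [cj_A, cfix hg]
  have k2 : ∀ g g', Commute g z → Commute g' z → ∀ c ∈ cj g (A z t), c ∈ cj g' (A z t) → c ∉ zpowers z →
      cj g (A z t) = cj g' (A z t) := fun g g' hg hg' c hc hc' c1 => eq_of_le_of_card_ge (fun u hu => by
    rw [k0 g' hg']
    exact (h.cjr hg').memA ((k0 g hg).le hu).1 fun a ha =>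
      (k1 g' hg' c hc' c1 a ((k0 g' hg').ge ha)).cm cl (k1 g hg c hc c1 u hu) c1) (by rw [card_cj, card_cj])
  have k3 : centralizer {z} ≤ 𝒩(A z t) := fun g hg => by
    replace hg := cm_iff.mp hg
    by_contra m
    have l1 : ∀ c ∈ cj g (A z t), c ∈ A z t → c ∈ zpowers z := fun c hc hc' => by_contra fun c1 =>
      m (cj_eq_iff_mem.mp ((k2 g 1 hg (Commute.one_left z) c hc (by simpa using hc') c1).trans (cj_eq (one_mem _))))
    obtain ⟨x, hx, nx⟩ := h.exists_nc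
    obtain ⟨f, hf, hd, -⟩ := h.lin cl hx nx (one_mem _) (Commute.one_right x)
    have l2 := (h.pt cl hf hd).1
    generalize f * z = d at hd l2
    have l3 : cj g (A z t) ≤ QQ z := (k0 g hg).le.trans inf_le_left
    have l4 := hd.card_ph hd.p l3 (mem_WW _ z d) fun b hb => hd.ph_W (l3 hb)
    rw [card_cj, h.cA, hd.cW] at l4
    obtain ⟨c, hc, c1⟩ := exists_not_mem (S := zpowers z) (T := cj g (A z t) ⊓ centralizer {d})
      (by rw [Nat.card_zpowers, h.xe.ord]; omega)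
    have l5 := k2 (d * g) g (hd.cm.symm.mul_left hg) hg c (by
      rw [cj_mul, mem_cj, ← (cm_iff.mp hc.2).inv_right.eq, inv_mul_cancel_right]; exact hc.1) hc.1 c1
    rw [cj_mul, cj_eq_iff_mem] at l5
    have l6 : ∀ v ∈ cj g (A z t), Commute v d := fun v hv => by
      have l7 : ph d v ∈ cj g (A z t) := by
        have := mul_mem hv (conj_mem l5 (inv_mem hv))
        rwa [inv_eq' hd.tt, ← mul_assoc, ← mul_assoc] at this
      exact (WC.ph_eq_one hd.tt).mp ((h.xe.mem_Z.mp (l1 _ l7 (l2 (hd.ph_W (l3 hv))))).resolve_right (hd.p v (l3 hv)))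
    have l7 := card_le_of_le (show W z d ≤ zpowers z from fun w hw => l1 w ((k0 g hg).ge ((h.cjr hg).memA (hd.W_le hw)
      fun a ha => hd.A_cm ha.1 (l6 a ((k0 g hg).ge ha)) hw)) (l2 hw))
    rw [Nat.card_zpowers, h.xe.ord, hd.cW] at l7
    omega
  have k4 : 𝒞(A z t) ≤ centralizer {z} := fun g hg => cm_iff.mpr (hg z h.u_zA).symm
  refine h.not_mem (h.st.le_QQ k4 (fun ⟨g, hg⟩ => ⟨2, Subtype.ext ?_⟩) (le_norm_cent k3) fun a ha => cm_iff.mp ha.2)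
  have l1 : ∀ x ∈ QQ z, Commute x (g * g) := fun x hx => by
    have := h.cmtA hx hg
    rw [← cmt_eq_one, cmt_mul', cfix (hg _ this).symm, h.asq this]
  show g ^ 2 ^ 2 = 1
  rw [show g ^ 2 ^ 2 = g * g * (g * g) by rw [← pow_two, ← pow_two, ← pow_mul]; rfl]
  rcases h.xe.central (h.xe.cent_le l1) l1 with l | l <;> rw [l]
  exacts [one_mul 1, h.zz]

end Big

end CL.WC
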