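/-
Large extraspecial `2`-groups, the weakly closed case, big pairs: the facts `BF`.
-/
import Cfsg.Agent.Even.WCB1

set_option autoImplicit false

namespace CL.WC.B2

open Cfsg Subgroup CL.Even CL.Grp CL.WC

variable {G : Type*} [Group G] [Finite G] {z t s d : G}

theorem ex_list {L : Subgroup G} (l : List G) (h : l.length < Nat.card L) : ∃ x ∈ L, x ∉ l := by
  classical
  by_contra! h1
  have h2 : (L : Set G) ⊆ l.toFinset := fun x hx => by simpa using h1 x hx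
  have h3 := Set.ncard_le_ncard h2 (Set.toFinite _)
  rw [Set.ncard_coe_finset] at h3
  have h4 := List.toFinset_card_le l
  have h5 : Nat.card L = (L : Set G).ncard := (Nat.card_coe_set_eq _)
  omega

theorem card_ge {X N Q : Subgroup G} (hX : X ≤ Q) (hN : N ≤ Q) :
    Nat.card X * Nat.card N ≤ Nat.card Q * Nat.card (X ⊓ N : Subgroup G) :=
  card_le_of_map hN id (fun _ hb => hX hb) fun _ _ _ _ e => e

omit [Finite G] in
theorem prod {Q X Y : Subgroup G} (h : XE z Q) (hX : X ≤ Q) (hY : Y ≤ Q) (hz : z ∈ X) {v : G} (hv : v ∈ X ⊔ Y) :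
    ∃ u ∈ X, ∃ w ∈ Y, u * w = v := (mem_sup_nl (hY.trans (h.le_norm_of_mem hX hz))).mp hv

omit [Finite G] in
theorem same_hyp {Q X : Subgroup G} (h : XE z Q) (hX : X ≤ Q) {c x a₀ : G} (hc : c ∈ Q) (hx : x ∈ Q)
    (h1 : ∀ a ∈ X, Commute a c → Commute a x) (ha₀ : a₀ ∈ X) (n : ¬ Commute a₀ x) {a : G} (ha : a ∈ X) :
    Commute a (c * x) := by
  by_cases e : Commute a c
  · exact e.mul_right (h1 a ha e)
  refine (h.cm_mul hc hx (hX ha) (fun e1 => e e1.symm) fun e1 => n ?_).symm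
  have := h1 _ (mul_mem ha₀ ha) (h.cm_mul (hX ha₀) (hX ha) hc (fun e2 => n (h1 _ ha₀ e2)) e)
  simpa using this.mul_left e1.symm.inv_left

theorem ex_two {Q P M : Subgroup G} (h : XE z Q) (c : G) (hc : 2 * Nat.card (P ⊓ M : Subgroup G) < Nat.card P) :
    ∃ u ∈ P, u ∉ M ∧ c * u ∉ M := by
  classical
  by_contra! h1
  have := card_le_of_map' (S := P) (K := M) (T := zpowers z) (fun y => if y ∈ M then 1 else z)
    (fun b _ => by split_ifs; exacts [one_mem _, mem_zpowers z]) fun b hb b' hb' e => by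
      by_cases e1 : b ∈ M <;> by_cases e2 : b' ∈ M <;> simp only [e1, e2, if_true, if_false] at e
      · exact mul_mem (inv_mem e1) e2
      · exact absurd e.symm h.ne_one
      · exact absurd e h.ne_one
      · simpa [mul_assoc] using mul_mem (inv_mem (h1 b hb e1)) (h1 b' hb' e2)
  rw [Nat.card_zpowers, h.ord] at this
  omega

omit [Finite G] in
theorem cj_ph (ss : s * s = 1) (u : G) : s * u * s⁻¹ = (ph s u)⁻¹ * u := by
  rw [show (ph s u)⁻¹ * u = s⁻¹ * u * s⁻¹ by rw [ph]; group, inv_eq' ss]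

omit [Finite G] in
theorem cm_of_sq {u w : G} (uu : u * u = 1) (ww : w * w = 1) (e : u * w * (u * w) = 1) : Commute u w := by
  have := inv_eq' e
  rw [mul_inv_rev, inv_eq' uu, inv_eq' ww] at this
  exact this.symm

omit [Finite G] in
theorem cjA {g u : G} (c : Commute g z) (hu : u ∈ A z t) : g * u * g⁻¹ ∈ A z (g * t * g⁻¹) := by
  have := conj_mem_cj g hu
  rwa [cj_A, cfix c] at this

omit [Finite G] in
theorem cjA' {g u : G} (c : Commute g z) (hu : u ∈ A z (g * t * g⁻¹)) : g⁻¹ * u * g ∈ A z t := by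
  simpa [mul_assoc] using cjA c.inv_left hu

omit [Finite G] in
theorem cjA_fix {g u : G} (c : Commute g z) (hu : u ∈ A z t) (e : Commute g u) : u ∈ A z (g * t * g⁻¹) := by
  simpa only [cfix e] using cjA c hu

omit [Finite G] in
theorem cjZ {g u : G} (c : Commute g z) (hu : g * u * g⁻¹ ∈ zpowers z) : u ∈ zpowers z := by
  obtain ⟨k, e⟩ := hu
  have := cfix (c.inv_left.zpow_right k)
  exact ⟨k, by simp only at e ⊢; rw [← this, e]; group⟩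

section
variable (h : Big z t)
include h

theorem zA : z ∈ A z t := h.u_zA
theorem acm {u v : G} (hu : u ∈ A z t) (hv : v ∈ A z t) : Commute u v := h.W_cm (h.aw ▸ hu) (h.aw ▸ hv)
theorem asq {u : G} (hu : u ∈ A z t) : u * u = 1 := h.W_sq h.p (h.aw ▸ hu)
theorem memA {x : G} (hx : x ∈ QQ z) (hc : ∀ a ∈ A z t, Commute a x) : x ∈ A z t :=
  h.aw ▸ h.mem_W_of h.p hx fun a ha ha' => hc a ⟨ha, cm_iff.mpr ha'⟩
theorem phA {x : G} (hx : x ∈ QQ z) : ph t x ∈ A z t := h.aw ▸ h.ph_W hx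
theorem ZA : zpowers z ≤ A z t := zpowers_le.mpr (zA h)
theorem AB {a b : G} (ha : a ∈ A z t) (hb : b ∈ A t z) : Commute a b :=
  cmt_eq_one.mp (mem_bot.mp (h.bot ▸ h.cmt_mem ha hb))

theorem exph {u : G} (hu : u ∈ A z t) : ∃ x ∈ QQ z, ph t x = u ∨ ph t x = z * u := by
  obtain ⟨x, hx, e | e⟩ := h.mem_W.mp (h.aw ▸ hu)
  exacts [⟨x, hx, Or.inl e.symm⟩, ⟨x, hx, Or.inr (by rw [e, ← mul_assoc, h.zz, one_mul])⟩]

theorem cmtA {g x : G} (hg : g ∈ A t z) (hx : x ∈ QQ z) : x * g * x⁻¹ * g⁻¹ ∈ A z t :=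
  memA h (h.xe.cmt_mem (cm_iff.mp hg.2) hx) fun _ ha => h.xe.cm_cmt (cm_iff.mp hg.2) ha.1 hx (AB h ha hg)

omit [Finite G] h in
theorem zmul {X : Subgroup G} (hz : z ∈ X) {u v : G} (e : u = v ∨ u = z * v) : u ∈ X ↔ v ∈ X := by
  rcases e with rfl | rfl
  exacts [Iff.rfl, X.mul_mem_cancel_left hz]

theorem not_le : ¬ A z t ≤ zpowers z := fun e => by
  have := card_le_of_le e
  rw [h.cA, Nat.card_zpowers, h.xe.ord] at this
  omega

theorem not_le8 {L : Subgroup G} (hL : Nat.card L = 8) : ¬ L ≤ zpowers z := fun e => by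
  have := card_le_of_le e
  rw [hL, Nat.card_zpowers, h.xe.ord] at this
  omega

theorem eq_of_le (h' : Big z s) (e : A z t ≤ A z s) : A z t = A z s :=
  eq_of_le_of_card_ge e (by rw [h.cA, h'.cA])

theorem A_eq (h' : Big z s) (e : t * s ∈ QQ z) : A z t = A z s := by
  have := h.xe.WW_mul h'.cm h'.tt e (by rw [mul_assoc t, h'.tt, mul_one, h.tt])
  rw [mul_assoc, h'.tt, mul_one] at this
  exact h.aw.trans (this.trans h'.aw.symm)

theorem A_cj (h' : Big z s) {g : G} (c : Commute g z) (e : ∀ u ∈ A z t, g * u * g⁻¹ ∈ A z s) :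
    A z (g * t * g⁻¹) = A z s :=
  eq_of_le (h.cjr c) h' fun u hu => by simpa [mul_assoc] using e _ (cjA' c hu)

theorem dec (h' : Big z s) {v : G} (hv : v ∈ QQ z) (hc : ∀ l ∈ A z t ⊓ A z s, Commute l v) :
    ∃ u ∈ A z t, ∃ w ∈ A z s, u * w = v :=
  prod h.xe inf_le_left inf_le_left (zA h) ((h.xe.dc (X := A z t ⊔ A z s) (sup_le inf_le_left inf_le_left)
    (mem_sup_left (zA h))).le ⟨hv, fun y hy => hc y
      ⟨memA h hy.1 fun a ha => hy.2 a (mem_sup_left ha), memA h' hy.1 fun a ha => hy.2 a (mem_sup_right ha)⟩⟩)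

theorem cmZ {l v : G} (hl : l ∈ zpowers z) (hv : v ∈ QQ z) : Commute l v := by
  rcases h.xe.mem_Z.mp hl with rfl | rfl
  exacts [Commute.one_left v, (h.xe.cz hv).symm]

theorem dec' (h' : Big z s) (o : Opp z t s) {v : G} (hv : v ∈ QQ z) : ∃ u ∈ A z t, ∃ w ∈ A z s, u * w = v :=
  dec h h' hv fun _ hl => cmZ h (o hl) hv

theorem K1_of (h' : Big z s) (o : Opp z t s) {g : G} (c : Commute g z)
    (h1 : ∀ u ∈ A z t, u * g * u⁻¹ * g⁻¹ ∈ zpowers z) (h2 : ∀ u ∈ A z s, u * g * u⁻¹ * g⁻¹ ∈ zpowers z) : g ∈ QQ z :=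
  mem_of_K1 h.xe c fun v hv => by
    obtain ⟨u, hu, w, hw, rfl⟩ := dec' h h' o hv
    exact (K1 h.xe g).mul_mem ⟨hu.1, h1 u hu⟩ ⟨hw.1, h2 w hw⟩

theorem no_norm (hd : Pr z d) (p : P z d) (e : A z (d * t * d⁻¹) = A z t)
    (hi : ∀ v ∈ A z t, v ∈ W z d → v ∈ zpowers z) : False := by
  have k : ∀ x ∈ QQ z, ph d x ∈ A z t → Commute x d := fun x hx e1 =>
    (WC.ph_eq_one hd.tt).mp ((h.xe.mem_Z.mp (hi _ e1 (hd.ph_W hx))).resolve_right (p x hx))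
  obtain ⟨x, hx, n⟩ := hd.exists_nc
  refine n (k x hx (memA h (hd.ph_mem hx) fun a ha => hd.A_cm ha.1 (k a ha.1 ?_) (hd.ph_W hx)))
  have := mul_mem (e ▸ cjA hd.cm.symm ha) (inv_mem ha)
  rwa [cj_ph hd.tt, mul_inv_cancel_right, inv_mem_iff] at this

theorem meet4 {N : Subgroup G} (hN : N ≤ QQ z) (h4 : 128 ≤ Nat.card N) : 8 ≤ Nat.card (A z t ⊓ N : Subgroup G) := by
  have := card_ge (X := A z t) inf_le_left hN
  rw [h.cA, h.cQ] at this
  omega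

theorem meetU (hd : U z d) : 8 ≤ Nat.card (A z t ⊓ A z d : Subgroup G) :=
  meet4 h inf_le_left (by have := hd.cA; rw [h.cQ] at this; omega)

theorem ex8 {L : Subgroup G} (hL : 8 ≤ Nat.card L) : ∃ v ∈ L, v ∉ zpowers z :=
  exists_not_mem (by rw [Nat.card_zpowers, h.xe.ord]; omega)

theorem card_cl {L : Subgroup G} (hL : L ≤ QQ z) (h8 : Nat.card L = 8) (o : ∀ v ∈ L, v ∈ A z t → v ∈ zpowers z) :
    Nat.card (A z t ⊓ 𝒞(L) : Subgroup G) ≤ 8 := by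
  have h1 := card_ge (le_sup_right : L ≤ A z t ⊔ L) (le_sup_left : A z t ≤ A z t ⊔ L)
  have h2 := h.xe.card_cent (X := A z t ⊔ L) (sup_le inf_le_left hL) (mem_sup_left (zA h))
  have h3 := card_le_of_le (show L ⊓ A z t ≤ zpowers z from fun v hv => o v hv.1 hv.2)
  have h4 := card_le_of_le (show A z t ⊓ 𝒞(L) ≤ QQ z ⊓ 𝒞(A z t ⊔ L) from fun v hv => ⟨hv.1.1,
    fun a ha => cm_iff.mp ((show A z t ⊔ L ≤ centralizer {v} from sup_le (fun a ha => cm_iff.mpr (acm h ha hv.1))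
      fun a ha => cm_iff.mpr (hv.2 a ha)) ha)⟩)
  rw [Nat.card_zpowers, h.xe.ord] at h3
  rw [h8, h.cA] at h1
  rw [h.cQ] at h2
  nlinarith [Nat.mul_le_mul_left (Nat.card (A z t ⊔ L : Subgroup G)) h3,
    Nat.mul_le_mul_left (Nat.card (A z t ⊔ L : Subgroup G)) h4]

theorem uni (cl : Cl z) (hd : U z d) (hi : ∀ v ∈ A z t, v ∈ W z d → v ∈ zpowers z) :
    Nat.card (A z t ⊓ A z d : Subgroup G) = 8 ∧ A z t ⊓ A z d = A z t ⊓ A z (d * t * d⁻¹) ∧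
      A z t ≠ A z (d * t * d⁻¹) := by
  have ne : A z t ≠ A z (d * t * d⁻¹) := fun e => no_norm h hd.toPr hd.p e.symm hi
  have le : A z t ⊓ A z d ≤ A z t ⊓ A z (d * t * d⁻¹) := fun v hv =>
    ⟨hv.1, cjA_fix hd.cm.symm hv.1 (cm_iff.mp hv.2.2).symm⟩
  have h8 := meetU h hd
  obtain ⟨v, hv, n⟩ := ex8 h h8
  have h1 := (h.meet (h.cjr hd.cm.symm) cl ne fun o => n (o (le hv))).1
  have h2 := eq_of_le_of_card_ge le (h1 ▸ h8)
  exact ⟨h2 ▸ h1, h2, ne⟩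

theorem cw (hd : U z d) {u w : G} (hu : u ∈ A z t) (n : ¬ Commute u d) (hw : w ∈ W z d) (c : Commute u w)
    (n' : w ∉ zpowers z) : u * w ∈ A z (d * t * d⁻¹) := by
  have h1 : u * ph d u ∈ A z (d * t * d⁻¹) := by
    have := cjA hd.cm.symm (inv_mem hu)
    rwa [show d * u⁻¹ * d⁻¹ = u * ph d u by
      rw [ph, ← mul_assoc, ← mul_assoc, ← mul_assoc, asq h hu, one_mul, inv_eq' hd.tt]] at this
  rcases hd.cent_W hu.1 n hw c with rfl | rfl | rfl | rfl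
  · exact absurd (one_mem _) n'
  · exact absurd (mem_zpowers _) n'
  · exact h1
  · rw [← mul_assoc, (h.xe.cz hu.1).eq, mul_assoc z]; exact mul_mem (zA (h.cjr hd.cm.symm)) h1

end

variable {a b c : G}

section
variable (h : Big z t) (h' : Big z s) (cl : Cl z)
include h h'

theorem ncm (o : Opp z t s) (e : A z (s * t * s⁻¹) = A z t) : False :=
  no_norm h h'.toPr h'.p e fun v hv hw => o ⟨hv, h'.aw ▸ hw⟩

omit [Finite G] h h' in
theorem ncs (o : Opp z t s) {u : G} (hu : u ∈ A z t) (n : u ∉ zpowers z) : ¬ Commute u s := fun e =>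
  n (o ⟨hu, hu.1, cm_iff.mpr e⟩)

omit [Finite G] h h' in
theorem hi (o : Opp z t s) (hW : W z d ≤ A z s) : ∀ v ∈ A z t, v ∈ W z d → v ∈ zpowers z := fun v hv hw =>
  o ⟨hv, hW hw⟩

omit h in
theorem free (o : Opp z t s) {g : G} (hg : g ∈ A s z) : Opp z (g * t * g⁻¹) s := fun v hv => o ⟨by
  have := cjA' (cm_iff.mp hg.2) hv.1
  rwa [mul_assoc, (AB h' hv.2 hg).eq, inv_mul_cancel_left] at this, hv.2⟩

theorem free' (o : Opp z t s) {g : G} (hg : g ∈ A s z) (e : g * t * g⁻¹ * t ∈ QQ z) : g = 1 := by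
  have c : Commute g z := cm_iff.mp hg.2
  have e1 := A_eq (h.cjr c) h e
  refine mem_bot.mp (h'.bot ▸ ⟨K1_of h h' o c (fun u hu => o ⟨?_, cmtA h' hg hu.1⟩) fun u hu => ?_, hg.1⟩)
  · rw [mul_assoc, mul_assoc, ← mul_assoc g]; exact mul_mem hu (e1 ▸ cjA c (inv_mem hu))
  · rw [cmt_eq_one.mpr (AB h' hu hg)]; exact one_mem _

include cl

theorem cm (n : ¬ Opp z t s) : t * s * t * s ∈ QQ z := by
  by_cases e : A z t = A z s
  · rw [mul_assoc]; exact mul_mem (h.uniq h' cl e) (h.uniq h' cl e)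
  have := h.uniq (h.cjr h'.cm.symm) cl (A_cj h h h'.cm.symm fun u hu => by
    rw [cj_ph h'.tt]
    exact mul_mem (inv_mem ((h.meet h' cl e n).2 u hu.1 fun l hl => acm h hu hl.1)) hu).symm
  rwa [inv_eq' h'.tt, ← mul_assoc, ← mul_assoc] at this

omit h in
/-- two commuting elements of opposite quads lie in a unitary configuration -/
theorem lin2 (o : Opp z t s) {u u' : G} (hu : u ∈ A z t) (n : u ∉ zpowers z) (hu' : u' ∈ A z t)
    (c : Commute u (ph s u')) : ∃ e ∈ A s z, U z (e * z) ∧ W z (e * z) ≤ A z s ∧ u ∈ A z (e * z) ∧ u' ∈ A z (e * z) := by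
  obtain ⟨e, he, hd, -, h1, h2⟩ := h'.lin cl hu.1 (ncs o hu n) (phA h' hu'.1) c
  obtain ⟨k1, -, k3⟩ := h'.pt cl he hd
  exact ⟨e, he, hd, k1, k3 u hu.1 h1, k3 u' hu'.1 h2⟩

theorem key (o : Opp z t s) {u : G} (hu : u ∈ A z t) : ph t (ph s u) = u ∨ ph t (ph s u) = z * u := by
  by_cases n : u ∈ zpowers z
  · rw [(WC.ph_eq_one h'.tt).mpr (cm_iff.mp (ZA h' n).2), (WC.ph_eq_one h.tt).mpr (Commute.one_left t)]
    rcases h.xe.mem_Z.mp n with rfl | rfl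
    exacts [Or.inl rfl, Or.inr h.zz.symm]
  obtain ⟨x, hx, e⟩ := exph h hu
  have hc := phA h' hu.1
  have k : ∀ u' ∈ A z t, Commute u' (ph s u) → Commute u' x := fun u' hu' c => by
    obtain ⟨e0, -, hd, hW, h1, h2⟩ := lin2 h' cl o hu n hu' ((h'.cm_ph hu.1 hu'.1).mp c)
    obtain ⟨-, e1, ne⟩ := uni h cl hd (hi o hW)
    exact (h.int (h.cjr hd.cm.symm) cl ne hx ((zmul (zA (h.cjr hd.cm.symm)) e).mpr (e1.le ⟨hu, h1⟩).2) hu'
      (e1.le ⟨hu', h2⟩).2).symm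
  obtain ⟨a₀, ha₀, n₀⟩ : ∃ a₀ ∈ A z t, ¬ Commute a₀ x := by
    by_contra! h1
    rw [(WC.ph_eq_one h.tt).mpr (cm_iff.mp (memA h hx h1).2)] at e
    exact n ((zmul (mem_zpowers z) e).mp (one_mem _))
  have := memA h (mul_mem hc.1 hx) fun a ha => same_hyp h.xe inf_le_left hc.1 hx k ha₀ n₀ ha
  rw [← inv_eq' (asq h' hc)] at this
  rwa [ph_eq_ph.mpr (cm_iff.mp this.2)]

theorem br (o : Opp z t s) : A z (s * t * s⁻¹) = A z (t * s * t⁻¹) :=
  A_cj h (h'.cjr h.cm.symm) h'.cm.symm fun u hu => by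
    have hc := phA h' hu.1
    have h1 := cjA h.cm.symm (inv_mem hc)
    have hz := zA (h'.cjr h.cm.symm)
    rw [inv_eq' (asq h' hc), cj_ph h.tt (ph s u), inv_eq' (asq h (phA h hc.1))] at h1
    have h2 : u * ph s u ∈ A z (t * s * t⁻¹) := (zmul hz ((key h h' cl o hu).imp (fun e => by rw [e])
      fun e => by rw [e, mul_assoc])).mp h1
    have := inv_mem h2
    rwa [mul_inv_rev, inv_eq' (asq h hu), ← cj_ph h'.tt] at this

end

theorem ph_ez (h : Big z t) {e x : G} (he : e ∈ A t z) (hx : x ∈ QQ z) : ph (e * z) x = x * e * x⁻¹ * e⁻¹ := by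
  have c : Commute e z := cm_iff.mp he.2
  rw [inv_eq' (asq h.symm he), ph, ← mul_assoc x, mul_assoc _ z, ← (h.xe.cz (inv_mem hx)).eq, c.eq, ← mul_assoc,
    ← mul_assoc, mul_assoc _ z z, h.zz, mul_one]

theorem surj (hb : Big z b) (cl : Cl z) {u w : G} (hu : u ∈ QQ z) (uu : u * u = 1) (n : ¬ Commute u b) (hw : w ∈ A z b)
    (c : Commute u w) : ∃ e ∈ A b z, e * u * e⁻¹ = u * w ∨ e * u * e⁻¹ = z * (u * w) := by
  let I : Subgroup G := ⟨⟨⟨{w | ∃ e ∈ A b z, u * e * u⁻¹ * e⁻¹ = w}, by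
    rintro _ _ ⟨e, he, rfl⟩ ⟨f, hf, rfl⟩
    exact ⟨e * f, mul_mem he hf, by rw [cmt_mul', cfix (AB hb (cmtA hb hf hu) he).symm]⟩⟩, ⟨1, one_mem _, by simp⟩⟩, by
    rintro _ ⟨e, he, rfl⟩
    exact ⟨e, he, (inv_eq' (asq hb (cmtA hb he hu))).symm⟩⟩
  have le : I ≤ A z b ⊓ centralizer {u} := by
    rintro _ ⟨e, he, rfl⟩
    exact ⟨cmtA hb he hu, cm_iff.mpr (hb.xe.cm_cmt_self (cm_iff.mp he.2) hu (asq hb (cmtA hb he hu))).symm⟩
  have h1 := card_le_of_map' (S := A b z) (K := centralizer {u}) (T := I) (fun e => u * e * u⁻¹ * e⁻¹)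
    (fun e he => ⟨e, he, rfl⟩) fun e _ f _ e1 => cm_iff.mpr (cmt_eq_cmt e1).symm
  obtain ⟨h2, h3⟩ := hb.u_cj hu n
  rw [h3, h2.cE, hb.symm.cA] at h1
  obtain ⟨v, hv, nv⟩ : ∃ v ∈ A z b, ¬ Commute v u := by
    by_contra! h4; exact n (cm_iff.mp (memA hb hu h4).2)
  have h4 := hb.xe.card_inf (X := A z b) inf_le_left hu hv nv
  rw [hb.cA] at h4
  have hz : z ∉ I := by
    rintro ⟨e, he, e1⟩
    rcases hb.cases he with rfl | rfl | hd | hd
    · exact hb.xe.ne_one (by simpa using e1.symm)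
    · exact hb.p u hu (by rwa [inv_eq' hb.tt] at e1)
    · exact hd.p u hu ((ph_ez hb he hu).trans e1)
    have heb := mul_mem he (zA hb.symm)
    have e2 := ph_ez hb heb hu
    rw [cmt_mul', e1, cfix (AB hb (cmtA hb (zA hb.symm) hu) he).symm, inv_eq' hb.tt, ← ph] at e2
    have h5 := (hb.pt cl heb hd).2.2 u hu ((zmul (mem_WW _ z _) (Or.inr e2)).mp (hd.ph_W hu))
    rw [(WC.ph_eq_one hd.tt).mpr (cm_iff.mp h5.2)] at e2
    exact hb.p u hu (by rw [eq_inv_of_mul_eq_one_right e2.symm, hb.xe.inv_eq])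
  have k : ∀ w ∈ I, ∃ e ∈ A b z, e * u * e⁻¹ = u * w := by
    rintro _ ⟨e, he, rfl⟩
    exact ⟨e, he, by rw [← mul_assoc, ← mul_assoc, ← mul_assoc, uu, one_mul, inv_eq' uu]⟩
  by_cases h5 : w ∈ I
  · exact (k w h5).imp fun e he => ⟨he.1, Or.inl he.2⟩
  · exact (k _ (idx2 le (by omega) ⟨zA hb, cm_iff.mpr (hb.xe.cz hu).symm⟩ ⟨hw, cm_iff.mpr c.symm⟩ hz h5)).imp
      fun e he => ⟨he.1, Or.inr (by rw [he.2, ← mul_assoc, (hb.xe.cz hu).eq, mul_assoc])⟩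

theorem trans1 (ha : Big z a) (hb : Big z b) (hc : Big z c) (cl : Cl z) (o : Opp z a b) (o' : Opp z c b)
    (n : ¬ Opp z a c) : ∃ g ∈ A b z, g * a * g⁻¹ * c ∈ QQ z := by
  by_cases e : A z a = A z c
  · exact ⟨1, one_mem _, by simpa using ha.uniq hc cl e⟩
  have h8 := (ha.meet hc cl e n).1
  obtain ⟨l, hl, nl⟩ := ex8 ha h8.ge
  obtain ⟨m, hm, nm⟩ := ex_list (L := A z a ⊓ A z c) [1, z, l, z * l] (by rw [h8]; simp)
  obtain ⟨e0, he, hd, hW, h1, h2⟩ := lin2 hb cl o hl.1 nl hm.1 (ha.int hc cl e (hb.ph_mem hm.1.1)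
    ((zmul (zA hc) (key ha hb cl o hm.1)).mpr hm.2) hl.1 hl.2).symm
  have hL : A z a ⊓ A z c ≤ A z (e0 * z) := by
    by_contra h3
    obtain ⟨x, hx, nx⟩ := SetLike.not_le_iff_exists.mp h3
    have h4 := two_mul_card_le (inf_le_left : A z a ⊓ A z c ⊓ A z (e0 * z) ≤ _) hx fun e => nx e.2
    have := four_cases (D := A z a ⊓ A z c ⊓ A z (e0 * z)) (by omega) ⟨⟨zA ha, zA hc⟩, hd.u_zA⟩ ⟨hl, h1⟩ ha.zz
      (asq ha hl.1) ha.xe.ne_one (fun e => nl (e ▸ one_mem _)) (fun e => nl (e ▸ mem_zpowers _)) ⟨hm, h2⟩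
    exact nm (by simpa using this)
  obtain ⟨h3, -, -⟩ := uni ha cl hd (hi o hW)
  have h4 : A z a ⊓ A z c = A z a ⊓ A z (e0 * z) :=
    eq_of_le_of_card_ge (le_inf inf_le_left hL) (by rw [h3, h8])
  have h5 : W z (e0 * z) = A z b ⊓ 𝒞(A z a ⊓ A z c) := eq_of_le_of_card_ge
    (fun w hw => ⟨hW hw, fun v hv => hd.A_cm (hL hv).1 (cm_iff.mp (hL hv).2) hw⟩)
    (hd.cW ▸ card_cl hb (inf_le_left.trans inf_le_left) h8 fun v hv hv' => o ⟨hv.1, hv'⟩)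
  have hd' := ha.cjr hd.cm.symm
  have h6 : A z c ≤ A z (e0 * z * a * (e0 * z)⁻¹) := fun v hv => by
    obtain ⟨u, hu, w, hw, rfl⟩ := dec' ha hb o hv.1
    have k : u ∈ A z c ↔ w ∈ zpowers z := ⟨fun e => o' ⟨((A z c).mul_mem_cancel_left e).mp hv, hw⟩,
      fun e => ((A z c).mul_mem_cancel_right (ZA hc e)).mp hv⟩
    have k' : u ∈ A z c ↔ Commute u (e0 * z) := ⟨fun e => cm_iff.mp (hL ⟨hu, e⟩).2,
      fun e => (h4.ge ⟨hu, hu.1, cm_iff.mpr e⟩).2⟩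
    by_cases e1 : u ∈ A z c
    · exact mul_mem (cjA_fix hd.cm.symm hu (k'.mp e1).symm) (ZA hd' (k.mp e1))
    · exact cw ha hd hu (mt k'.mpr e1) (h5.ge ⟨hw, fun x hx => by
        simpa using ((acm ha hx.1 hu).inv_right.mul_right (acm hc hx.2 hv)).eq⟩)
        (cm_of_sq (asq ha hu) (asq hb hw) (asq hc hv)) (mt k.mpr e1)
  have := hd'.uniq hc cl (eq_of_le hc hd' h6).symm
  exact ⟨e0, he, by rwa [show e0 * z * a * (e0 * z)⁻¹ = e0 * (z * a * z⁻¹) * e0⁻¹ by group, cfix ha.cm] at this⟩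

theorem trans (ha : Big z a) (hb : Big z b) (hc : Big z c) (cl : Cl z) (o : Opp z a b) (o' : Opp z c b) :
    ∃ g ∈ A b z, g * a * g⁻¹ * c ∈ QQ z := by
  obtain ⟨u, hu, n⟩ := ex8 ha (L := A z a) (by rw [ha.cA]; omega)
  obtain ⟨v, hv, w, hw, e⟩ := dec' hc hb o' hu.1
  have e1 : u * w = v := by rw [← e, mul_assoc, asq hb hw, mul_one]
  obtain ⟨g, hg, e2⟩ := surj hb cl hu.1 (asq ha hu) (ncs o hu n) hw
    (cm_of_sq (asq ha hu) (asq hb hw) (e1 ▸ asq hc hv))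
  have c : Commute g z := cm_iff.mp hg.2
  obtain ⟨f, hf, e3⟩ := trans1 (ha.cjr c) hb hc cl (free hb o hg) o' fun o1 =>
    n (cjZ c (o1 ⟨cjA c hu, (zmul (zA hc) e2).mpr (e1 ▸ hv)⟩))
  exact ⟨f * g, mul_mem hf hg, by rwa [show f * g * a * (f * g)⁻¹ = f * (g * a * g⁻¹) * f⁻¹ by group]⟩

theorem fixpt (h : Big z t) {g : G} (c : Commute g z) (hg : g = 1 ∨ U z (g * z)) :
    ∃ v ∈ A z t, v ∉ zpowers z ∧ v ∈ A z (g * t * g⁻¹) := by
  rcases hg with rfl | hd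
  · obtain ⟨u, hu, n⟩ := ex8 h (L := A z t) (by rw [h.cA]; omega)
    exact ⟨u, hu, n, by simpa using hu⟩
  obtain ⟨v, hv, n⟩ := ex8 h (meetU h hd)
  exact ⟨v, hv.1, n, cjA_fix c hv.1 (by
    simpa using ((cm_iff.mp hv.2.2).mul_right (h.xe.cz hv.1.1).inv_right).symm)⟩

theorem symp (ha : Big z a) (hb : Big z b) (hc : Big z c) (cl : Cl z) (o : Opp z a b) (o1 : Opp z c a)
    (o2 : Opp z c b) (o3 : Opp z c (a * b * a⁻¹)) : False := by
  obtain ⟨g, hg, e⟩ := trans ha hb hc cl o o2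
  have c : Commute g z := cm_iff.mp hg.2
  have e1 := A_eq (ha.cjr c) hc e
  have : (g = 1 ∨ U z (g * z)) ∨ (g * b = 1 ∨ U z (g * b * z)) := by
    rcases hb.cases hg with e | e | e | e
    exacts [Or.inl (Or.inl e), Or.inr (Or.inl (by rw [e, hb.tt])), Or.inl (Or.inr e), Or.inr (Or.inr e)]
  rcases this with e2 | e2
  · obtain ⟨v, hv, n, hv'⟩ := fixpt ha c e2
    exact n (o1 ⟨e1 ▸ hv', hv⟩)
  · obtain ⟨v, hv, n, hv'⟩ := fixpt (ha.cjr hb.cm.symm) (c.mul_left hb.cm.symm) e2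
    rw [show g * b * (b * a * b⁻¹) * (g * b)⁻¹ = g * (b * b) * a * (b * b)⁻¹ * g⁻¹ by group, hb.tt, mul_one, inv_one,
      mul_one] at hv'
    exact n (o3 ⟨e1 ▸ hv', br ha hb cl o ▸ hv⟩)

theorem third {p q r : G} {L : Subgroup G} (hp : Big z p) (hq : Big z q) (hc : Big z c) (cl : Cl z)
    (hL : A z p ⊓ A z q = L) (h8 : Nat.card L = 8) (hr : L ≤ A z r) (n1 : ¬ Opp z c p) (n2 : ¬ Opp z c q) :
    ¬ Opp z c r := fun o => by
  have k : ∀ {p}, Big z p → L ≤ A z p → ¬ Opp z c p → Nat.card (A z c ⊓ A z p : Subgroup G) = 8 ∧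
      A z c ⊓ A z p = A z c ⊓ 𝒞(L) := fun {p} hp le n => by
    have h1 := (hc.meet hp cl (fun e => not_le8 hc h8 fun v hv => o ⟨e ▸ le hv, hr hv⟩) n).1
    exact ⟨h1, eq_of_le_of_card_ge (fun v hv => ⟨hv.1, fun x hx => acm hp (le hx) hv.2⟩)
      (h1 ▸ card_cl hc (le.trans inf_le_left) h8 fun v hv hv' => o ⟨hv', hr hv⟩)⟩
  obtain ⟨h1, h2⟩ := k hp (hL ▸ inf_le_left) n1
  have h3 := (k hq (hL ▸ inf_le_right) n2).2
  exact not_le8 hc h1 fun v hv => o ⟨hv.1, hr (hL ▸ ⟨hv.2, (h3.ge (h2.le hv)).2⟩)⟩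

theorem ex_d {p q : G} (hp : Big z p) (hq : Big z q) (cl : Cl z) (ne : A z p ≠ A z q) (n : ¬ Opp z p q) :
    ∃ d, U z d ∧ W z d ≤ A z p ∧ A z p ≤ A z d ∧ ∀ v ∈ A z q, v ∈ W z d → v ∈ zpowers z := by
  have h8 := (hp.meet hq cl ne n).1
  obtain ⟨c, hc, nc⟩ := exists_not_mem (S := A z p ⊓ A z q) (T := A z p) (by rw [h8, hp.cA]; omega)
  obtain ⟨x, hx, e⟩ := exph hp hc
  have n1 : ph p x ∉ A z q := fun e1 => nc ⟨hc, (zmul (zA hq) e).mp e1⟩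
  have n2 : ¬ Commute x p := fun e1 => n1 ((WC.ph_eq_one hp.tt).mpr e1 ▸ one_mem _)
  obtain ⟨l, hl, nl⟩ : ∃ l ∈ A z q ⊓ A z p, ¬ Commute x l := by
    by_contra! h1; exact n1 ((hq.meet hp cl ne.symm (mt Opp.symm n)).2 x hx h1)
  have h1 := hp.xe.card_inf (X := A z p) inf_le_left hx hl.2 fun e => nl e.symm
  have h2 := two_mul_card_le (S := A z p ⊓ centralizer {x} ⊓ A z q) (T := A z p ⊓ A z q)
    (fun v hv => ⟨hv.1.1, hv.2⟩) ⟨hl.2, hl.1⟩ fun e => nl (cm_iff.mp e.1.2).symm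
  rw [hp.cA] at h1
  obtain ⟨u, hu, n3, n4⟩ := ex_two (P := A z p ⊓ centralizer {x}) (M := A z q) hp.xe (ph p x) (by omega)
  obtain ⟨e0, he, hd, -, h3, h4⟩ := hp.lin cl hx n2 hu.1 (cm_iff.mp hu.2).symm
  refine ⟨_, hd, (hp.pt cl he hd).1, fun v hv => ⟨hv.1, cm_iff.mpr ((AB hp hv he).mul_right (hp.xe.cz hv.1))⟩,
    fun v hv hv' => by_contra fun n5 => n4 ?_⟩
  have h5 := two_mul_card_le (S := zpowers z) (T := W z (e0 * z) ⊓ A z q)
    (zpowers_le.mpr ⟨mem_WW _ z _, zA hq⟩) ⟨hv', hv⟩ n5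
  rw [Nat.card_zpowers, hp.xe.ord] at h5
  exact (idx2 (B := W z (e0 * z) ⊓ A z q) inf_le_left (by rw [hd.cW]; omega) h3 h4 (fun e => n1 e.2) fun e => n3 e.2).2

theorem sum {p q : G} (hp : Big z p) (hq : Big z q) (cl : Cl z) (n : ¬ Opp z p q) (n' : p * q ∉ QQ z) :
    ∃ y, Big z y ∧ ∀ c, Big z c →
    (¬ Opp z c p ∨ ¬ Opp z c q ∨ ¬ Opp z c y) ∧ (¬ Opp z c p → ¬ Opp z c q → ¬ Opp z c y) ∧
      (¬ Opp z c p → ¬ Opp z c y → ¬ Opp z c q) ∧ (¬ Opp z c q → ¬ Opp z c y → ¬ Opp z c p) := by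
  have ne : A z p ≠ A z q := fun e => n' (hp.uniq hq cl e)
  have h8 := (hp.meet hq cl ne n).1
  obtain ⟨d, hd, h1, h2, h3⟩ := ex_d hp hq cl ne n
  have hy := hq.cjr hd.cm.symm
  obtain ⟨h4, h5, -⟩ := uni hq cl hd h3
  have h6 : A z p ⊓ A z q = A z q ⊓ A z d :=
    eq_of_le_of_card_ge (fun v hv => ⟨hv.2, h2 hv.1⟩) (by rw [h4, h8])
  have h7 : A z p ⊓ A z q ≤ A z (d * q * d⁻¹) := (h6.trans h5).le.trans inf_le_right
  have h9 : A z p ⊓ A z (d * q * d⁻¹) = A z p ⊓ A z q := (eq_of_le_of_card_ge (le_inf inf_le_left h7) (by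
    rw [h8, (hp.meet hy cl (fun e => ne (eq_of_le hp hq fun u hu => ?_)) fun o =>
      not_le8 hp h8 fun v hv => o ⟨hv.1, h7 hv⟩).1]
    have := cjA' hd.cm.symm (e ▸ hu)
    rwa [mul_assoc, (cm_iff.mp (h2 hu).2).eq, inv_mul_cancel_left] at this)).symm
  refine ⟨_, hy, fun c hc => ⟨?_, third hp hq hc cl rfl h8 h7, third hp hy hc cl h9 h8 inf_le_right,
    third hq hy hc cl (h6.trans h5).symm h8 inf_le_left⟩⟩
  have h10 := hp.xe.card_cent (X := A z p ⊓ A z q) (inf_le_left.trans inf_le_left) ⟨zA hp, zA hq⟩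
  rw [h8, hp.cQ] at h10
  obtain ⟨v, hv, nv⟩ := ex8 hc (meet4 hc (N := QQ z ⊓ 𝒞(A z p ⊓ A z q)) inf_le_left (by omega))
  obtain ⟨u, hu, w, hw, rfl⟩ := dec hp hq hv.2.1 hv.2.2
  have h11 : A z p ⊓ A z q ⊔ W z d = A z p := eq_of_le_of_card_ge (sup_le inf_le_left h1) (by
    have k1 := card_ge (le_sup_right : W z d ≤ A z p ⊓ A z q ⊔ W z d) le_sup_left
    have k2 := card_le_of_le (show W z d ⊓ (A z p ⊓ A z q) ≤ zpowers z from fun v hv => h3 v hv.2.2 hv.1)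
    rw [Nat.card_zpowers, hp.xe.ord] at k2
    rw [h8, hd.cW] at k1
    rw [hp.cA]
    nlinarith [Nat.mul_le_mul_left (Nat.card (A z p ⊓ A z q ⊔ W z d : Subgroup G)) k2])
  obtain ⟨l, hl, u', hu', rfl⟩ := prod hp.xe (inf_le_left.trans inf_le_left) hd.W_le ⟨zA hp, zA hq⟩ (h11.ge hu)
  by_cases e1 : u' ∈ zpowers z
  · exact Or.inr (Or.inl fun o => nv (o ⟨hv.1, mul_mem (mul_mem hl.2 (ZA hq e1)) hw⟩))
  by_cases e2 : Commute w d
  · exact Or.inl fun o => nv (o ⟨hv.1, mul_mem hu (h6.ge ⟨hw, hw.1, cm_iff.mpr e2⟩).1⟩)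
  have c1 : Commute u' w := by
    simpa using (acm hq hl.2 hw).inv_left.mul_left (cm_of_sq (asq hp hu) (asq hq hw) (asq hc hv.1))
  exact Or.inr (Or.inr fun o => nv (o ⟨hv.1, by
    rw [mul_assoc l, c1.eq]; exact mul_mem (h7 hl) (cw hq hd hw e2 hu' c1.symm e1)⟩))

theorem faith (ha : Big z a) (hb : Big z b) (cl : Cl z) (o : Opp z a b) {g : G} (c : Commute g z)
    (hg : ∀ t, Big z t → A z (g * t * g⁻¹) = A z t) {u : G} (hu : u ∈ A z a) : u * g * u⁻¹ * g⁻¹ ∈ zpowers z := by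
  by_cases n : u ∈ zpowers z
  · rw [cmt_eq_one.mpr (by rcases ha.xe.mem_Z.mp n with rfl | rfl; exacts [Commute.one_left g, c.symm])]
    exact one_mem _
  have h1 : g * u * g⁻¹ ∈ A z a := hg a ha ▸ cjA c hu
  have h2 := ha.xe.cm_or hu.1 h1.1 fun y hy cy => by
    obtain ⟨v, hv, w, hw, rfl⟩ := dec' ha hb o hy
    obtain ⟨e, he, hd, ce, -, h3⟩ := hb.lin cl hu.1 (ncs o hu n) hw
      (by simpa using ((acm ha hv hu).inv_left.mul_left cy).symm)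
    obtain ⟨-, h4, -⟩ := uni ha cl hd (hi o (hb.pt cl he hd).1)
    have h5 := h4.ge ⟨h1, hg _ (ha.cjr hd.cm.symm) ▸ cjA c
      (h4.le ⟨hu, hu.1, cm_iff.mpr (ce.mul_right (ha.xe.cz hu.1))⟩).2⟩
    exact (acm ha hv h1).mul_left (hd.A_cm h5.2.1 (cm_iff.mp h5.2.2) h3).symm
  rw [show u * g * u⁻¹ * g⁻¹ = u * (g * u * g⁻¹)⁻¹ by group]
  rcases h2 with e | e | e
  · exact absurd (cjZ c (ha.xe.mem_Z.mpr e)) n
  · rw [e, mul_inv_cancel]; exact one_mem _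
  · rw [e, mul_inv_rev, mul_inv_cancel_left]; exact inv_mem (mem_zpowers z)

end CL.WC.B2

namespace CL.WC

open Cfsg Subgroup CL.Even CL.Grp

theorem Cl.bf {G : Type*} [Group G] [Finite G] {z : G} (cl : Cl z) : BF z where
  cm _ _ h h' := B2.cm h h' cl
  ncm t s h h' o e := B2.ncm h h' o (B2.A_eq h (h.cjr h'.cm.symm)
    (by rwa [inv_eq' h'.tt, ← mul_assoc, ← mul_assoc])).symm
  br t s h h' o := by
    simpa only [inv_eq' h.tt, inv_eq' h'.tt] using (h'.cjr h.cm.symm).uniq (h.cjr h'.cm.symm) cl (B2.br h h' cl o).symm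
  symp _ _ _ ha hb hc o o1 o2 o3 := B2.symp ha hb hc cl o o1 o2 (by rwa [inv_eq' ha.tt])
  trans _ _ _ ha hb hc := B2.trans ha hb hc cl
  free _ _ ha hb o _ hg := ⟨B2.free hb o hg, B2.free' ha hb o hg⟩
  sum _ _ hp hq := B2.sum hp hq cl
  faith _ _ ha hb o g c hg :=
    have k : ∀ t, Big z t → A z (g * t * g⁻¹) = A z t := fun t h => B2.A_eq (h.cjr c) h (hg t h)
    B2.K1_of ha hb o c (fun _ => B2.faith ha hb cl o c k) fun _ => B2.faith hb ha cl o.symm c k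

end CL.WC
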